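import Mathlib
import Cfsg.Agent.Lib.Helper65.MonoDefs

/-!
# S5634 piece MONO-LL (helper12 for helper65)

`ll`: if `X` contains the monomial matrices of determinant `1` and satisfies `(A1)`, then an
element of `X` stabilising `V_J` whose block on the complement is a root element yields a root
element of `X`.
-/

set_option autoImplicit false
set_option linter.unusedSectionVars false
set_option linter.unusedVariables false
set_option linter.unusedSimpArgs false

namespace Cfsg.Agent.Lib.Helper65.Mono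

open Matrix

section
variable {F : Type*} [Field F] {κ : Type} [Fintype κ] [DecidableEq κ]

/-- the inverse exponents of `d_ab(t)` -/
theorem ll_dgv_inv (a b : κ) (t : Fˣ) (j : κ) :
    (((dgv a b t j)⁻¹ : Fˣ) : F) =
      if j = a then ((t : F))⁻¹ else if j = b then (t : F) else 1 := by
  unfold dgv
  split_ifs <;> simp

/-- entries of a torus commutator `x d_ab(t) x⁻¹ d_ab(t)⁻¹` -/
theorem ll_comm_apply (x : GL κ F) {a b : κ} (hab : a ≠ b) (t : Fˣ) (r j : κ) :
    ((x * dg a b t * x⁻¹ * (dg a b t)⁻¹ : GL κ F) : Matrix κ κ F) r j =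
      ((if r = j then 1 else 0) +
        ((t : F) - 1) * (x : Matrix κ κ F) r a * ((x⁻¹ : GL κ F) : Matrix κ κ F) a j +
        (((t : F))⁻¹ - 1) * (x : Matrix κ κ F) r b * ((x⁻¹ : GL κ F) : Matrix κ κ F) b j) *
      (if j = a then ((t : F))⁻¹ else if j = b then (t : F) else 1) := by
  have h := conj_dg_apply x hab t r j
  rw [Units.val_inv_eq_inv_val] at h
  rw [Units.val_mul]
  have h2 : (((dg a b t)⁻¹ : GL κ F) : Matrix κ κ F) =
      Matrix.diagonal (fun i => (((dgv a b t i)⁻¹ : Fˣ) : F)) := diagU_inv_val _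
  rw [h2, Matrix.mul_diagonal, h, ll_dgv_inv]

/-- entries of a transvection on the complement of `J` -/
theorem ll_tv_apply (J : Finset κ) (k l : {i // i ∉ J}) (c : F) (r j : κ) (hr : r ∉ J)
    (hj : j ∉ J) :
    (Matrix.transvection k l c : Matrix {i // i ∉ J} {i // i ∉ J} F) ⟨r, hr⟩ ⟨j, hj⟩ =
      (if r = j then 1 else 0) + (if r = k.1 ∧ j = l.1 then c else 0) := by
  rw [Matrix.transvection, Matrix.add_apply, Matrix.one_apply, Matrix.single_apply]
  congr 1
  · by_cases h : r = j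
    · subst h
      simp
    · rw [if_neg h, if_neg]
      intro h'
      exact h (congrArg Subtype.val h')
  · by_cases h : r = k.1 ∧ j = l.1
    · rw [if_pos h, if_pos]
      exact ⟨Subtype.ext h.1.symm, Subtype.ext h.2.symm⟩
    · rw [if_neg h, if_neg]
      rintro ⟨h1, h2⟩
      exact h ⟨(congrArg Subtype.val h1).symm, (congrArg Subtype.val h2).symm⟩

/-- first commutator: the `J`-columns and the block on the complement -/
theorem ll_step1 (x : GL κ F) (J : Finset κ) (k l m : κ) (hk : k ∉ J) (hl : l ∉ J) (hm : m ∉ J)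
    (hkl : k ≠ l) (hmk : m ≠ k) (hml : m ≠ l) (c : F) (t : Fˣ)
    (hx : ∀ r j, r ∉ J → j ∉ J → (x : Matrix κ κ F) r j =
      (if r = j then 1 else 0) + (if r = k ∧ j = l then c else 0))
    (hxi : ∀ r j, r ∉ J → j ∉ J → ((x⁻¹ : GL κ F) : Matrix κ κ F) r j =
      (if r = j then 1 else 0) + (if r = k ∧ j = l then -c else 0))
    (hxiJ : ∀ r j, r ∉ J → j ∈ J → ((x⁻¹ : GL κ F) : Matrix κ κ F) r j = 0) :
    (∀ r j, j ∈ J → ((x * dg k m t * x⁻¹ * (dg k m t)⁻¹ : GL κ F) : Matrix κ κ F) r j =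
      if r = j then 1 else 0) ∧
    (∀ r j, r ∉ J → j ∉ J →
      ((x * dg k m t * x⁻¹ * (dg k m t)⁻¹ : GL κ F) : Matrix κ κ F) r j =
      (if r = j then 1 else 0) + (if r = k ∧ j = l then c * (1 - (t : F)) else 0)) := by
  have ht0 : (t : F) ≠ 0 := Units.ne_zero t
  constructor
  · intro r j hj
    have hjk : j ≠ k := fun h => hk (h ▸ hj)
    have hjm : j ≠ m := fun h => hm (h ▸ hj)
    rw [ll_comm_apply x (Ne.symm hmk) t r j, hxiJ k j hk hj, hxiJ m j hm hj, if_neg hjk,
      if_neg hjm]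
    ring
  · intro r j hr hj
    rw [ll_comm_apply x (Ne.symm hmk) t r j, hx r k hr hk, hx r m hr hm, hxi k j hk hj,
      hxi m j hm hj]
    simp only [hkl, hml, hmk, and_false, false_and, true_and, if_false, add_zero]
    by_cases hrk : r = k
    · subst hrk
      by_cases hjr : j = r
      · subst hjr
        simp [hkl, hmk, Ne.symm hmk]
      · by_cases hjl : j = l
        · subst hjl
          simp [hkl, hmk, Ne.symm hmk, hml, Ne.symm hml, Ne.symm hkl]
          ring
        · by_cases hjm : j = m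
          · subst hjm
            simp [hkl, hmk, Ne.symm hmk, hml, Ne.symm hml, Ne.symm hkl, hjl]
          · simp [hkl, hmk, Ne.symm hmk, hml, Ne.symm hml, Ne.symm hkl, hjl, hjm, hjr,
              Ne.symm hjr, Ne.symm hjm]
    · by_cases hrm : r = m
      · subst hrm
        by_cases hjr : j = r
        · subst hjr
          simp [hkl, hmk, Ne.symm hmk, hml, Ne.symm hml]
        · by_cases hjk : j = k
          · subst hjk
            simp [hmk, Ne.symm hmk, hml, Ne.symm hml, hkl, Ne.symm hkl]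
          · simp [hkl, hmk, Ne.symm hmk, hml, Ne.symm hml, Ne.symm hkl, hjk, hjr,
              Ne.symm hjr, Ne.symm hjk]
      · by_cases hjr : j = r
        · subst hjr
          simp [hrk, hrm, Ne.symm hrk, Ne.symm hrm]
        · simp [hrk, hrm, Ne.symm hrk, Ne.symm hrm, hjr, Ne.symm hjr]

/-- a column of the inverse equal to a standard basis vector -/
theorem ll_inv_col (g : GL κ F) (j : κ)
    (h : ∀ r, (g : Matrix κ κ F) r j = if r = j then 1 else 0) :
    ∀ r, ((g⁻¹ : GL κ F) : Matrix κ κ F) r j = if r = j then 1 else 0 := by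
  intro r
  have h1 : (g : Matrix κ κ F) *ᵥ Pi.single j 1 = Pi.single j 1 := by
    funext r'
    rw [Matrix.mulVec_single_one, Matrix.col_apply, h r', Pi.single_apply]
  have h2 : ((g⁻¹ : GL κ F) : Matrix κ κ F) *ᵥ Pi.single j 1 = Pi.single j 1 := by
    conv_lhs => rw [← h1]
    rw [Matrix.mulVec_mulVec, ← Units.val_mul, inv_mul_cancel, Units.val_one, Matrix.one_mulVec]
  have h3 := congrFun h2 r
  rw [Matrix.mulVec_single_one, Matrix.col_apply, Pi.single_apply] at h3
  exact h3

/-- second commutator -/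
theorem ll_step2 (g : GL κ F) (J : Finset κ) (i m : κ) (hi : i ∈ J) (hm : m ∉ J) (t : Fˣ)
    (hF1 : ∀ r j, j ∈ J → (g : Matrix κ κ F) r j = if r = j then 1 else 0)
    (hrow : ∀ j, (g : Matrix κ κ F) m j = if m = j then 1 else 0)
    (hcol : ∀ r, r ∉ J → (g : Matrix κ κ F) r m = if r = m then 1 else 0) :
    UJ J ((g⁻¹ * dg i m t * g * (dg i m t)⁻¹ : GL κ F) : Matrix κ κ F) ∧
    (∀ j, j ∉ J → j ≠ m →
      ((g⁻¹ * dg i m t * g * (dg i m t)⁻¹ : GL κ F) : Matrix κ κ F) i j =
        ((t : F) - 1) * (g : Matrix κ κ F) i j) ∧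
    ((g⁻¹ * dg i m t * g * (dg i m t)⁻¹ : GL κ F) : Matrix κ κ F) i m =
      ((t : F) ^ 2 - 1) * (g : Matrix κ κ F) i m := by
  have ht0 : (t : F) ≠ 0 := Units.ne_zero t
  have him : i ≠ m := fun h => hm (h ▸ hi)
  have hγJ : ∀ r j, j ∈ J → ((g⁻¹ : GL κ F) : Matrix κ κ F) r j = if r = j then 1 else 0 :=
    fun r j hj => ll_inv_col g j (fun r' => hF1 r' j hj) r
  have hstab : StabJ J (g : Matrix κ κ F) := by
    intro r j hr hj
    rw [hF1 r j hj, if_neg]
    rintro rfl
    exact hr hj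
  have hγstab := stabJ_inv g hstab
  have hterm : ∀ r k, ((g⁻¹ : GL κ F) : Matrix κ κ F) r k * (g : Matrix κ κ F) k m =
      (if k = m then ((g⁻¹ : GL κ F) : Matrix κ κ F) r m else 0) +
      (if k ∈ J then ((g⁻¹ : GL κ F) : Matrix κ κ F) r k * (g : Matrix κ κ F) k m else 0) := by
    intro r k
    by_cases hk : k ∈ J
    · have hkm : k ≠ m := fun h => hm (h ▸ hk)
      rw [if_neg hkm, if_pos hk, zero_add]
    · rw [if_neg hk, add_zero, hcol k hk]
      by_cases hkm : k = m
      · rw [if_pos hkm, if_pos hkm, mul_one, hkm]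
      · rw [if_neg hkm, if_neg hkm, mul_zero]
  have hsum : ∀ r, (if r = m then (1 : F) else 0) =
      ((g⁻¹ : GL κ F) : Matrix κ κ F) r m +
      ∑ k, (if k ∈ J then ((g⁻¹ : GL κ F) : Matrix κ κ F) r k * (g : Matrix κ κ F) k m
        else 0) := by
    intro r
    rw [← gl_inv_mul_apply g r m, Finset.sum_congr rfl (fun k _ => hterm r k),
      Finset.sum_add_distrib, Finset.sum_ite_eq' Finset.univ m]
    simp
  have hγcol : ∀ r, r ∉ J →
      ((g⁻¹ : GL κ F) : Matrix κ κ F) r m = if r = m then 1 else 0 := by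
    intro r hr
    have h := hsum r
    have h0 : ∑ k, (if k ∈ J then ((g⁻¹ : GL κ F) : Matrix κ κ F) r k * (g : Matrix κ κ F) k m
        else 0) = 0 := by
      apply Finset.sum_eq_zero
      intro k _
      by_cases hk : k ∈ J
      · rw [if_pos hk, hγstab r k hr hk, zero_mul]
      · rw [if_neg hk]
    rw [h0, add_zero] at h
    exact h.symm
  have hrel : ((g⁻¹ : GL κ F) : Matrix κ κ F) i m = - (g : Matrix κ κ F) i m := by
    have h := hsum i
    rw [if_neg him] at h
    have h2 : ∑ k, (if k ∈ J then ((g⁻¹ : GL κ F) : Matrix κ κ F) i k * (g : Matrix κ κ F) k m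
        else 0) = (g : Matrix κ κ F) i m := by
      rw [Finset.sum_eq_single i]
      · rw [if_pos hi, hγJ i i hi, if_pos rfl, one_mul]
      · intro k _ hki
        by_cases hk : k ∈ J
        · rw [if_pos hk, hγJ i k hk, if_neg (Ne.symm hki), zero_mul]
        · rw [if_neg hk]
      · intro h'
        exact absurd (Finset.mem_univ i) h'
    rw [h2] at h
    linear_combination -h
  have hentry : ∀ r j, ((g⁻¹ * dg i m t * g * (dg i m t)⁻¹ : GL κ F) : Matrix κ κ F) r j =
      ((if r = j then 1 else 0) +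
        ((t : F) - 1) * ((g⁻¹ : GL κ F) : Matrix κ κ F) r i * (g : Matrix κ κ F) i j +
        (((t : F))⁻¹ - 1) * ((g⁻¹ : GL κ F) : Matrix κ κ F) r m * (g : Matrix κ κ F) m j) *
      (if j = i then ((t : F))⁻¹ else if j = m then (t : F) else 1) := by
    intro r j
    have h := ll_comm_apply g⁻¹ him t r j
    rw [inv_inv] at h
    exact h
  refine ⟨?_, ?_, ?_⟩
  · intro r j hne
    by_contra hcon
    apply hne
    rw [hentry, Matrix.one_apply, hrow j]
    by_cases hj : j ∈ J
    · have hjm : j ≠ m := fun h => hm (h ▸ hj)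
      rw [hγJ r i hi, hF1 i j hj, if_neg (Ne.symm hjm), if_neg hjm]
      by_cases hji : j = i
      · subst hji
        by_cases hrj : r = j
        · subst hrj
          simp
        · simp [hrj]
      · simp [hji, Ne.symm hji]
    · have hr : r ∉ J := fun h => hcon ⟨h, hj⟩
      have hri : r ≠ i := fun h => hr (h ▸ hi)
      have hji : j ≠ i := fun h => hj (h ▸ hi)
      rw [hγJ r i hi, if_neg hri, hγcol r hr, if_neg hji]
      by_cases hjm : j = m
      · subst hjm
        by_cases hrj : r = j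
        · subst hrj
          simp
        · simp [hrj]
      · simp [hjm, Ne.symm hjm]
  · intro j hj hjm
    have hji : j ≠ i := fun h => hj (h ▸ hi)
    rw [hentry, hrow j, hγJ i i hi, if_neg (Ne.symm hji), if_neg hji, if_neg hjm,
      if_neg (Ne.symm hjm), if_pos rfl]
    ring
  · rw [hentry, hrow m, hγJ i i hi, hrel, if_neg him, if_neg (Ne.symm him), if_pos rfl,
      if_pos rfl, if_pos rfl]
    field_simp
    ring

/-- LL -/
theorem ll [Fintype F] (hq : 5 ≤ Fintype.card F) {X : Subgroup (GL κ F)} (hX : MonIn X)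
    (hA1 : A1P X) : LLP X := by
  classical
  intro J hJ hS z hz hstab hex
  obtain ⟨k, l, c, hkl, hc, hblk⟩ := hex
  obtain ⟨m, hmk, hml⟩ : ∃ m : {i // i ∉ J}, m ≠ k ∧ m ≠ l := by
    by_contra hcon
    push Not at hcon
    have hsub : (Finset.univ : Finset {i // i ∉ J}) ⊆ {k, l} := by
      intro m _
      by_cases hmk : m = k
      · simp [hmk]
      · simp [hcon m hmk]
    have h1 := Finset.card_le_card hsub
    rw [Finset.card_univ] at h1
    have h2 : ({k, l} : Finset {i // i ∉ J}).card ≤ 2 := Finset.card_le_two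
    omega
  obtain ⟨s, hs0, hs1, hs2⟩ : ∃ s : F, s ≠ 0 ∧ s ≠ 1 ∧ s ≠ -1 := by
    by_contra hcon
    push Not at hcon
    have hsub : (Finset.univ : Finset F) ⊆ {0, 1, -1} := by
      intro s _
      by_cases h0 : s = 0
      · simp [h0]
      · by_cases h1 : s = 1
        · simp [h1]
        · simp [hcon s h0 h1]
    have h1 := Finset.card_le_card hsub
    rw [Finset.card_univ] at h1
    have h2 : ({0, 1, -1} : Finset F).card ≤ 3 := Finset.card_le_three
    omega
  obtain ⟨t, htv⟩ : ∃ t : Fˣ, (t : F) = s := ⟨Units.mk0 s hs0, rfl⟩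
  have hk' : k.1 ≠ l.1 := fun h => hkl (Subtype.ext h)
  have hmk' : m.1 ≠ k.1 := fun h => hmk (Subtype.ext h)
  have hml' : m.1 ≠ l.1 := fun h => hml (Subtype.ext h)
  have hx : ∀ r j, r ∉ J → j ∉ J → (z : Matrix κ κ F) r j =
      (if r = j then 1 else 0) + (if r = k.1 ∧ j = l.1 then c else 0) := by
    intro r j hr hj
    rw [← ll_tv_apply J k l c r j hr hj, ← hblk]
    rfl
  have h1 : blk J (z : Matrix κ κ F) * blk J ((z⁻¹ : GL κ F) : Matrix κ κ F) = 1 := by
    rw [← blk_mul hstab, ← Units.val_mul, mul_inv_cancel, Units.val_one, blk_one]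
  have h2 : blk J ((z⁻¹ : GL κ F) : Matrix κ κ F) = Matrix.transvection k l (-c) := by
    have h3 : Matrix.transvection k l (-c) * Matrix.transvection k l c =
        (1 : Matrix {i // i ∉ J} {i // i ∉ J} F) := by
      rw [Matrix.transvection_mul_transvection_same k l hkl, neg_add_cancel,
        Matrix.transvection_zero]
    calc blk J ((z⁻¹ : GL κ F) : Matrix κ κ F)
        = (Matrix.transvection k l (-c) * Matrix.transvection k l c) *
            blk J ((z⁻¹ : GL κ F) : Matrix κ κ F) := by rw [h3, one_mul]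
      _ = Matrix.transvection k l (-c) *
            (blk J (z : Matrix κ κ F) * blk J ((z⁻¹ : GL κ F) : Matrix κ κ F)) := by
          rw [hblk, Matrix.mul_assoc]
      _ = Matrix.transvection k l (-c) := by rw [h1, mul_one]
  have hxi : ∀ r j, r ∉ J → j ∉ J → ((z⁻¹ : GL κ F) : Matrix κ κ F) r j =
      (if r = j then 1 else 0) + (if r = k.1 ∧ j = l.1 then -c else 0) := by
    intro r j hr hj
    rw [← ll_tv_apply J k l (-c) r j hr hj, ← h2]
    rfl
  have hxiJ : ∀ r j, r ∉ J → j ∈ J → ((z⁻¹ : GL κ F) : Matrix κ κ F) r j = 0 :=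
    stabJ_inv z hstab
  obtain ⟨hF1, hF2⟩ := ll_step1 z J k.1 l.1 m.1 k.2 l.2 m.2 hk' hmk' hml' c t hx hxi hxiJ
  have hdk : dg k.1 m.1 t ∈ X := dg_mem hX (Ne.symm hmk') t
  have hg1X : z * dg k.1 m.1 t * z⁻¹ * (dg k.1 m.1 t)⁻¹ ∈ X :=
    X.mul_mem (X.mul_mem (X.mul_mem hz hdk) (X.inv_mem hz)) (X.inv_mem hdk)
  obtain ⟨g1, hg1⟩ : ∃ g1 : GL κ F, g1 = z * dg k.1 m.1 t * z⁻¹ * (dg k.1 m.1 t)⁻¹ := ⟨_, rfl⟩
  rw [← hg1] at hF1 hF2 hg1X
  have hc' : c * (1 - (t : F)) ≠ 0 := by
    rw [htv]
    exact mul_ne_zero hc (sub_ne_zero.mpr (Ne.symm hs1))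
  by_cases hB : ∀ r j, r ∈ J → j ∉ J → (g1 : Matrix κ κ F) r j = 0
  · refine ⟨k.1, l.1, c * (1 - (t : F)), g1, hk', hc', hg1X, ?_⟩
    ext r j
    rw [Matrix.transvection, Matrix.add_apply, Matrix.one_apply, Matrix.single_apply]
    by_cases hj : j ∈ J
    · have hn1 : ¬ (k.1 = r ∧ l.1 = j) := by
        rintro ⟨-, h⟩
        exact l.2 (h ▸ hj)
      rw [hF1 r j hj, if_neg hn1, add_zero]
    · by_cases hr : r ∈ J
      · have hn1 : ¬ (k.1 = r ∧ l.1 = j) := by
          rintro ⟨h, -⟩
          exact k.2 (h ▸ hr)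
        have hn2 : ¬ (r = j) := by
          rintro rfl
          exact hj hr
        rw [hB r j hr hj, if_neg hn1, if_neg hn2, add_zero]
      · rw [hF2 r j hr hj]
        congr 1
        by_cases h : r = k.1 ∧ j = l.1
        · rw [if_pos h, if_pos ⟨h.1.symm, h.2.symm⟩]
        · rw [if_neg h, if_neg]
          rintro ⟨h1, h2⟩
          exact h ⟨h1.symm, h2.symm⟩
  · push Not at hB
    obtain ⟨i, j, hi, hj, hij⟩ := hB
    have hrow : ∀ j', (g1 : Matrix κ κ F) m.1 j' = if m.1 = j' then 1 else 0 := by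
      intro j'
      by_cases hj' : j' ∈ J
      · exact hF1 m.1 j' hj'
      · rw [hF2 m.1 j' m.2 hj',
          if_neg (show ¬ (m.1 = k.1 ∧ j' = l.1) from fun h => hmk' h.1), add_zero]
    have hcol : ∀ r, r ∉ J → (g1 : Matrix κ κ F) r m.1 = if r = m.1 then 1 else 0 := by
      intro r hr
      rw [hF2 r m.1 hr m.2,
        if_neg (show ¬ (r = k.1 ∧ m.1 = l.1) from fun h => hml' h.2), add_zero]
    obtain ⟨hUJ, hrowi, him⟩ := ll_step2 g1 J i m.1 hi m.2 t hF1 hrow hcol
    have him' : i ≠ m.1 := by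
      intro h
      rw [h] at hi
      exact m.2 hi
    have hdi : dg i m.1 t ∈ X := dg_mem hX him' t
    have hg2X : g1⁻¹ * dg i m.1 t * g1 * (dg i m.1 t)⁻¹ ∈ X :=
      X.mul_mem (X.mul_mem (X.mul_mem (X.inv_mem hg1X) hdi) hg1X) (X.inv_mem hdi)
    apply hA1 J hS _ hg2X hUJ
    intro h1'
    have hijne : i ≠ j := fun h => hj (h ▸ hi)
    have h2' : ((g1⁻¹ * dg i m.1 t * g1 * (dg i m.1 t)⁻¹ : GL κ F) : Matrix κ κ F) i j = 0 := by
      rw [h1', Units.val_one, Matrix.one_apply_ne hijne]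
    by_cases hjm : j = m.1
    · rw [hjm] at h2' hij
      rw [him] at h2'
      rcases mul_eq_zero.mp h2' with h3 | h3
      · have h4 : (s - 1) * (s + 1) = 0 := by
          rw [htv] at h3
          linear_combination h3
        rcases mul_eq_zero.mp h4 with h5 | h5
        · exact hs1 (sub_eq_zero.mp h5)
        · exact hs2 (eq_neg_of_add_eq_zero_left h5)
      · exact hij h3
    · rw [hrowi j hj hjm] at h2'
      rcases mul_eq_zero.mp h2' with h3 | h3
      · rw [htv] at h3
        exact hs1 (sub_eq_zero.mp h3)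
      · exact hij h3

end

end Cfsg.Agent.Lib.Helper65.Mono
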