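import Mathlib

set_option autoImplicit false

namespace Cfsg.Agent.Lib.Helper12.Ward

open Finset

section Abs

variable {W K : Type*} [CommGroup W] [Group K] [Fintype K]

omit [Group K] [Fintype K] in
theorem pow_coprime_eq_one [Finite W] {c : ℕ} (hc : c.Coprime (Nat.card W)) {u : W}
    (h : u ^ c = 1) : u = 1 := by
  have h1 : orderOf u ∣ c := orderOf_dvd_of_pow_eq_one h
  have h2 : orderOf u ∣ Nat.card W := orderOf_dvd_natCard u
  have h3 : orderOf u ∣ 1 := by
    have := Nat.dvd_gcd h1 h2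
    rwa [Nat.Coprime.gcd_eq_one hc] at this
  exact orderOf_eq_one_iff.mp (Nat.dvd_one.mp h3)

/-- Frobenius-partition norm identity. -/
theorem frob_norm (p : ℕ) (hp : 0 < p)
    (ρ : K → W → W) (T : W → W) (σ : K → K)
    (hρ1 : ∀ w, ρ 1 w = w) (hρm : ∀ x y w, ρ (x * y) w = ρ x (ρ y w))
    (hρw : ∀ x w₁ w₂, ρ x (w₁ * w₂) = ρ x w₁ * ρ x w₂)
    (hTρ : ∀ x w, T (ρ x w) = ρ (σ x) (T w))
    (hσinv : ∀ x, σ x⁻¹ = (σ x)⁻¹)
    (hinj : ∀ j, 0 < j → j < p → Function.Injective (fun x : K => x * (σ^[j] x)⁻¹))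
    (w : W) (hN : ∀ x : K, ∏ j ∈ range p, T^[j] (ρ x w) = 1) :
    ∏ x : K, ρ x w = w ^ Fintype.card K := by
  let R : K → (W →* W) := fun x => MonoidHom.mk' (ρ x) (hρw x)
  have hR : ∀ x u, R x u = ρ x u := fun _ _ => rfl
  have h1 : ∀ j x u, T^[j] (ρ x u) = ρ (σ^[j] x) (T^[j] u) := by
    intro j
    induction j with
    | zero => intro x u; rfl
    | succ j ih =>
      intro x u
      rw [Function.iterate_succ_apply', Function.iterate_succ_apply',
        Function.iterate_succ_apply', ih, hTρ]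
  have hσj : ∀ j x, σ^[j] x⁻¹ = (σ^[j] x)⁻¹ := by
    intro j
    induction j with
    | zero => intro x; rfl
    | succ j ih =>
      intro x
      rw [Function.iterate_succ_apply', Function.iterate_succ_apply', ih, hσinv]
  have key : ∏ x : K, ρ x (∏ j ∈ range p, T^[j] (ρ x⁻¹ w)) = 1 := by
    apply Finset.prod_eq_one
    intro x _
    rw [hN x⁻¹, ← hR, map_one]
  have e1 : ∀ x : K, ρ x (∏ j ∈ range p, T^[j] (ρ x⁻¹ w))
      = ∏ j ∈ range p, ρ (x * (σ^[j] x)⁻¹) (T^[j] w) := by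
    intro x
    rw [← hR, map_prod]
    apply Finset.prod_congr rfl
    intro j _
    rw [hR, h1, hσj, ← hρm]
  rw [Finset.prod_congr rfl (fun x _ => e1 x), Finset.prod_comm] at key
  obtain ⟨p', rfl⟩ : ∃ p', p = p' + 1 := ⟨p - 1, by omega⟩
  rw [Finset.prod_range_succ'] at key
  have e0 : ∏ x : K, ρ (x * (σ^[0] x)⁻¹) (T^[0] w) = w ^ Fintype.card K := by
    simp [hρ1]
  have ej : ∀ j ∈ range p', ∏ x : K, ρ (x * (σ^[j+1] x)⁻¹) (T^[j+1] w)
      = ∏ x : K, ρ x (T^[j+1] w) := by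
    intro j hj
    have hj' : j < p' := Finset.mem_range.mp hj
    have hb : Function.Bijective (fun x : K => x * (σ^[j+1] x)⁻¹) :=
      (Finite.injective_iff_bijective).mp (hinj (j+1) (Nat.succ_pos j) (by omega))
    exact Fintype.prod_bijective _ hb _ _ (fun x => rfl)
  rw [e0, Finset.prod_congr rfl ej] at key
  have e2 : ∏ j ∈ range p', ∏ x : K, ρ x (T^[j+1] w)
      = ∏ x : K, ρ x (∏ j ∈ range p', T^[j+1] w) := by
    rw [Finset.prod_comm]
    apply Finset.prod_congr rfl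
    intro x _
    rw [← hR, map_prod]
    rfl
  have e3 : ∏ j ∈ range p', T^[j+1] w = w⁻¹ := by
    have h := hN 1
    simp only [hρ1] at h
    rw [Finset.prod_range_succ'] at h
    exact eq_inv_of_mul_eq_one_left h
  rw [e2, e3] at key
  have e4 : ∏ x : K, ρ x w⁻¹ = (∏ x : K, ρ x w)⁻¹ := by
    rw [← Finset.prod_inv_distrib]
    apply Finset.prod_congr rfl
    intro x _
    rw [← hR, map_inv]
    rfl
  rw [e4] at key
  exact inv_mul_eq_one.mp key

theorem frob_fix [Finite W] (p : ℕ) (hp : 0 < p)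
    (ρ : K → W → W) (T : W → W) (σ : K → K)
    (hρ1 : ∀ w, ρ 1 w = w) (hρm : ∀ x y w, ρ (x * y) w = ρ x (ρ y w))
    (hρw : ∀ x w₁ w₂, ρ x (w₁ * w₂) = ρ x w₁ * ρ x w₂)
    (hTρ : ∀ x w, T (ρ x w) = ρ (σ x) (T w))
    (hσinv : ∀ x, σ x⁻¹ = (σ x)⁻¹)
    (hinj : ∀ j, 0 < j → j < p → Function.Injective (fun x : K => x * (σ^[j] x)⁻¹))
    (hcop : (Fintype.card K).Coprime (Nat.card W))
    (w : W) (hN : ∀ x : K, ∏ j ∈ range p, T^[j] (ρ x w) = 1) (b : K) :
    ρ b w = w := by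
  have h := frob_norm p hp ρ T σ hρ1 hρm hρw hTρ hσinv hinj w hN
  let R : W →* W := MonoidHom.mk' (ρ b) (hρw b)
  have hR : ∀ u, R u = ρ b u := fun _ => rfl
  have h2 : ρ b (∏ x : K, ρ x w) = ∏ x : K, ρ x w := by
    rw [← hR, map_prod]
    exact Fintype.prod_bijective (fun x => b * x) (Group.mulLeft_bijective b) _ _
      (fun x => (hρm b x w).symm)
  rw [h, ← hR, map_pow, hR] at h2
  have h4 : (ρ b w * w⁻¹) ^ Fintype.card K = 1 := by
    rw [mul_pow, h2, inv_pow, mul_inv_cancel]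
  exact mul_inv_eq_one.mp (pow_coprime_eq_one hcop h4)

/-- The key consequence: an operator `Y` commuting with everything and fixing the `T`-fixed
points fixes every vector with trivial `K`-norm. -/
theorem c2_abs [Finite W] (p : ℕ) (hp : 0 < p)
    (ρ : K → W → W) (T : W → W) (σ : K → K) (Y : W → W)
    (hρ1 : ∀ w, ρ 1 w = w) (hρm : ∀ x y w, ρ (x * y) w = ρ x (ρ y w))
    (hρw : ∀ x w₁ w₂, ρ x (w₁ * w₂) = ρ x w₁ * ρ x w₂)
    (hTρ : ∀ x w, T (ρ x w) = ρ (σ x) (T w))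
    (hσinv : ∀ x, σ x⁻¹ = (σ x)⁻¹)
    (hinj : ∀ j, 0 < j → j < p → Function.Injective (fun x : K => x * (σ^[j] x)⁻¹))
    (hTm : ∀ w₁ w₂, T (w₁ * w₂) = T w₁ * T w₂) (hTp : ∀ w, T^[p] w = w)
    (hYm : ∀ w₁ w₂, Y (w₁ * w₂) = Y w₁ * Y w₂) (hYT : ∀ w, Y (T w) = T (Y w))
    (hYρ : ∀ x w, Y (ρ x w) = ρ x (Y w)) (hYfix : ∀ u, T u = u → Y u = u)
    (hcop : (Fintype.card K).Coprime (Nat.card W))
    (v : W) (hv : ∏ x : K, ρ x v = 1) : Y v = v := by
  let Yh : W →* W := MonoidHom.mk' Y hYm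
  have hYh : ∀ u, Yh u = Y u := fun _ => rfl
  let Th : W →* W := MonoidHom.mk' T hTm
  have hTh : ∀ u, Th u = T u := fun _ => rfl
  let R : K → (W →* W) := fun x => MonoidHom.mk' (ρ x) (hρw x)
  have hR : ∀ x u, R x u = ρ x u := fun _ _ => rfl
  have hTjm : ∀ j u₁ u₂, T^[j] (u₁ * u₂) = T^[j] u₁ * T^[j] u₂ := by
    intro j
    induction j with
    | zero => intro u₁ u₂; rfl
    | succ j ih =>
      intro u₁ u₂
      rw [Function.iterate_succ_apply', Function.iterate_succ_apply',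
        Function.iterate_succ_apply', ih, hTm]
  have hTjinv : ∀ j u, T^[j] u⁻¹ = (T^[j] u)⁻¹ := by
    intro j
    induction j with
    | zero => intro u; rfl
    | succ j ih =>
      intro u
      rw [Function.iterate_succ_apply', Function.iterate_succ_apply', ih, ← hTh, map_inv, hTh]
  have hYTj : ∀ j u, Y (T^[j] u) = T^[j] (Y u) := by
    intro j
    induction j with
    | zero => intro u; rfl
    | succ j ih =>
      intro u
      rw [Function.iterate_succ_apply', Function.iterate_succ_apply', hYT, ih]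
  have hfixN : ∀ u, T (∏ j ∈ range p, T^[j] u) = ∏ j ∈ range p, T^[j] u := by
    intro u
    rw [← hTh, map_prod]
    have h1 : ∏ j ∈ range p, Th (T^[j] u) = ∏ j ∈ range p, T^[j+1] u := by
      apply Finset.prod_congr rfl
      intro j _
      rw [hTh, Function.iterate_succ_apply']
    rw [h1]
    have h2 := Finset.prod_range_succ' (fun j => T^[j] u) p
    have h3 := Finset.prod_range_succ (fun j => T^[j] u) p
    rw [h3] at h2
    simp only [hTp, Function.iterate_zero, id] at h2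
    exact (mul_right_cancel h2).symm
  have hN : ∀ x : K, ∏ j ∈ range p, T^[j] (ρ x (Y v * v⁻¹)) = 1 := by
    intro x
    have e1 : ρ x (Y v * v⁻¹) = Y (ρ x v) * (ρ x v)⁻¹ := by
      rw [hρw, hYρ, ← hR x v⁻¹, map_inv, hR]
    rw [e1]
    have e2 : ∀ j ∈ range p, T^[j] (Y (ρ x v) * (ρ x v)⁻¹)
        = Yh (T^[j] (ρ x v)) * (T^[j] (ρ x v))⁻¹ := by
      intro j _
      rw [hTjm, hTjinv, hYh, hYTj]
    rw [Finset.prod_congr rfl e2, Finset.prod_mul_distrib, Finset.prod_inv_distrib, ← map_prod,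
      hYh, hYfix _ (hfixN _), mul_inv_cancel]
  have hfix : ∀ b : K, ρ b (Y v * v⁻¹) = Y v * v⁻¹ := fun b =>
    frob_fix p hp ρ T σ hρ1 hρm hρw hTρ hσinv hinj hcop _ hN b
  have h5 : ∏ b : K, ρ b (Y v * v⁻¹) = (Y v * v⁻¹) ^ Fintype.card K := by
    rw [Finset.prod_congr rfl (fun b _ => hfix b), Finset.prod_const, Finset.card_univ]
  have h6 : ∏ b : K, ρ b (Y v * v⁻¹) = 1 := by
    have e1 : ∀ b ∈ (Finset.univ : Finset K), ρ b (Y v * v⁻¹) = Yh (ρ b v) * (ρ b v)⁻¹ := by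
      intro b _
      rw [hYh, hρw, hYρ, ← hR b v⁻¹, map_inv, hR]
    rw [Finset.prod_congr rfl e1, Finset.prod_mul_distrib, Finset.prod_inv_distrib, ← map_prod,
      hv, map_one, inv_one, mul_one]
  rw [h6] at h5
  exact mul_inv_eq_one.mp (pow_coprime_eq_one hcop h5.symm)

omit [Group K] [Fintype K] in
/-- A coprime automorphism of prime order acts fixed-point-freely on its commutator. -/
theorem lang_fpf_abs [Finite W] (p : ℕ) (T : W → W)
    (hTm : ∀ w₁ w₂, T (w₁ * w₂) = T w₁ * T w₂)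
    (hTp : ∀ w, T^[p] w = w) (hcop : p.Coprime (Nat.card W)) (u : W)
    (h : T (u⁻¹ * T u) = u⁻¹ * T u) : u⁻¹ * T u = 1 := by
  let Th : W →* W := MonoidHom.mk' T hTm
  have hTh : ∀ u, Th u = T u := fun _ => rfl
  have hfix : ∀ j, T^[j] (u⁻¹ * T u) = u⁻¹ * T u := by
    intro j
    induction j with
    | zero => rfl
    | succ j ih => rw [Function.iterate_succ_apply', ih, h]
  have h1 : ∏ j ∈ range p, T^[j] (u⁻¹ * T u) = (u⁻¹ * T u) ^ p := by
    rw [Finset.prod_congr rfl (fun j _ => hfix j), Finset.prod_const, Finset.card_range]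
  have hTjm : ∀ j u₁ u₂, T^[j] (u₁ * u₂) = T^[j] u₁ * T^[j] u₂ := by
    intro j
    induction j with
    | zero => intro u₁ u₂; rfl
    | succ j ih =>
      intro u₁ u₂
      rw [Function.iterate_succ_apply', Function.iterate_succ_apply',
        Function.iterate_succ_apply', ih, hTm]
  have hTjinv : ∀ j u, T^[j] u⁻¹ = (T^[j] u)⁻¹ := by
    intro j
    induction j with
    | zero => intro u; rfl
    | succ j ih =>
      intro u
      rw [Function.iterate_succ_apply', Function.iterate_succ_apply', ih, ← hTh, map_inv, hTh]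
  have h2 : ∀ j, T^[j] (u⁻¹ * T u) = (T^[j] u)⁻¹ * T^[j+1] u := by
    intro j
    rw [hTjm, hTjinv, ← Function.iterate_succ_apply]
  have h3 : ∀ n, ∏ j ∈ range n, ((T^[j] u)⁻¹ * T^[j+1] u) = u⁻¹ * T^[n] u := by
    intro n
    induction n with
    | zero => simp
    | succ n ih => rw [Finset.prod_range_succ, ih, mul_assoc, mul_inv_cancel_left]
  rw [Finset.prod_congr rfl (fun j _ => h2 j), h3, hTp, inv_mul_cancel] at h1
  exact pow_coprime_eq_one hcop h1.symm

/-- Coprime action on an abelian group: a fixed point lying in the commutator is trivial. -/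
theorem fix_comm_abs [Finite W] (ρ : K → W → W)
    (hρm : ∀ x y w, ρ (x * y) w = ρ x (ρ y w))
    (hρw : ∀ x w₁ w₂, ρ x (w₁ * w₂) = ρ x w₁ * ρ x w₂)
    (hcop : (Fintype.card K).Coprime (Nat.card W)) (w : W)
    (hw : w ∈ Subgroup.closure {g : W | ∃ x u, g = ρ x u * u⁻¹}) (hfix : ∀ x, ρ x w = w) :
    w = 1 := by
  let R : K → (W →* W) := fun x => MonoidHom.mk' (ρ x) (hρw x)
  have hR : ∀ x u, R x u = ρ x u := fun _ _ => rfl
  let Nm : W →* W := MonoidHom.mk' (fun u => ∏ x : K, ρ x u) (by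
    intro a b
    show ∏ x : K, ρ x (a * b) = (∏ x : K, ρ x a) * ∏ x : K, ρ x b
    rw [← Finset.prod_mul_distrib]
    exact Finset.prod_congr rfl (fun x _ => hρw x a b))
  have hNm : ∀ u, Nm u = ∏ x : K, ρ x u := fun _ => rfl
  have hle : Subgroup.closure {g : W | ∃ x u, g = ρ x u * u⁻¹} ≤ Nm.ker := by
    rw [Subgroup.closure_le]
    rintro g ⟨y, u, rfl⟩
    show Nm (ρ y u * u⁻¹) = 1
    rw [map_mul, map_inv, hNm, hNm]
    have : ∏ x : K, ρ x (ρ y u) = ∏ x : K, ρ x u :=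
      Fintype.prod_bijective (fun x => x * y) (Group.mulRight_bijective y) _ _
        (fun x => (hρm x y u).symm)
    rw [this, mul_inv_cancel]
  have h1 : Nm w = 1 := hle hw
  rw [hNm, Finset.prod_congr rfl (fun x _ => hfix x), Finset.prod_const, Finset.card_univ] at h1
  exact pow_coprime_eq_one hcop h1

end Abs

end Cfsg.Agent.Lib.Helper12.Ward
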