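import Mathlib
import Cfsg.Agent.Lib.Helper12.Ward1
import Cfsg.Agent.Lib.Helper1.Coprime

set_option autoImplicit false

namespace Cfsg.Agent.Lib.Helper12.Ward

open Subgroup Pointwise
open scoped commutatorElement

variable {Γ : Type*} [Group Γ]

theorem conj_mem_of_nz {H : Subgroup Γ} {g x : Γ} (hg : g ∈ normalizer (H : Set Γ))
    (hx : x ∈ H) : g * x * g⁻¹ ∈ H := (mem_normalizer_iff.mp hg x).mp hx

theorem conj_mem_of_nz' {H : Subgroup Γ} {g x : Γ} (hg : g ∈ normalizer (H : Set Γ))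
    (hx : x ∈ H) : g⁻¹ * x * g ∈ H := (mem_normalizer_iff''.mp hg x).mp hx

theorem nz_of_conj_mem {H : Subgroup Γ} {g : Γ} (h1 : ∀ x ∈ H, g * x * g⁻¹ ∈ H)
    (h2 : ∀ x ∈ H, g⁻¹ * x * g ∈ H) : g ∈ normalizer (H : Set Γ) := by
  rw [mem_normalizer_iff]
  intro x
  refine ⟨h1 x, fun hx => ?_⟩
  have h3 := h2 _ hx
  have e : g⁻¹ * (g * x * g⁻¹) * g = x := by group
  rwa [e] at h3

theorem nz_inf {X Y : Subgroup Γ} {g : Γ} (hX : g ∈ normalizer (X : Set Γ))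
    (hY : g ∈ normalizer (Y : Set Γ)) : g ∈ normalizer ((X ⊓ Y : Subgroup Γ) : Set Γ) :=
  nz_of_conj_mem (fun _ hx => ⟨conj_mem_of_nz hX hx.1, conj_mem_of_nz hY hx.2⟩)
    (fun _ hx => ⟨conj_mem_of_nz' hX hx.1, conj_mem_of_nz' hY hx.2⟩)

theorem nz_sup {X Y : Subgroup Γ} {g : Γ} (hX : g ∈ normalizer (X : Set Γ))
    (hY : g ∈ normalizer (Y : Set Γ)) : g ∈ normalizer ((X ⊔ Y : Subgroup Γ) : Set Γ) := by
  rw [Cfsg.Agent.Lib.Helper1.mem_normalizer_iff_conj_smul] at hX hY ⊢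
  rw [Subgroup.smul_sup, hX, hY]

theorem nz_comm {X Y : Subgroup Γ} {g : Γ} (hX : g ∈ normalizer (X : Set Γ))
    (hY : g ∈ normalizer (Y : Set Γ)) : g ∈ normalizer ((⁅X, Y⁆ : Subgroup Γ) : Set Γ) := by
  rw [Cfsg.Agent.Lib.Helper1.mem_normalizer_iff_conj_smul] at hX hY ⊢
  rw [Cfsg.Agent.Lib.Helper1.conj_smul_commutator, hX, hY]

theorem nz_lcs {X : Subgroup Γ} {g : Γ} (hX : g ∈ normalizer (X : Set Γ)) :
    ∀ n, g ∈ normalizer ((X.lowerCentralSeries n : Subgroup Γ) : Set Γ)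
  | 0 => hX
  | n + 1 => by
    rw [Subgroup.lowerCentralSeries_succ]
    exact nz_comm (nz_lcs hX n) hX

theorem centralizer_conj_aux {X : Subgroup Γ} {g z : Γ}
    (hX : ∀ x ∈ X, g⁻¹ * x * g ∈ X) (hz : z ∈ centralizer (X : Set Γ)) :
    g * z * g⁻¹ ∈ centralizer (X : Set Γ) := by
  rw [mem_centralizer_iff] at hz ⊢
  intro h hh
  have h1 := hz _ (hX h hh)
  have e1 : h * (g * z * g⁻¹) = g * ((g⁻¹ * h * g) * z) * g⁻¹ := by group
  have e2 : g * z * g⁻¹ * h = g * (z * (g⁻¹ * h * g)) * g⁻¹ := by group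
  rw [e1, e2, h1]

theorem nz_centralizer {X : Subgroup Γ} {g : Γ} (hX : g ∈ normalizer (X : Set Γ)) :
    g ∈ normalizer ((centralizer (X : Set Γ) : Subgroup Γ) : Set Γ) := by
  apply nz_of_conj_mem
  · intro z hz
    exact centralizer_conj_aux (fun x hx => conj_mem_of_nz' hX hx) hz
  · intro z hz
    have := centralizer_conj_aux (g := g⁻¹) (X := X)
      (fun x hx => by simpa using conj_mem_of_nz hX hx) hz
    simpa using this

theorem le_nz_of_forall {A H : Subgroup Γ} (h : ∀ a ∈ A, a ∈ normalizer (H : Set Γ)) :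
    A ≤ normalizer (H : Set Γ) := h

/-- commuting form of membership in the centralizer of a subgroup -/
theorem comm_of_conj_eq {g x : Γ} (h : g * x * g⁻¹ = x) : g * x = x * g := by
  calc g * x = (g * x * g⁻¹) * g := by group
    _ = x * g := by rw [h]

theorem conj_eq_of_comm {g x : Γ} (h : g * x = x * g) : g * x * g⁻¹ = x := by
  rw [h]; group

section Bridge
variable [Finite Γ]

/-- Lang map surjective for fixed-point-free conjugation. -/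
theorem lang_surj (X : Subgroup Γ) (c : Γ) (hc : c ∈ normalizer (X : Set Γ))
    (hfpf : ∀ x ∈ X, c * x = x * c → x = 1) :
    ∀ t ∈ X, ∃ x ∈ X, t = x⁻¹ * (c * x * c⁻¹) := by
  let f : ↥X → ↥X := fun z =>
    ⟨z.1⁻¹ * (c * z.1 * c⁻¹), X.mul_mem (X.inv_mem z.2) (conj_mem_of_nz hc z.2)⟩
  have hinj : Function.Injective f := by
    intro a b hab
    have h1 : a.1⁻¹ * (c * a.1 * c⁻¹) = b.1⁻¹ * (c * b.1 * c⁻¹) := congrArg Subtype.val hab
    have h2 : c * (b.1 * a.1⁻¹) = (b.1 * a.1⁻¹) * c := by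
      have e : c * (b.1 * a.1⁻¹) = b.1 * (b.1⁻¹ * (c * b.1 * c⁻¹)) * c * a.1⁻¹ := by group
      rw [e, ← h1]; group
    have h3 := hfpf _ (X.mul_mem b.2 (X.inv_mem a.2)) h2
    apply Subtype.ext
    exact (mul_inv_eq_one.mp h3).symm
  have hsur := Finite.injective_iff_surjective.mp hinj
  intro t ht
  obtain ⟨z, hz⟩ := hsur ⟨t, ht⟩
  exact ⟨z.1, z.2, (congrArg Subtype.val hz).symm⟩

theorem c2_bridge {p : ℕ} (hp : 0 < p) (V B U : Subgroup Γ) (c y : Γ)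
    (hVc : ∀ v ∈ V, ∀ w ∈ V, v * w = w * v)
    (hcV : c ∈ normalizer (V : Set Γ)) (hBV : B ≤ normalizer (V : Set Γ))
    (hyV : y ∈ normalizer (V : Set Γ))
    (hcB : c ∈ normalizer (B : Set Γ)) (hcp : c ^ p = 1)
    (hfpf : ∀ j, 0 < j → j < p → ∀ x ∈ B, c ^ j * x = x * c ^ j → x = 1)
    (hyc : y * c = c * y) (hyB : ∀ x ∈ B, y * x = x * y)
    (hyfix : ∀ v ∈ V, c * v = v * c → y * v = v * y)
    (hcop : (Nat.card B).Coprime (Nat.card V))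
    (hUV : U ≤ V) (hBU : B ≤ normalizer (U : Set Γ))
    (hU : ∀ w ∈ U, (∀ b ∈ B, b * w = w * b) → w = 1) :
    ∀ v ∈ U, y * v = v * y := by
  classical
  letI : CommGroup ↥V := { (inferInstance : Group ↥V) with
    mul_comm := fun v w => Subtype.ext (hVc v v.2 w w.2) }
  letI : Fintype ↥B := Fintype.ofFinite _
  let ρ : ↥B → ↥V → ↥V := fun x w => ⟨x.1 * w.1 * x.1⁻¹, conj_mem_of_nz (hBV x.2) w.2⟩
  let T : ↥V → ↥V := fun w => ⟨c * w.1 * c⁻¹, conj_mem_of_nz hcV w.2⟩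
  let σ : ↥B → ↥B := fun x => ⟨c * x.1 * c⁻¹, conj_mem_of_nz hcB x.2⟩
  let Y : ↥V → ↥V := fun w => ⟨y * w.1 * y⁻¹, conj_mem_of_nz hyV w.2⟩
  have hTj : ∀ j (w : ↥V), ((T^[j] w : ↥V) : Γ) = c ^ j * w.1 * (c ^ j)⁻¹ := by
    intro j
    induction j with
    | zero => intro w; simp
    | succ j ih =>
      intro w
      rw [Function.iterate_succ_apply']
      show c * ((T^[j] w : ↥V) : Γ) * c⁻¹ = _
      rw [ih, pow_succ']; group
  have hσj : ∀ j (x : ↥B), ((σ^[j] x : ↥B) : Γ) = c ^ j * x.1 * (c ^ j)⁻¹ := by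
    intro j
    induction j with
    | zero => intro w; simp
    | succ j ih =>
      intro w
      rw [Function.iterate_succ_apply']
      show c * ((σ^[j] w : ↥B) : Γ) * c⁻¹ = _
      rw [ih, pow_succ']; group
  have hcardK : Fintype.card ↥B = Nat.card B := (Nat.card_eq_fintype_card).symm
  have hinj : ∀ j, 0 < j → j < p → Function.Injective (fun x : ↥B => x * (σ^[j] x)⁻¹) := by
    intro j hj0 hjp x x' h
    have h' : x.1 * (c ^ j * x.1 * (c ^ j)⁻¹)⁻¹ = x'.1 * (c ^ j * x'.1 * (c ^ j)⁻¹)⁻¹ := by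
      have := congrArg Subtype.val h
      rw [← hσj, ← hσj]
      exact this
    have h2 : c ^ j * (x'.1⁻¹ * x.1) = (x'.1⁻¹ * x.1) * c ^ j := by
      have e : c ^ j * (x'.1⁻¹ * x.1)
          = x'.1⁻¹ * (x'.1 * (c ^ j * x'.1 * (c ^ j)⁻¹)⁻¹) * c ^ j * x.1 := by group
      rw [e, ← h']; group
    have h3 := hfpf j hj0 hjp _ (B.mul_mem (B.inv_mem x'.2) x.2) h2
    apply Subtype.ext
    exact (inv_mul_eq_one.mp h3).symm
  have main := c2_abs (W := ↥V) (K := ↥B) p hp ρ T σ Y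
    (fun w => Subtype.ext (show (1 : Γ) * w.1 * (1 : Γ)⁻¹ = w.1 by group))
    (fun x z w => Subtype.ext (show (x.1 * z.1) * w.1 * (x.1 * z.1)⁻¹
      = x.1 * (z.1 * w.1 * z.1⁻¹) * x.1⁻¹ by group))
    (fun x w₁ w₂ => Subtype.ext (show x.1 * (w₁.1 * w₂.1) * x.1⁻¹
      = (x.1 * w₁.1 * x.1⁻¹) * (x.1 * w₂.1 * x.1⁻¹) by group))
    (fun x w => Subtype.ext (show c * (x.1 * w.1 * x.1⁻¹) * c⁻¹
      = (c * x.1 * c⁻¹) * (c * w.1 * c⁻¹) * (c * x.1 * c⁻¹)⁻¹ by group))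
    (fun x => Subtype.ext (show c * x.1⁻¹ * c⁻¹ = (c * x.1 * c⁻¹)⁻¹ by group))
    hinj
    (fun w₁ w₂ => Subtype.ext (show c * (w₁.1 * w₂.1) * c⁻¹
      = (c * w₁.1 * c⁻¹) * (c * w₂.1 * c⁻¹) by group))
    (fun w => Subtype.ext (by rw [hTj, hcp]; group))
    (fun w₁ w₂ => Subtype.ext (show y * (w₁.1 * w₂.1) * y⁻¹
      = (y * w₁.1 * y⁻¹) * (y * w₂.1 * y⁻¹) by group))
    (fun w => Subtype.ext (show y * (c * w.1 * c⁻¹) * y⁻¹ = c * (y * w.1 * y⁻¹) * c⁻¹ by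
      calc y * (c * w.1 * c⁻¹) * y⁻¹ = (y * c) * w.1 * (y * c)⁻¹ := by group
        _ = c * (y * w.1 * y⁻¹) * c⁻¹ := by rw [hyc]; group))
    (fun x w => Subtype.ext (show y * (x.1 * w.1 * x.1⁻¹) * y⁻¹
        = x.1 * (y * w.1 * y⁻¹) * x.1⁻¹ by
      calc y * (x.1 * w.1 * x.1⁻¹) * y⁻¹ = (y * x.1) * w.1 * (y * x.1)⁻¹ := by group
        _ = x.1 * (y * w.1 * y⁻¹) * x.1⁻¹ := by rw [hyB x.1 x.2]; group))
    (fun u hu => by
      have h1 : c * u.1 * c⁻¹ = u.1 := congrArg Subtype.val hu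
      have h2 := hyfix u.1 u.2 (comm_of_conj_eq h1)
      exact Subtype.ext (show y * u.1 * y⁻¹ = u.1 from conj_eq_of_comm h2))
    (by rw [hcardK]; exact hcop)
  intro v hv
  let v' : ↥V := ⟨v, hUV hv⟩
  have hmemU : ((∏ x : ↥B, ρ x v' : ↥V) : Γ) ∈ U := by
    have : (∏ x : ↥B, ρ x v') ∈ U.subgroupOf V := by
      apply Subgroup.prod_mem
      intro x _
      rw [Subgroup.mem_subgroupOf]
      exact conj_mem_of_nz (hBU x.2) hv
    exact Subgroup.mem_subgroupOf.mp this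
  have hfixed : ∀ b ∈ B, b * ((∏ x : ↥B, ρ x v' : ↥V) : Γ)
      = ((∏ x : ↥B, ρ x v' : ↥V) : Γ) * b := by
    intro b hb
    let Rb : ↥V →* ↥V := MonoidHom.mk' (ρ ⟨b, hb⟩) (fun w₁ w₂ =>
      Subtype.ext (show b * (w₁.1 * w₂.1) * b⁻¹ = (b * w₁.1 * b⁻¹) * (b * w₂.1 * b⁻¹) by group))
    have h1 : Rb (∏ x : ↥B, ρ x v') = ∏ x : ↥B, ρ x v' := by
      rw [map_prod]
      exact Fintype.prod_bijective (fun x => (⟨b, hb⟩ : ↥B) * x)
        (Group.mulLeft_bijective _) _ _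
        (fun x => Subtype.ext (show b * (x.1 * v * x.1⁻¹) * b⁻¹
          = (b * x.1) * v * (b * x.1)⁻¹ by group))
    have h2 : b * ((∏ x : ↥B, ρ x v' : ↥V) : Γ) * b⁻¹ = ((∏ x : ↥B, ρ x v' : ↥V) : Γ) :=
      congrArg Subtype.val h1
    exact comm_of_conj_eq h2
  have hone : (∏ x : ↥B, ρ x v') = 1 := Subtype.ext (hU _ hmemU hfixed)
  have hY := main v' hone
  have h3 : y * v * y⁻¹ = v := congrArg Subtype.val hY
  exact comm_of_conj_eq h3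

theorem lang_fpf {p : ℕ} (X : Subgroup Γ) (c : Γ) (hXc : ∀ v ∈ X, ∀ w ∈ X, v * w = w * v)
    (hc : c ∈ normalizer (X : Set Γ)) (hcp : c ^ p = 1) (hcop : p.Coprime (Nat.card X))
    (u : Γ) (hu : u ∈ X) (h : c * (u⁻¹ * (c * u * c⁻¹)) = (u⁻¹ * (c * u * c⁻¹)) * c) :
    u⁻¹ * (c * u * c⁻¹) = 1 := by
  letI : CommGroup ↥X := { (inferInstance : Group ↥X) with
    mul_comm := fun v w => Subtype.ext (hXc v v.2 w w.2) }
  let T : ↥X → ↥X := fun w => ⟨c * w.1 * c⁻¹, conj_mem_of_nz hc w.2⟩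
  have hTj : ∀ j (w : ↥X), ((T^[j] w : ↥X) : Γ) = c ^ j * w.1 * (c ^ j)⁻¹ := by
    intro j
    induction j with
    | zero => intro w; simp
    | succ j ih =>
      intro w
      rw [Function.iterate_succ_apply']
      show c * ((T^[j] w : ↥X) : Γ) * c⁻¹ = _
      rw [ih, pow_succ']; group
  have main := lang_fpf_abs (W := ↥X) p T
    (fun w₁ w₂ => Subtype.ext (show c * (w₁.1 * w₂.1) * c⁻¹
      = (c * w₁.1 * c⁻¹) * (c * w₂.1 * c⁻¹) by group))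
    (fun w => Subtype.ext (by rw [hTj, hcp]; group))
    hcop ⟨u, hu⟩
    (Subtype.ext (show c * (u⁻¹ * (c * u * c⁻¹)) * c⁻¹ = u⁻¹ * (c * u * c⁻¹) from
      conj_eq_of_comm h))
  exact congrArg Subtype.val main

theorem comm_fix_trivial (Q R : Subgroup Γ) (hQc : ∀ v ∈ Q, ∀ w ∈ Q, v * w = w * v)
    (hRQ : R ≤ normalizer (Q : Set Γ)) (hcop : (Nat.card R).Coprime (Nat.card Q))
    (hQR : Q ≤ ⁅Q, R⁆) : ∀ y ∈ Q, (∀ x ∈ R, x * y = y * x) → y = 1 := by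
  classical
  letI : CommGroup ↥Q := { (inferInstance : Group ↥Q) with
    mul_comm := fun v w => Subtype.ext (hQc v v.2 w w.2) }
  letI : Fintype ↥R := Fintype.ofFinite _
  let ρ : ↥R → ↥Q → ↥Q := fun x w => ⟨x.1 * w.1 * x.1⁻¹, conj_mem_of_nz (hRQ x.2) w.2⟩
  have hcardK : Fintype.card ↥R = Nat.card R := (Nat.card_eq_fintype_card).symm
  have hle : ⁅Q, R⁆ ≤ (Subgroup.closure {g : ↥Q | ∃ x u, g = ρ x u * u⁻¹}).map Q.subtype := by
    rw [Subgroup.commutator_le]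
    intro g₁ hg₁ g₂ hg₂
    refine ⟨ρ ⟨g₂, hg₂⟩ ⟨g₁⁻¹, Q.inv_mem hg₁⟩ * (⟨g₁⁻¹, Q.inv_mem hg₁⟩ : ↥Q)⁻¹,
      Subgroup.subset_closure ⟨_, _, rfl⟩, ?_⟩
    show (g₂ * g₁⁻¹ * g₂⁻¹) * (g₁⁻¹)⁻¹ = ⁅g₁, g₂⁆
    rw [commutatorElement_def, inv_inv,
      ← hQc g₁ hg₁ _ (conj_mem_of_nz (hRQ hg₂) (Q.inv_mem hg₁))]
    group
  intro y hy hfix
  obtain ⟨y', hy', rfl⟩ := hle (hQR hy)
  have := fix_comm_abs (W := ↥Q) (K := ↥R) ρ
    (fun x z w => Subtype.ext (show (x.1 * z.1) * w.1 * (x.1 * z.1)⁻¹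
      = x.1 * (z.1 * w.1 * z.1⁻¹) * x.1⁻¹ by group))
    (fun x w₁ w₂ => Subtype.ext (show x.1 * (w₁.1 * w₂.1) * x.1⁻¹
      = (x.1 * w₁.1 * x.1⁻¹) * (x.1 * w₂.1 * x.1⁻¹) by group))
    (by rw [hcardK]; exact hcop) y' hy'
    (fun x => Subtype.ext (show x.1 * y'.1 * x.1⁻¹ = y'.1 from
      conj_eq_of_comm (hfix x.1 x.2)))
  rw [this]; rfl

end Bridge

end Cfsg.Agent.Lib.Helper12.Ward
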