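import Mathlib
import Cfsg.Agent.Lib.Helper12.Ward2
import Cfsg.Agent.Lib.Helper30.InvSylow

set_option autoImplicit false

namespace Cfsg.Agent.Lib.Helper12.Ward

open Subgroup Pointwise
open scoped commutatorElement

variable {Γ : Type*} [Group Γ]

/-- The "Lang image" `[X, c] = {u⁻¹ u^c}` of a commutative subgroup. -/
def langSub (X : Subgroup Γ) (c : Γ) (hXc : ∀ v ∈ X, ∀ w ∈ X, v * w = w * v)
    (hc : c ∈ normalizer (X : Set Γ)) : Subgroup Γ where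
  carrier := {t | ∃ u ∈ X, t = u⁻¹ * (c * u * c⁻¹)}
  one_mem' := ⟨1, X.one_mem, by group⟩
  mul_mem' := by
    rintro _ _ ⟨u, hu, rfl⟩ ⟨u', hu', rfl⟩
    refine ⟨u * u', X.mul_mem hu hu', ?_⟩
    have h1 : u⁻¹ * (c * u * c⁻¹) ∈ X := X.mul_mem (X.inv_mem hu) (conj_mem_of_nz hc hu)
    calc u⁻¹ * (c * u * c⁻¹) * (u'⁻¹ * (c * u' * c⁻¹))
        = (u⁻¹ * (c * u * c⁻¹) * u'⁻¹) * (c * u' * c⁻¹) := by group
      _ = (u'⁻¹ * (u⁻¹ * (c * u * c⁻¹))) * (c * u' * c⁻¹) := by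
          rw [hXc _ h1 _ (X.inv_mem hu')]
      _ = (u * u')⁻¹ * (c * (u * u') * c⁻¹) := by group
  inv_mem' := by
    rintro _ ⟨u, hu, rfl⟩
    refine ⟨u⁻¹, X.inv_mem hu, ?_⟩
    calc (u⁻¹ * (c * u * c⁻¹))⁻¹ = (c * u⁻¹ * c⁻¹) * u := by group
      _ = u * (c * u⁻¹ * c⁻¹) := hXc _ (conj_mem_of_nz hc (X.inv_mem hu)) _ hu
      _ = (u⁻¹)⁻¹ * (c * u⁻¹ * c⁻¹) := by group

theorem mem_langSub {X : Subgroup Γ} {c : Γ} {hXc : ∀ v ∈ X, ∀ w ∈ X, v * w = w * v}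
    {hc : c ∈ normalizer (X : Set Γ)} {t : Γ} :
    t ∈ langSub X c hXc hc ↔ ∃ u ∈ X, t = u⁻¹ * (c * u * c⁻¹) := Iff.rfl

theorem langSub_le (X : Subgroup Γ) (c : Γ) (hXc : ∀ v ∈ X, ∀ w ∈ X, v * w = w * v)
    (hc : c ∈ normalizer (X : Set Γ)) : langSub X c hXc hc ≤ X := by
  rintro _ ⟨u, hu, rfl⟩
  exact X.mul_mem (X.inv_mem hu) (conj_mem_of_nz hc hu)

/-- an element normalizing `X` and commuting with `c` normalizes `[X, c]`. -/
theorem nz_langSub (X : Subgroup Γ) (c : Γ) (hXc : ∀ v ∈ X, ∀ w ∈ X, v * w = w * v)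
    (hc : c ∈ normalizer (X : Set Γ)) {g : Γ} (hg : g ∈ normalizer (X : Set Γ))
    (hgc : g * c = c * g) : g ∈ normalizer ((langSub X c hXc hc : Subgroup Γ) : Set Γ) := by
  have hgc' : g⁻¹ * c = c * g⁻¹ := by
    calc g⁻¹ * c = g⁻¹ * (c * g) * g⁻¹ := by group
      _ = g⁻¹ * (g * c) * g⁻¹ := by rw [hgc]
      _ = c * g⁻¹ := by group
  apply nz_of_conj_mem
  · rintro _ ⟨u, hu, rfl⟩
    refine ⟨g * u * g⁻¹, conj_mem_of_nz hg hu, ?_⟩
    calc g * (u⁻¹ * (c * u * c⁻¹)) * g⁻¹ = (g * u * g⁻¹)⁻¹ * ((g * c) * u * (g * c)⁻¹) := by group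
      _ = (g * u * g⁻¹)⁻¹ * (c * (g * u * g⁻¹) * c⁻¹) := by rw [hgc]; group
  · rintro _ ⟨u, hu, rfl⟩
    refine ⟨g⁻¹ * u * g, conj_mem_of_nz' hg hu, ?_⟩
    calc g⁻¹ * (u⁻¹ * (c * u * c⁻¹)) * g
        = (g⁻¹ * u * g)⁻¹ * ((g⁻¹ * c) * u * (g⁻¹ * c)⁻¹) := by group
      _ = (g⁻¹ * u * g)⁻¹ * (c * (g⁻¹ * u * g) * c⁻¹) := by rw [hgc']; group

/-- Elements of the normalizer of `Q` acting trivially on `Q / K`. -/
def dSub (Q K : Subgroup Γ) : Subgroup Γ where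
  carrier := {g | g ∈ normalizer (Q : Set Γ) ∧ ∀ y ∈ Q, y⁻¹ * (g * y * g⁻¹) ∈ K}
  one_mem' := ⟨Subgroup.one_mem _, fun y _ => by simp⟩
  mul_mem' := by
    rintro g h ⟨hg, hg'⟩ ⟨hh, hh'⟩
    refine ⟨Subgroup.mul_mem _ hg hh, fun y hy => ?_⟩
    have hk := hh' y hy
    have hkQ : y⁻¹ * (h * y * h⁻¹) ∈ Q := Q.mul_mem (Q.inv_mem hy) (conj_mem_of_nz hh hy)
    have h1 := hg' y hy
    have h2 := hg' _ hkQ
    have e : y⁻¹ * (g * h * y * (g * h)⁻¹)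
        = (y⁻¹ * (g * y * g⁻¹)) * ((y⁻¹ * (h * y * h⁻¹)) *
          ((y⁻¹ * (h * y * h⁻¹))⁻¹ * (g * (y⁻¹ * (h * y * h⁻¹)) * g⁻¹))) := by group
    rw [e]
    exact K.mul_mem h1 (K.mul_mem hk h2)
  inv_mem' := by
    rintro g ⟨hg, hg'⟩
    refine ⟨Subgroup.inv_mem _ hg, fun y hy => ?_⟩
    have h1 := hg' _ (conj_mem_of_nz' hg hy)
    have e : y⁻¹ * (g⁻¹ * y * g⁻¹⁻¹) = ((g⁻¹ * y * g)⁻¹ * (g * (g⁻¹ * y * g) * g⁻¹))⁻¹ := by group
    rw [e]
    exact K.inv_mem h1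

theorem mem_dSub {Q K : Subgroup Γ} {g : Γ} :
    g ∈ dSub Q K ↔ g ∈ normalizer (Q : Set Γ) ∧ ∀ y ∈ Q, y⁻¹ * (g * y * g⁻¹) ∈ K := Iff.rfl

/-- commuting with an element is a subgroup condition -/
theorem comm_of_mem_zpowers {g x y : Γ} (hy : y ∈ zpowers x) (h : x * g = g * x) :
    y * g = g * y := by
  have h1 : zpowers x ≤ centralizer ({g} : Set Γ) := by
    rw [zpowers_le, mem_centralizer_iff]
    intro z hz
    rw [Set.mem_singleton_iff] at hz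
    rw [hz]; exact h.symm
  have h2 := h1 hy
  rw [mem_centralizer_iff] at h2
  exact (h2 g rfl).symm

theorem comm_of_mem_sup_zpowers {g x x' y : Γ} (hy : y ∈ zpowers x ⊔ zpowers x')
    (h : x * g = g * x) (h' : x' * g = g * x') : y * g = g * y := by
  have h1 : zpowers x ⊔ zpowers x' ≤ centralizer ({g} : Set Γ) := by
    apply sup_le
    · rw [zpowers_le, mem_centralizer_iff]
      intro z hz
      rw [Set.mem_singleton_iff] at hz
      rw [hz]; exact h.symm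
    · rw [zpowers_le, mem_centralizer_iff]
      intro z hz
      rw [Set.mem_singleton_iff] at hz
      rw [hz]; exact h'.symm
  have h2 := h1 hy
  rw [mem_centralizer_iff] at h2
  exact (h2 g rfl).symm

section ElAb
variable [Finite Γ] {p : ℕ} [hp : Fact p.Prime] {A : Subgroup Γ}

theorem card_zpowers_of_mem (hA : ∀ a ∈ A, a ^ p = 1) {x : Γ} (hx : x ∈ A) (hx1 : x ≠ 1) :
    Nat.card (zpowers x) = p := by
  rw [Nat.card_zpowers]
  exact orderOf_eq_prime (hA x hx) hx1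

/-- two independent elements generate `A`. -/
theorem indep_gen (hA : ∀ a ∈ A, a ^ p = 1) (hcard : Nat.card A = p ^ 2) {x x' : Γ}
    (hx : x ∈ A) (hx1 : x ≠ 1) (hx' : x' ∈ A) (hnot : x' ∉ zpowers x) :
    A ≤ zpowers x ⊔ zpowers x' := by
  have hle : zpowers x ⊔ zpowers x' ≤ A := sup_le (zpowers_le.mpr hx) (zpowers_le.mpr hx')
  have h1 : Nat.card (zpowers x ⊔ zpowers x' : Subgroup Γ) ∣ p ^ 2 := by
    rw [← hcard]; exact Subgroup.card_dvd_of_le hle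
  obtain ⟨k, hk, hk'⟩ := (Nat.dvd_prime_pow hp.out).mp h1
  have h2 : p ∣ Nat.card (zpowers x ⊔ zpowers x' : Subgroup Γ) := by
    rw [← card_zpowers_of_mem hA hx hx1]
    exact Subgroup.card_dvd_of_le le_sup_left
  have hk2 : k = 2 := by
    interval_cases k
    · rw [hk', pow_zero] at h2
      exact absurd (Nat.le_of_dvd Nat.one_pos h2) (by have := hp.out.two_le; omega)
    · exfalso
      apply hnot
      have h3 : zpowers x = zpowers x ⊔ zpowers x' := by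
        apply Subgroup.eq_of_le_of_card_ge le_sup_left
        rw [hk', pow_one, card_zpowers_of_mem hA hx hx1]
      rw [h3]
      exact mem_sup_right (mem_zpowers x')
    · rfl
  rw [hk2] at hk'
  have h4 : zpowers x ⊔ zpowers x' = A := by
    apply Subgroup.eq_of_le_of_card_ge hle
    rw [hk', hcard]
  rw [h4]

/-- a nontrivial power generates the same cyclic group -/
theorem same_gen (hA : ∀ a ∈ A, a ^ p = 1) {x x' : Γ}
    (hx : x ∈ A) (hx1 : x ≠ 1) (hx' : x' ∈ zpowers x) (hx'1 : x' ≠ 1) : x ∈ zpowers x' := by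
  have hx'A : x' ∈ A := (zpowers_le.mpr hx) hx'
  have h3 : zpowers x' = zpowers x := by
    apply Subgroup.eq_of_le_of_card_ge (zpowers_le.mpr hx')
    rw [card_zpowers_of_mem hA hx hx1, card_zpowers_of_mem hA hx'A hx'1]
  rw [h3]
  exact mem_zpowers x

theorem exists_indep (hA : ∀ a ∈ A, a ^ p = 1) (hcard : Nat.card A = p ^ 2) {x : Γ}
    (hx : x ∈ A) (hx1 : x ≠ 1) : ∃ x' ∈ A, x' ∉ zpowers x := by
  by_contra hcon
  push_neg at hcon
  have h1 : A ≤ zpowers x := hcon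
  have h2 := Subgroup.card_le_of_le h1
  rw [hcard, card_zpowers_of_mem hA hx hx1] at h2
  have := hp.out.two_le
  nlinarith

end ElAb

/-- orders of elements of a `q`-group and an `r`-group are coprime -/
theorem coprime_orderOf {q r : ℕ} (hq : q.Prime) (hr : r.Prime) (hqr : q ≠ r)
    {X Y : Subgroup Γ} (hX : IsPGroup q X) (hY : IsPGroup r Y) {u w : Γ} (hu : u ∈ X)
    (hw : w ∈ Y) : (orderOf u).Coprime (orderOf w) := by
  obtain ⟨k, hk⟩ := hX ⟨u, hu⟩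
  obtain ⟨l, hl⟩ := hY ⟨w, hw⟩
  have hk' : u ^ q ^ k = 1 := congrArg Subtype.val hk
  have hl' : w ^ r ^ l = 1 := congrArg Subtype.val hl
  obtain ⟨k', -, e1⟩ := (Nat.dvd_prime_pow hq).mp (orderOf_dvd_of_pow_eq_one hk')
  obtain ⟨l', -, e2⟩ := (Nat.dvd_prime_pow hr).mp (orderOf_dvd_of_pow_eq_one hl')
  rw [e1, e2]
  exact Nat.Coprime.pow _ _ ((Nat.coprime_primes hq hr).mpr hqr)

theorem coprime_card {q r : ℕ} (hq : q.Prime) (hr : r.Prime) (hqr : q ≠ r)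
    {X Y : Subgroup Γ} (hX : IsPGroup q X) (hY : IsPGroup r Y) [Finite X] [Finite Y] :
    (Nat.card X).Coprime (Nat.card Y) := by
  haveI := Fact.mk hq
  haveI := Fact.mk hr
  obtain ⟨k, hk⟩ := IsPGroup.iff_card.mp hX
  obtain ⟨l, hl⟩ := IsPGroup.iff_card.mp hY
  rw [hk, hl]
  exact Nat.Coprime.pow _ _ ((Nat.coprime_primes hq hr).mpr hqr)

end Cfsg.Agent.Lib.Helper12.Ward
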