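import Mathlib
import Cfsg.Agent.Lib.Helper12.Ward3

set_option autoImplicit false
set_option linter.style.haveILetI false

namespace Cfsg.Agent.Lib.Helper12.Ward

open Subgroup Pointwise
open scoped commutatorElement

universe u

variable {Γ : Type u} [Group Γ]

/-- the quotient `N_Γ(N) / N` -/
abbrev QG (N : Subgroup Γ) : Type u :=
  ↥(normalizer (N : Set Γ)) ⧸ (N.subgroupOf (normalizer (N : Set Γ)))

/-- the quotient map -/
def qm (N : Subgroup Γ) : ↥(normalizer (N : Set Γ)) →* QG N := QuotientGroup.mk' _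

/-- image of a subgroup of `Γ` in `N_Γ(N) / N` -/
def qmap (N H : Subgroup Γ) : Subgroup (QG N) :=
  (H.subgroupOf (normalizer (N : Set Γ))).map (qm N)

theorem qm_eq_one_iff (N : Subgroup Γ) (x : ↥(normalizer (N : Set Γ))) :
    qm N x = 1 ↔ (x : Γ) ∈ N := by
  unfold qm
  rw [QuotientGroup.mk'_apply, QuotientGroup.eq_one_iff, Subgroup.mem_subgroupOf]

theorem qm_surjective (N : Subgroup Γ) : Function.Surjective (qm N) :=
  QuotientGroup.mk'_surjective _

theorem mem_qmap_iff {N H : Subgroup Γ} (hNH : N ≤ H) (x : ↥(normalizer (N : Set Γ))) :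
    qm N x ∈ qmap N H ↔ (x : Γ) ∈ H := by
  constructor
  · intro hx
    obtain ⟨h, hh, hhx⟩ := Subgroup.mem_map.mp hx
    rw [Subgroup.mem_subgroupOf] at hh
    have h1 : qm N (h⁻¹ * x) = 1 := by rw [map_mul, map_inv, hhx, inv_mul_cancel]
    rw [qm_eq_one_iff] at h1
    have h2 : ((h⁻¹ * x : ↥(normalizer (N : Set Γ))) : Γ) = (h : Γ)⁻¹ * (x : Γ) := rfl
    rw [h2] at h1
    have e : (x : Γ) = (h : Γ) * ((h : Γ)⁻¹ * (x : Γ)) := by group
    rw [e]
    exact H.mul_mem hh (hNH h1)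
  · intro hx
    exact Subgroup.mem_map_of_mem _ (Subgroup.mem_subgroupOf.mpr hx)

theorem exists_of_mem_qmap {N H : Subgroup Γ} {y : QG N} (hy : y ∈ qmap N H) :
    ∃ (x : Γ) (hx : x ∈ normalizer (N : Set Γ)), x ∈ H ∧ qm N ⟨x, hx⟩ = y := by
  obtain ⟨h, hh, rfl⟩ := Subgroup.mem_map.mp hy
  exact ⟨h.1, h.2, Subgroup.mem_subgroupOf.mp hh, rfl⟩

theorem subgroupOf_lcs {H L : Subgroup Γ} (hHL : H ≤ L) (k : ℕ) :
    (H.subgroupOf L).lowerCentralSeries k = (H.lowerCentralSeries k).subgroupOf L := by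
  apply Subgroup.map_injective L.subtype_injective
  rw [Subgroup.map_lowerCentralSeries, Subgroup.map_subgroupOf_eq_of_le hHL,
    Subgroup.map_subgroupOf_eq_of_le ((Subgroup.lowerCentralSeries_le_self H k).trans hHL)]

theorem qmap_lcs {N H : Subgroup Γ} (hH : H ≤ normalizer (N : Set Γ)) (k : ℕ) :
    (qmap N H).lowerCentralSeries k = qmap N (H.lowerCentralSeries k) := by
  unfold qmap
  rw [← Subgroup.map_lowerCentralSeries, subgroupOf_lcs hH]

theorem le_of_qmap_eq_bot {N H : Subgroup Γ} (hH : H ≤ normalizer (N : Set Γ))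
    (h : qmap N H = ⊥) : H ≤ N := by
  intro x hx
  have h1 : qm N ⟨x, hH hx⟩ ∈ qmap N H :=
    Subgroup.mem_map_of_mem _ (Subgroup.mem_subgroupOf.mpr hx)
  rw [h, Subgroup.mem_bot, qm_eq_one_iff] at h1
  exact h1

theorem lcs_le_of_quot {N H : Subgroup Γ} (hH : H ≤ normalizer (N : Set Γ)) {k m : ℕ}
    (h : ((qmap N H).lowerCentralSeries k).lowerCentralSeries m = ⊥) :
    (H.lowerCentralSeries k).lowerCentralSeries m ≤ N := by
  have h1 : H.lowerCentralSeries k ≤ normalizer (N : Set Γ) :=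
    (Subgroup.lowerCentralSeries_le_self H k).trans hH
  rw [qmap_lcs hH, qmap_lcs h1] at h
  exact le_of_qmap_eq_bot ((Subgroup.lowerCentralSeries_le_self _ m).trans h1) h

theorem qm_mem_normalizer {N H : Subgroup Γ} {x : Γ} (hxN : x ∈ normalizer (N : Set Γ))
    (hxH : x ∈ normalizer (H : Set Γ)) :
    qm N ⟨x, hxN⟩ ∈ normalizer ((qmap N H : Subgroup (QG N)) : Set (QG N)) := by
  apply Subgroup.le_normalizer_map (qm N)
  refine Subgroup.mem_map_of_mem _ ?_
  apply nz_of_conj_mem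
  · intro h hh
    rw [Subgroup.mem_subgroupOf] at hh ⊢
    exact conj_mem_of_nz hxH hh
  · intro h hh
    rw [Subgroup.mem_subgroupOf] at hh ⊢
    exact conj_mem_of_nz' hxH hh

theorem qmap_le_normalizer {N H A : Subgroup Γ} (hA : A ≤ normalizer (H : Set Γ)) :
    qmap N A ≤ normalizer ((qmap N H : Subgroup (QG N)) : Set (QG N)) := by
  intro y hy
  obtain ⟨x, hx, hxA, rfl⟩ := exists_of_mem_qmap hy
  exact qm_mem_normalizer hx (hA hxA)

theorem qmap_solvable {N H : Subgroup Γ} (hs : Group.IsSolvable H) :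
    Group.IsSolvable (qmap N H) := by
  haveI := hs
  haveI := Cfsg.Agent.Lib.Helper1.isSolvable_subgroupOf H (normalizer (N : Set Γ))
  exact Cfsg.Agent.Lib.Helper1.isSolvable_map (qm N) _

section Fin
variable [Finite Γ]

theorem card_qmap_lt {N H : Subgroup Γ} (hNH : N ≤ H) (hH : H ≤ normalizer (N : Set Γ))
    (hN : N ≠ ⊥) : Nat.card (qmap N H) < Nat.card H := by
  classical
  rw [← Cfsg.Agent.Lib.Helper1.card_subgroupOf_of_le hH]
  show Nat.card ↥((H.subgroupOf (normalizer (N : Set Γ))).map (qm N)) < _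
  letI : Fintype ↥(H.subgroupOf (normalizer (N : Set Γ))) := Fintype.ofFinite _
  letI : Fintype ↥((H.subgroupOf (normalizer (N : Set Γ))).map (qm N)) := Fintype.ofFinite _
  rw [Nat.card_eq_fintype_card, Nat.card_eq_fintype_card]
  apply Fintype.card_lt_of_surjective_not_injective
    ((qm N).subgroupMap (H.subgroupOf (normalizer (N : Set Γ))))
    ((qm N).subgroupMap_surjective _)
  intro hinj
  apply hN
  rw [eq_bot_iff]
  intro n hn
  rw [Subgroup.mem_bot]
  have hnN : n ∈ normalizer (N : Set Γ) := Subgroup.le_normalizer hn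
  have hmem : (⟨n, hnN⟩ : ↥(normalizer (N : Set Γ))) ∈ H.subgroupOf (normalizer (N : Set Γ)) :=
    Subgroup.mem_subgroupOf.mpr (hNH hn)
  have h1 : (qm N).subgroupMap (H.subgroupOf (normalizer (N : Set Γ))) ⟨⟨n, hnN⟩, hmem⟩
      = (qm N).subgroupMap (H.subgroupOf (normalizer (N : Set Γ))) 1 := by
    apply Subtype.ext
    rw [map_one]
    show qm N ⟨n, hnN⟩ = 1
    rw [qm_eq_one_iff]
    exact hn
  have h2 := hinj h1
  have h3 := congrArg (fun z : ↥(H.subgroupOf (normalizer (N : Set Γ))) => ((z : ↥(normalizer (N : Set Γ))) : Γ)) h2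
  exact h3

omit [Finite Γ] in
theorem card_qmap_eq {N A : Subgroup Γ} (hA : A ≤ normalizer (N : Set Γ))
    (hAN : ∀ x ∈ A, x ∈ N → x = 1) : Nat.card (qmap N A) = Nat.card A := by
  rw [← Cfsg.Agent.Lib.Helper1.card_subgroupOf_of_le hA]
  symm
  apply Nat.card_congr
  refine Equiv.ofBijective ((qm N).subgroupMap (A.subgroupOf (normalizer (N : Set Γ))))
    ⟨?_, (qm N).subgroupMap_surjective _⟩
  intro x y hxy
  have h1 : qm N (x : ↥(normalizer (N : Set Γ))) = qm N (y : ↥(normalizer (N : Set Γ))) :=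
    congrArg Subtype.val hxy
  have h2 : qm N ((x : ↥(normalizer (N : Set Γ)))⁻¹ * (y : ↥(normalizer (N : Set Γ)))) = 1 := by
    rw [map_mul, map_inv, h1, inv_mul_cancel]
  rw [qm_eq_one_iff] at h2
  have hx := Subgroup.mem_subgroupOf.mp x.2
  have hy := Subgroup.mem_subgroupOf.mp y.2
  have h3 := hAN _ (A.mul_mem (A.inv_mem hx) hy) h2
  apply Subtype.ext
  apply Subtype.ext
  exact inv_mul_eq_one.mp h3

end Fin

theorem qmap_elemAb {N A : Subgroup Γ} {p : ℕ} (hA : Cfsg.IsElementaryAbelian p A) :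
    Cfsg.IsElementaryAbelian p (qmap N A) := by
  refine ⟨⟨⟨?_⟩⟩, ?_⟩
  · intro a b
    obtain ⟨x, hx, hxA, hxa⟩ := exists_of_mem_qmap a.2
    obtain ⟨y, hy, hyA, hyb⟩ := exists_of_mem_qmap b.2
    apply Subtype.ext
    show (a : QG N) * (b : QG N) = (b : QG N) * (a : QG N)
    rw [← hxa, ← hyb, ← map_mul, ← map_mul]
    congr 1
    apply Subtype.ext
    show x * y = y * x
    exact congrArg Subtype.val (hA.1.is_comm.comm (⟨x, hxA⟩ : ↥A) ⟨y, hyA⟩)
  · intro a ha
    obtain ⟨x, hx, hxA, rfl⟩ := exists_of_mem_qmap ha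
    rw [← map_pow]
    have : (⟨x, hx⟩ : ↥(normalizer (N : Set Γ))) ^ p = 1 := Subtype.ext (hA.2 x hxA)
    rw [this, map_one]

end Cfsg.Agent.Lib.Helper12.Ward
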