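import Mathlib
import Cfsg.Agent.Lib.Helper12.Ward5
import Cfsg.Agent.Lib.Helper55.Syl
import Cfsg.Agent.Lib.Helper55.FS
import Cfsg.Agent.Lib.Helper4.NilAux
import Cfsg.Agent.Lib.Helper32.NcAxB2
import Cfsg.Agent.Lib.Helper66.Cores

set_option autoImplicit false
set_option linter.style.haveILetI false

namespace Cfsg.Agent.Lib.Helper12.Ward

open Subgroup Pointwise
open scoped commutatorElement
open Cfsg.Agent.Lib.Helper55 (SylIn cj cj_eq_self_of_mem_normalizer mem_normalizer_of_cj_eq cj_mul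
  cj_one sylIn_map_sylow)

universe u

variable {Γ : Type u} [Group Γ]

theorem exists_mul_of_mem_sup {H N : Subgroup Γ} (h : N ≤ normalizer (H : Set Γ)) {g : Γ}
    (hg : g ∈ H ⊔ N) : ∃ x ∈ H, ∃ y ∈ N, g = x * y := by
  have hg' : g ∈ ((H ⊔ N : Subgroup Γ) : Set Γ) := hg
  rw [Subgroup.coe_mul_of_right_le_normalizer_left _ _ h] at hg'
  obtain ⟨x, hx, y, hy, rfl⟩ := Set.mem_mul.mp hg'
  exact ⟨x, hx, y, hy, rfl⟩

theorem comm_of_commutator_eq_bot {X Y : Subgroup Γ} (h : ⁅X, Y⁆ = ⊥) :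
    ∀ x ∈ X, ∀ y ∈ Y, x * y = y * x := by
  intro x hx y hy
  have h1 : ⁅x, y⁆ ∈ ⁅X, Y⁆ := Subgroup.commutator_mem_commutator hx hy
  rw [h, Subgroup.mem_bot] at h1
  exact commutatorElement_eq_one_iff_mul_comm.mp h1

theorem commutator_eq_bot_of_comm {X Y : Subgroup Γ} (h : ∀ x ∈ X, ∀ y ∈ Y, x * y = y * x) :
    ⁅X, Y⁆ = ⊥ := by
  rw [eq_bot_iff, Subgroup.commutator_le]
  intro x hx y hy
  rw [Subgroup.mem_bot]
  exact commutatorElement_eq_one_iff_mul_comm.mpr (h x hx y hy)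

theorem exists_min_subgroup [Finite Γ] (P : Subgroup Γ → Prop) (h : ∃ N, P N) :
    ∃ V, P V ∧ ∀ N, N ≤ V → P N → N = V := by
  obtain ⟨N₀, hN₀⟩ := h
  obtain ⟨V, hV, hmin⟩ := wellFounded_lt.has_min {N | P N} ⟨N₀, hN₀⟩
  exact ⟨V, hV, fun N hNV hN => by_contra fun hne => hmin N hN (lt_of_le_of_ne hNV hne)⟩

theorem lcs_lcs_le (G : Subgroup Γ) {k k' m m' : ℕ} (hk : k ≤ k') (hm : m ≤ m') :
    (G.lowerCentralSeries k').lowerCentralSeries m' ≤
      (G.lowerCentralSeries k).lowerCentralSeries m :=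
  ((G.lowerCentralSeries k').lowerCentralSeries_antitone hm).trans
    (Subgroup.lowerCentralSeries_mono m (G.lowerCentralSeries_antitone hk))

/-- a self-normalizing subgroup containing a term of the lower central series is everything -/
theorem nc_lemma {K N₁ : Subgroup Γ} {m : ℕ} (hm : K.lowerCentralSeries m ≤ N₁) (hN : N₁ ≤ K)
    (hself : ∀ g ∈ K, g ∈ normalizer (N₁ : Set Γ) → g ∈ N₁) : K ≤ N₁ := by
  have key : ∀ j, j ≤ m → K.lowerCentralSeries (m - j) ≤ N₁ := by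
    intro j
    induction j with
    | zero => intro _; simpa using hm
    | succ j ih =>
      intro hj
      have h1 := ih (by omega)
      have e : m - j = (m - (j + 1)) + 1 := by omega
      rw [e, Subgroup.lowerCentralSeries_succ] at h1
      intro x hx
      have hxK : x ∈ K := Subgroup.lowerCentralSeries_le_self K _ hx
      apply hself x hxK
      apply nz_of_conj_mem
      · intro n hn
        have h2 : ⁅x, n⁆ ∈ N₁ := h1 (Subgroup.commutator_mem_commutator hx (hN hn))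
        have e2 : x * n * x⁻¹ = ⁅x, n⁆ * n := by rw [commutatorElement_def]; group
        rw [e2]; exact N₁.mul_mem h2 hn
      · intro n hn
        have h2 : ⁅x⁻¹, n⁆ ∈ N₁ :=
          h1 (Subgroup.commutator_mem_commutator (Subgroup.inv_mem _ hx) (hN hn))
        have e2 : x⁻¹ * n * x = ⁅x⁻¹, n⁆ * n := by rw [commutatorElement_def]; group
        rw [e2]; exact N₁.mul_mem h2 hn
  have := key m le_rfl
  simpa using this

theorem sylIn_mono {q : ℕ} {P K K' : Subgroup Γ} (h : SylIn q P K) (hPK' : P ≤ K')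
    (hK'K : K' ≤ K) : SylIn q P K' := by
  refine ⟨hPK', h.isPGroup, fun hd => h.2.2 ?_⟩
  rw [← Subgroup.relIndex_mul_relIndex P K' K hPK' hK'K]
  exact Dvd.dvd.mul_right hd _

section Fin
variable [Finite Γ]

/-- generalized Frattini argument: if `K / N` is nilpotent then `K = N N_K(P)`. -/
theorem frat_nil {q : ℕ} [Fact q.Prime] {P K N : Subgroup Γ} {m : ℕ} (hP : SylIn q P K)
    (hNK : N ≤ K) (hm : K.lowerCentralSeries m ≤ N) :
    K ≤ N ⊔ (K ⊓ normalizer (P : Set Γ)) := by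
  have hle : N ⊔ (K ⊓ normalizer (P : Set Γ)) ≤ K := sup_le hNK inf_le_left
  apply nc_lemma (hm.trans le_sup_left) hle
  intro g hg hgn
  have hPN₁ : P ≤ N ⊔ (K ⊓ normalizer (P : Set Γ)) :=
    le_sup_of_le_right (le_inf hP.le Subgroup.le_normalizer)
  have h1 : SylIn q P (N ⊔ (K ⊓ normalizer (P : Set Γ))) := sylIn_mono hP hPN₁ hle
  have h2 : SylIn q (cj g P) (N ⊔ (K ⊓ normalizer (P : Set Γ))) := by
    have := h1.cjOf g
    rwa [cj_eq_self_of_mem_normalizer hgn] at this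
  obtain ⟨n, hn, e⟩ := h1.conj h2
  have h3 : n⁻¹ * g ∈ normalizer (P : Set Γ) := by
    apply mem_normalizer_of_cj_eq
    rw [cj_mul, e, ← cj_mul, inv_mul_cancel, cj_one]
  have h4 : n⁻¹ * g ∈ N ⊔ (K ⊓ normalizer (P : Set Γ)) :=
    Subgroup.mem_sup_right (Subgroup.mem_inf.mpr ⟨K.mul_mem (K.inv_mem (hle hn)) hg, h3⟩)
  have e2 : g = n * (n⁻¹ * g) := by group
  rw [e2]
  exact Subgroup.mul_mem _ hn h4

theorem nz_of_normal_sylIn {q : ℕ} [Fact q.Prime] {Q L : Subgroup Γ} (hQ : SylIn q Q L)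
    (hLQ : L ≤ normalizer (Q : Set Γ)) {g : Γ} (hg : g ∈ normalizer (L : Set Γ)) :
    g ∈ normalizer (Q : Set Γ) := by
  have h2 : SylIn q (cj g Q) L := by
    have := hQ.cjOf g
    rwa [cj_eq_self_of_mem_normalizer hg] at this
  obtain ⟨n, hn, e⟩ := hQ.conj h2
  apply mem_normalizer_of_cj_eq
  rw [e]
  exact cj_eq_self_of_mem_normalizer (hLQ hn)

theorem exists_inv_sylIn {A K : Subgroup Γ} (hAK : A ≤ normalizer (K : Set Γ))
    (hcop : (Nat.card A).Coprime (Nat.card K)) (hsolv : Group.IsSolvable A)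
    (q : ℕ) [Fact q.Prime] : ∃ P : Subgroup Γ, SylIn q P K ∧ A ≤ normalizer (P : Set Γ) := by
  obtain ⟨P, _, hAP⟩ := Cfsg.Agent.Lib.Helper1.invariant_pgroup_le_invariant_sylow hAK hcop
    (Or.inl hsolv) q ⊥ bot_le IsPGroup.of_bot (Cfsg.Agent.Lib.Helper30.bot_le_normalizer' A)
  exact ⟨_, sylIn_map_sylow P, hAP⟩

theorem exists_fixed_of_dvd {p : ℕ} [Fact p.Prime] {A H : Subgroup Γ} (hA : IsPGroup p A)
    (hAH : A ≤ normalizer (H : Set Γ)) (hd : p ∣ Nat.card H) :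
    ∃ t ∈ H, t ≠ 1 ∧ ∀ a ∈ A, a * t = t * a := by
  have hT : ¬ p ∣ Nat.card (((H : Set Γ) \ {1} : Set Γ)) := by
    rw [Nat.card_coe_set_eq, Set.ncard_diff_singleton_of_mem H.one_mem]
    have h1 : (H : Set Γ).ncard = Nat.card H := by rw [← Nat.card_coe_set_eq]; rfl
    rw [h1]
    intro h2
    have hpos : 0 < Nat.card H := Nat.card_pos
    have h3 : p ∣ 1 := by
      have h4 := Nat.dvd_sub hd h2
      have e : Nat.card H - (Nat.card H - 1) = 1 := by omega
      rwa [e] at h4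
    exact (Fact.out : p.Prime).one_lt.ne' (Nat.dvd_one.mp h3)
  have hinv : ∀ a ∈ A, ∀ t ∈ ((H : Set Γ) \ {1} : Set Γ), a * t * a⁻¹ ∈ ((H : Set Γ) \ {1} : Set Γ) := by
    intro a ha t ht
    refine ⟨conj_mem_of_nz (hAH ha) ht.1, ?_⟩
    intro h
    apply ht.2
    rw [Set.mem_singleton_iff] at h ⊢
    have e : t = a⁻¹ * (a * t * a⁻¹) * a := by group
    rw [e, h]; group
  obtain ⟨t, ht, hfix⟩ := Cfsg.Agent.Lib.Helper32.exists_conj_fixed_elt p hA _ hinv hT
  exact ⟨t, ht.1, fun h => ht.2 (Set.mem_singleton_iff.mpr h),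
    fun a ha => comm_of_conj_eq (hfix a ha)⟩

/-- lower central series of a product with a normal subgroup -/
theorem lcs_sup_le {V M : Subgroup Γ} (hMV : M ≤ normalizer (V : Set Γ)) :
    ∀ j, (V ⊔ M).lowerCentralSeries j ≤ V ⊔ M.lowerCentralSeries j := by
  intro j
  induction j with
  | zero => exact le_rfl
  | succ j ih =>
    rw [Subgroup.lowerCentralSeries_succ, Subgroup.lowerCentralSeries_succ]
    refine (Subgroup.commutator_mono ih le_rfl).trans ?_
    rw [Subgroup.commutator_le]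
    intro a ha b hb
    have hMj : M.lowerCentralSeries j ≤ normalizer (V : Set Γ) :=
      (Subgroup.lowerCentralSeries_le_self M j).trans hMV
    obtain ⟨v₁, hv₁, m₁, hm₁, rfl⟩ := exists_mul_of_mem_sup hMj ha
    obtain ⟨v₂, hv₂, m₂, hm₂, rfl⟩ := exists_mul_of_mem_sup hMV hb
    have hm₁M : m₁ ∈ M := Subgroup.lowerCentralSeries_le_self M j hm₁
    have hc : ⁅m₁, m₂⁆ ∈ ⁅M.lowerCentralSeries j, M⁆ :=
      Subgroup.commutator_mem_commutator hm₁ hm₂
    have hcM : ⁅m₁, m₂⁆ ∈ M :=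
      (Cfsg.Agent.Lib.Helper55.commutator_le_of_le_normalizer
        (M.self_le_normalizer_lowerCentralSeries j)).trans
        (Subgroup.lowerCentralSeries_le_self M j) hc
    have e : ⁅v₁ * m₁, v₂ * m₂⁆ = v₁ * (m₁ * v₂ * m₁⁻¹) *
        ((m₁ * m₂ * m₁⁻¹) * v₁⁻¹ * (m₁ * m₂ * m₁⁻¹)⁻¹) *
        (⁅m₁, m₂⁆ * v₂⁻¹ * ⁅m₁, m₂⁆⁻¹) * ⁅m₁, m₂⁆ := by
      simp only [commutatorElement_def]; group
    rw [e]
    refine Subgroup.mul_mem _ (Subgroup.mem_sup_left ?_) (Subgroup.mem_sup_right hc)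
    refine V.mul_mem (V.mul_mem (V.mul_mem hv₁ (conj_mem_of_nz (hMV hm₁M) hv₂)) ?_) ?_
    · exact conj_mem_of_nz (hMV (M.mul_mem (M.mul_mem hm₁M hm₂) (M.inv_mem hm₁M))) (V.inv_mem hv₁)
    · exact conj_mem_of_nz (hMV hcM) (V.inv_mem hv₂)

/-- in a metanilpotent group, `X = [X, R]` centralizes a normal subgroup of coprime order -/
theorem lmn {H V X R : Subgroup Γ} {k m r q : ℕ} (hr : r.Prime) (hq : q.Prime) (hqr : q ≠ r)
    (hH : (H.lowerCentralSeries k).lowerCentralSeries m = ⊥)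
    (hVH : V ≤ H) (hHV : H ≤ normalizer (V : Set Γ)) (hXH : X ≤ H) (hRH : R ≤ H)
    (hV : IsPGroup r V) (hX : IsPGroup q X) (hXR : ⁅X, R⁆ = X) :
    ∀ x ∈ X, ∀ v ∈ V, x * v = v * x := by
  haveI := Fact.mk hr
  haveI := Fact.mk hq
  have hXL : X ≤ H.lowerCentralSeries k := by
    have : ∀ j, X ≤ H.lowerCentralSeries j := by
      intro j
      induction j with
      | zero => exact hXH
      | succ j ih =>
        rw [Subgroup.lowerCentralSeries_succ]
        calc X = ⁅X, R⁆ := hXR.symm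
          _ ≤ ⁅H.lowerCentralSeries j, H⁆ := Subgroup.commutator_mono ih hRH
    exact this k
  haveI hLnil : Group.IsNilpotent ↥(H.lowerCentralSeries k) :=
    (Subgroup.isNilpotent_iff_lowerCentralSeries (H.lowerCentralSeries k)).mpr ⟨m, hH⟩
  have hLH : H.lowerCentralSeries k ≤ H := Subgroup.lowerCentralSeries_le_self H k
  have hHL : H ≤ normalizer ((H.lowerCentralSeries k : Subgroup Γ) : Set Γ) :=
    H.self_le_normalizer_lowerCentralSeries k
  have h1 : ∀ x ∈ X, ∀ c ∈ V, c ∈ H.lowerCentralSeries k → x * c = c * x := by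
    intro x hx c hcV hcL
    have hcop : (orderOf (⟨x, hXL hx⟩ : ↥(H.lowerCentralSeries k))).Coprime
        (orderOf (⟨c, hcL⟩ : ↥(H.lowerCentralSeries k))) := by
      rw [Subgroup.orderOf_mk, Subgroup.orderOf_mk]
      exact coprime_orderOf hq hr hqr hX hV hx hcV
    have := Cfsg.Agent.Lib.Helper4.commute_of_coprime_of_isNilpotent ↥(H.lowerCentralSeries k)
      ⟨x, hXL hx⟩ ⟨c, hcL⟩ hcop
    exact congrArg Subtype.val this
  have hXV : X ≤ normalizer (V : Set Γ) := hXH.trans hHV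
  have h2 : ⁅V, X⁆ ≤ centralizer (X : Set Γ) := by
    rw [Subgroup.commutator_le]
    intro v hv x hx
    rw [Subgroup.mem_centralizer_iff]
    intro x' hx'
    have hcV : ⁅v, x⁆ ∈ V := by
      have e : ⁅v, x⁆ = v * (x * v⁻¹ * x⁻¹) := by rw [commutatorElement_def]; group
      rw [e]; exact V.mul_mem hv (conj_mem_of_nz (hXV hx) (V.inv_mem hv))
    have hcL : ⁅v, x⁆ ∈ H.lowerCentralSeries k := by
      have e : ⁅v, x⁆ = (v * x * v⁻¹) * x⁻¹ := by rw [commutatorElement_def]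
      rw [e]
      exact Subgroup.mul_mem _ (conj_mem_of_nz (hHL (hVH hv)) (hXL hx))
        (Subgroup.inv_mem _ (hXL hx))
    exact h1 x' hx' _ hcV hcL
  have hnd : ¬ q ∣ Nat.card V := by
    obtain ⟨n, hn⟩ := IsPGroup.iff_card.mp hV
    rw [hn]
    intro hd
    exact hqr ((Nat.prime_dvd_prime_iff_eq hq hr).mp (hq.dvd_of_dvd_pow hd))
  have h3 := Cfsg.Agent.Lib.Helper55.coprime_le_commutator_sup_centralizer hnd hX hXV
  have h4 : V ≤ centralizer (X : Set Γ) := h3.trans (sup_le h2 inf_le_right)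
  intro x hx v hv
  exact (Subgroup.mem_centralizer_iff.mp (h4 hv)) x hx

theorem comm_ne_of_solvable {V : Subgroup Γ} (hs : Group.IsSolvable V) (hV : V ≠ ⊥) :
    ⁅V, V⁆ ≠ V := by
  intro h
  haveI := hs
  haveI : Nontrivial ↥V := (Subgroup.nontrivial_iff_ne_bot V).mpr hV
  have h1 := Group.IsSolvable.commutator_lt_top_of_nontrivial ↥V
  apply h1.ne
  apply Subgroup.map_injective V.subtype_injective
  rw [commutator_def, Subgroup.map_commutator, ← MonoidHom.range_eq_map, Subgroup.range_subtype, h]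

end Fin

end Cfsg.Agent.Lib.Helper12.Ward
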