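import Mathlib
import Cfsg.Prelude.Def_GeometricClasses
import Cfsg.Agent.Lib.Helper71.Asch0
import Cfsg.Agent.Lib.Helper71.Asch5

/-! S5630 pieces SF + SR (helper12 for helper71): the scalar part of a symplectic-type
minimal non-scalar normal subgroup. -/

set_option autoImplicit false

namespace Cfsg.Agent.Lib.Helper12.ASSF

open Matrix Cfsg.Geo Cfsg.Agent.Lib.Helper71.Asch
open scoped Kronecker commutatorElement

variable {n : ℕ} {F : Type*} [Field F] [Fintype F]

/-- The `(0,0)` entry, as a monoid hom on the scalar part of `L`. -/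
def assfEntry (hn : 1 ≤ n) (L : Subgroup (GL (Fin n) F)) :
    ↥(L ⊓ scalars (Fin n) F) →* F where
  toFun g := (g.1 : Matrix (Fin n) (Fin n) F) ⟨0, hn⟩ ⟨0, hn⟩
  map_one' := by simp
  map_mul' := by
    intro a b
    obtain ⟨c, hc⟩ := (mem_scalars_iff a.1).1 a.2.2
    obtain ⟨d, hd⟩ := (mem_scalars_iff b.1).1 b.2.2
    show ((a.1 * b.1 : GL (Fin n) F) : Matrix (Fin n) (Fin n) F) ⟨0, hn⟩ ⟨0, hn⟩ = _
    rw [Units.val_mul, hc, hd]
    simp [mul_comm]

omit [Fintype F] in
theorem assfEntry_injective (hn : 1 ≤ n) (L : Subgroup (GL (Fin n) F)) :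
    Function.Injective (assfEntry hn L) := by
  intro a b hab
  obtain ⟨c, hc⟩ := (mem_scalars_iff a.1).1 a.2.2
  obtain ⟨d, hd⟩ := (mem_scalars_iff b.1).1 b.2.2
  have h1 : (a.1 : Matrix (Fin n) (Fin n) F) ⟨0, hn⟩ ⟨0, hn⟩ =
      (b.1 : Matrix (Fin n) (Fin n) F) ⟨0, hn⟩ ⟨0, hn⟩ := hab
  rw [hc, hd] at h1
  have h2 : (c : F) = d := by simpa using h1
  apply Subtype.ext
  apply Units.ext
  rw [hc, hd, h2]

theorem assf_isCyclic (hn : 1 ≤ n) (L : Subgroup (GL (Fin n) F)) :
    IsCyclic ↥(L ⊓ scalars (Fin n) F) :=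
  isCyclic_of_injective_ringHom (assfEntry hn L) (assfEntry_injective hn L)

theorem SR (hn : 1 ≤ n) (L : Subgroup (GL (Fin n) F)) :
    ∃ ζ : F, IsPrimitiveRoot ζ (Nat.card ↥(L ⊓ scalars (Fin n) F)) := by
  have := assf_isCyclic hn L
  obtain ⟨g, hg⟩ := IsCyclic.exists_ofOrder_eq_natCard (α := ↥(L ⊓ scalars (Fin n) F))
  refine ⟨assfEntry hn L g, ?_⟩
  rw [← hg, ← orderOf_injective (assfEntry hn L) (assfEntry_injective hn L) g]
  exact IsPrimitiveRoot.orderOf _

theorem SF (hn : 2 ≤ n) (H L : Subgroup (GL (Fin n) F)) (h : SymT H L) (r : ℕ) (hr : r.Prime)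
    (hexp : ∀ x ∈ L, x ^ (r * Nat.gcd 2 r) = 1) :
    (Odd r ∧ Nat.card ↥(L ⊓ scalars (Fin n) F) = r) ∨
      (r = 2 ∧ (Nat.card ↥(L ⊓ scalars (Fin n) F) = 2 ∨
        Nat.card ↥(L ⊓ scalars (Fin n) F) = 4)) := by
  have hn1 : 1 ≤ n := by omega
  have := assf_isCyclic hn1 L
  -- the order divides `r * gcd 2 r`
  have hdvd : Nat.card ↥(L ⊓ scalars (Fin n) F) ∣ r * Nat.gcd 2 r := by
    rw [← IsCyclic.exponent_eq_card]
    apply Monoid.exponent_dvd_of_forall_pow_eq_one
    intro g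
    apply Subtype.ext
    have := hexp g.1 g.2.1
    simpa using this
  -- the order is not one
  have hne : Nat.card ↥(L ⊓ scalars (Fin n) F) ≠ 1 := by
    intro h1
    have htriv : ∀ x ∈ L ⊓ scalars (Fin n) F, x = 1 := by
      intro x hx
      have := (Nat.card_eq_one_iff_unique.1 h1).1
      have h2 : (⟨x, hx⟩ : ↥(L ⊓ scalars (Fin n) F)) = 1 := Subsingleton.elim _ _
      exact congrArg Subtype.val h2
    apply h.min.ns
    intro x hx
    -- `x` commutes with all of `L`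
    have hcomm : ∀ y ∈ L, x * y = y * x := by
      intro y hy
      have h3 : ⁅x, y⁆ ∈ L ⊓ scalars (Fin n) F :=
        ⟨commutator_le_self L (Subgroup.commutator_mem_commutator hx hy),
          h.comm (Subgroup.commutator_mem_commutator hx hy)⟩
      have h4 := htriv _ h3
      rw [commutatorElement_eq_one_iff_mul_comm] at h4
      exact h4
    obtain ⟨c, hc⟩ := h.abs.2 (x : Matrix (Fin n) (Fin n) F) (by
      rintro _ ⟨y, hy, rfl⟩
      have := hcomm y hy
      show (x : Matrix (Fin n) (Fin n) F) * (y : Matrix (Fin n) (Fin n) F) = _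
      rw [← Units.val_mul, this, Units.val_mul])
    have hc0 : c ≠ 0 := by
      rintro rfl
      have h5 : (x : Matrix (Fin n) (Fin n) F) * ((x⁻¹ : GL (Fin n) F) : Matrix (Fin n) (Fin n) F)
          = 1 := by
        rw [← Units.val_mul, mul_inv_cancel, Units.val_one]
      rw [hc, zero_smul, zero_mul] at h5
      have h6 := congrFun (congrFun h5 ⟨0, hn1⟩) ⟨0, hn1⟩
      simp at h6
    rw [mem_scalars_iff]
    exact ⟨Units.mk0 c hc0, by rw [hc, Units.val_mk0]⟩
  rcases Nat.Prime.eq_two_or_odd' hr with rfl | hodd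
  · right
    refine ⟨rfl, ?_⟩
    have h4 : Nat.card ↥(L ⊓ scalars (Fin n) F) ∣ 4 := by simpa using hdvd
    have hle : Nat.card ↥(L ⊓ scalars (Fin n) F) ≤ 4 := Nat.le_of_dvd (by norm_num) h4
    have hpos : 0 < Nat.card ↥(L ⊓ scalars (Fin n) F) := Nat.pos_of_dvd_of_pos h4 (by norm_num)
    interval_cases hk : Nat.card ↥(L ⊓ scalars (Fin n) F)
    · exact absurd rfl hne
    · left; rfl
    · norm_num at h4
    · right; rfl
  · left
    refine ⟨hodd, ?_⟩
    have hg : Nat.gcd 2 r = 1 := by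
      have : Nat.Coprime 2 r := (Nat.coprime_primes Nat.prime_two hr).2 (by
        rintro rfl
        exact absurd hodd (by decide))
      exact this
    rw [hg, mul_one] at hdvd
    rcases (Nat.dvd_prime hr).1 hdvd with h1 | h1
    · exact absurd h1 hne
    · exact h1

end Cfsg.Agent.Lib.Helper12.ASSF
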