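import Mathlib

/-!
# Counting the vectors of shape `(±4, ±4, 0, …, 0)`

There are at most `1104 = 4 * C(24, 2)` integer vectors of length 24 all of whose coordinates
are divisible by 4 and whose sum of squares is 32.
-/

set_option autoImplicit false

namespace Cfsg.Agent.Lib.Helper12.LCB7

theorem val_cases (y : Fin 24 → ℤ) (h32 : ∑ i, y i ^ 2 = 32) (h4 : ∀ i, y i % 4 = 0)
    (i : Fin 24) : y i = 0 ∨ y i = 4 ∨ y i = -4 := by
  have h1 : y i ^ 2 ≤ ∑ j, y j ^ 2 :=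
    Finset.single_le_sum (f := fun j => y j ^ 2) (fun j _ => sq_nonneg (y j)) (Finset.mem_univ i)
  rw [h32] at h1
  have h2 : y i ≤ 5 := by nlinarith
  have h3 : -5 ≤ y i := by nlinarith
  have := h4 i
  omega

theorem supp_card (y : Fin 24 → ℤ) (h32 : ∑ i, y i ^ 2 = 32) (h4 : ∀ i, y i % 4 = 0) :
    (Finset.univ.filter (fun i => y i ≠ 0)).card = 2 := by
  have h1 : ∑ i, y i ^ 2 = ∑ i, (if y i ≠ 0 then (16 : ℤ) else 0) := by
    apply Finset.sum_congr rfl
    intro i _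
    rcases val_cases y h32 h4 i with h | h | h <;> simp [h]
  rw [h32, Finset.sum_ite, Finset.sum_const_zero, add_zero, Finset.sum_const, nsmul_eq_mul] at h1
  omega

/-- The encoding of a vector: its support and the set of coordinates equal to `4`. -/
def enc (y : Fin 24 → ℤ) : (_ : Finset (Fin 24)) × Finset (Fin 24) :=
  ⟨Finset.univ.filter (fun i => y i ≠ 0), Finset.univ.filter (fun i => y i = 4)⟩

/-- The target of the encoding, kept abstract. -/
theorem exists_tgt : ∃ T : Finset ((_ : Finset (Fin 24)) × Finset (Fin 24)),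
    T.card = 1104 ∧ ∀ x, x ∈ T ↔ x.1.card = 2 ∧ x.2 ⊆ x.1 := by
  refine ⟨(Finset.powersetCard 2 (Finset.univ : Finset (Fin 24))).sigma (fun s => s.powerset),
    ?_, ?_⟩
  · rw [Finset.card_sigma]
    have h : ∀ s ∈ Finset.powersetCard 2 (Finset.univ : Finset (Fin 24)),
        s.powerset.card = 4 := by
      intro s hs
      rw [Finset.card_powerset, (Finset.mem_powersetCard.mp hs).2]
      rfl
    rw [Finset.sum_congr rfl h, Finset.sum_const, Finset.card_powersetCard, Finset.card_univ,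
      Fintype.card_fin, smul_eq_mul]
    decide
  · intro x
    rw [Finset.mem_sigma, Finset.mem_powersetCard, Finset.mem_powerset]
    constructor
    · rintro ⟨⟨-, h⟩, h'⟩
      exact ⟨h, h'⟩
    · rintro ⟨h, h'⟩
      exact ⟨⟨Finset.subset_univ _, h⟩, h'⟩

theorem enc_mem (y : Fin 24 → ℤ) (h32 : ∑ i, y i ^ 2 = 32) (h4 : ∀ i, y i % 4 = 0) :
    (enc y).1.card = 2 ∧ (enc y).2 ⊆ (enc y).1 := by
  refine ⟨supp_card y h32 h4, ?_⟩
  intro i hi
  simp only [enc, Finset.mem_filter, Finset.mem_univ, true_and] at hi ⊢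
  omega

theorem enc_inj (y y' : Fin 24 → ℤ) (h32 : ∑ i, y i ^ 2 = 32) (h4 : ∀ i, y i % 4 = 0)
    (h32' : ∑ i, y' i ^ 2 = 32) (h4' : ∀ i, y' i % 4 = 0) (he : enc y = enc y') : y = y' := by
  simp only [enc, Sigma.mk.injEq, heq_eq_eq] at he
  obtain ⟨he1, he2⟩ := he
  funext i
  have a1 : y i ≠ 0 ↔ y' i ≠ 0 := by
    have := congrArg (fun s => i ∈ s) he1
    simpa using this
  have a2 : y i = 4 ↔ y' i = 4 := by
    have := congrArg (fun s => i ∈ s) he2
    simpa using this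
  rcases val_cases y h32 h4 i with h | h | h <;>
    rcases val_cases y' h32' h4' i with h' | h' | h' <;> omega

theorem four_count :
    {y : Fin 24 → ℤ | ∑ i, y i ^ 2 = 32 ∧ ∀ i, y i % 4 = 0}.Finite ∧
      {y : Fin 24 → ℤ | ∑ i, y i ^ 2 = 32 ∧ ∀ i, y i % 4 = 0}.ncard ≤ 1104 := by
  obtain ⟨T, hT, hmem⟩ := exists_tgt
  have hmaps : Set.MapsTo enc {y : Fin 24 → ℤ | ∑ i, y i ^ 2 = 32 ∧ ∀ i, y i % 4 = 0}
      (↑T : Set ((_ : Finset (Fin 24)) × Finset (Fin 24))) :=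
    fun y hy => Finset.mem_coe.mpr ((hmem _).mpr (enc_mem y hy.1 hy.2))
  have hinj : Set.InjOn enc {y : Fin 24 → ℤ | ∑ i, y i ^ 2 = 32 ∧ ∀ i, y i % 4 = 0} :=
    fun y hy y' hy' he => enc_inj y y' hy.1 hy.2 hy'.1 hy'.2 he
  have hfin : Set.Finite {y : Fin 24 → ℤ | ∑ i, y i ^ 2 = 32 ∧ ∀ i, y i % 4 = 0} :=
    Set.Finite.of_injOn hmaps hinj (Finset.finite_toSet T)
  refine ⟨hfin, ?_⟩
  have h := Set.ncard_le_ncard_of_injOn enc hmaps hinj (Finset.finite_toSet T)
  rw [Set.ncard_coe_finset, hT] at h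
  exact h

end Cfsg.Agent.Lib.Helper12.LCB7
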