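import Cfsg.Agent.Lib.Helper10.LC0

/-!
# Counting the minimal vectors of shape `(±2)^8`

For a good coordinate lattice `M` whose code has minimum weight at least 8, the even minimal
vectors with a coordinate congruent to 2 modulo 4 number at most 128 for each word of weight 8.
-/

set_option autoImplicit false

namespace Cfsg.Agent.Lib.Helper12.LCB8

open Matrix Cfsg.Agent.Lib.Helper10.LC

/-- The word of a vector with even coordinates. -/
def cw (y : Fin 24 → ℤ) : Fin 24 → ZMod 2 := fun i => ((y i / 2 : ℤ) : ZMod 2)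

theorem cw_ne_zero_iff (y : Fin 24 → ℤ) (i : Fin 24) (he : y i % 2 = 0) :
    cw y i ≠ 0 ↔ y i % 4 = 2 := by
  unfold cw
  rw [Ne, ZMod.intCast_zmod_eq_zero_iff_dvd]
  push_cast
  constructor
  · intro h; omega
  · intro h; omega

theorem shape {M : AddSubgroup (Fin 24 → ℤ)}
    (hmin : ∀ c ∈ code M, c ≠ 0 → 8 ≤ hammingNorm c) (y : Fin 24 → ℤ) (hy : y ∈ M)
    (h32 : ∑ i, y i ^ 2 = 32) (he : ∀ i, y i % 2 = 0) (hex : ∃ i, y i % 4 = 2) :
    hammingNorm (cw y) = 8 ∧
      ∀ i, (cw y i ≠ 0 → (y i = 2 ∨ y i = -2)) ∧ (cw y i = 0 → y i = 0) := by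
  classical
  have hc : cw y ∈ code M := ⟨y, hy, he, fun i => rfl⟩
  have hne : cw y ≠ 0 := by
    obtain ⟨i, hi⟩ := hex
    intro h
    have h1 := (cw_ne_zero_iff y i (he i)).mpr hi
    apply h1
    rw [h]; rfl
  have h8 := hmin _ hc hne
  have hterm : ∀ i, (if cw y i ≠ 0 then (4 : ℤ) else 0) ≤ y i ^ 2 := by
    intro i
    split_ifs with h
    · have h2 := (cw_ne_zero_iff y i (he i)).mp h
      have h3 : y i ≤ -2 ∨ 2 ≤ y i := by omega
      rcases h3 with h3 | h3 <;> nlinarith
    · exact sq_nonneg _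
  have hsum : ∑ i, (if cw y i ≠ 0 then (4 : ℤ) else 0) = 4 * (hammingNorm (cw y) : ℤ) := by
    rw [Finset.sum_ite, Finset.sum_const_zero, add_zero, Finset.sum_const, nsmul_eq_mul, mul_comm]
    unfold hammingNorm
    congr!
  have hle : ∑ i, (if cw y i ≠ 0 then (4 : ℤ) else 0) ≤ ∑ i, y i ^ 2 :=
    Finset.sum_le_sum (fun i _ => hterm i)
  have hw : hammingNorm (cw y) = 8 := by
    rw [hsum, h32] at hle
    omega
  refine ⟨hw, ?_⟩
  have hzero : ∑ i, (y i ^ 2 - (if cw y i ≠ 0 then (4 : ℤ) else 0)) = 0 := by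
    rw [Finset.sum_sub_distrib, hsum, h32, hw]; norm_num
  have hz := (Finset.sum_eq_zero_iff_of_nonneg (fun i _ => sub_nonneg.mpr (hterm i))).mp hzero
  intro i
  have hi := hz i (Finset.mem_univ i)
  constructor
  · intro h
    rw [if_pos h] at hi
    have h5 : (y i - 2) * (y i + 2) = 0 := by linear_combination hi
    rcases mul_eq_zero.mp h5 with h6 | h6
    · left; omega
    · right; omega
  · intro h
    rw [if_neg (not_not.mpr h)] at hi
    have h5 : y i ^ 2 = 0 := by linarith
    exact (pow_eq_zero_iff two_ne_zero).mp h5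

/-- The set being counted. -/
def SS (M : AddSubgroup (Fin 24 → ℤ)) : Set (Fin 24 → ℤ) :=
  {y : Fin 24 → ℤ | y ∈ M ∧ ∑ i, y i ^ 2 = 32 ∧ (∀ i, y i % 2 = 0) ∧ ∃ i, y i % 4 = 2}

theorem key {M : AddSubgroup (Fin 24 → ℤ)} (hM : Good M)
    (hmin : ∀ c ∈ code M, c ≠ 0 → 8 ≤ hammingNorm c) (y y' : Fin 24 → ℤ)
    (hy : y ∈ SS M) (hy' : y' ∈ SS M) (hcc : cw y = cw y') (j0 : Fin 24) (hj0 : cw y j0 ≠ 0)
    (hN : (Finset.univ.filter (fun i => y i = -2)).erase j0 =
      (Finset.univ.filter (fun i => y' i = -2)).erase j0) : y = y' := by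
  have h1 := (shape hmin y hy.1 hy.2.1 hy.2.2.1 hy.2.2.2).2
  have h2 := (shape hmin y' hy'.1 hy'.2.1 hy'.2.2.1 hy'.2.2.2).2
  have hoff : ∀ i, i ≠ j0 → y i = y' i := by
    intro i hi
    have hmem : y i = -2 ↔ y' i = -2 := by
      have := congrArg (fun s => i ∈ s) hN
      simpa [hi] using this
    by_cases hci : cw y i = 0
    · rw [(h1 i).2 hci, (h2 i).2 (hcc ▸ hci)]
    · have a := (h1 i).1 hci
      have b := (h2 i).1 (hcc ▸ hci)
      omega
  have hj : y j0 = y' j0 := by
    by_contra hne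
    have a := (h1 j0).1 hj0
    have b := (h2 j0).1 (hcc ▸ hj0)
    have hd : y - y' ∈ M := M.sub_mem hy.1 hy'.1
    have hd0 : y - y' ≠ 0 := by
      intro h
      apply hne
      have := congrFun h j0
      simpa [sub_eq_zero] using this
    have hsum : ∑ i, (y - y') i ^ 2 = 16 := by
      rw [Finset.sum_eq_single j0]
      · simp only [Pi.sub_apply]
        have h4 : y j0 - y' j0 = 4 ∨ y j0 - y' j0 = -4 := by omega
        rcases h4 with h4 | h4 <;> rw [h4] <;> norm_num
      · intro i _ hi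
        simp only [Pi.sub_apply, hoff i hi, sub_self]
        norm_num
      · intro h; exact absurd (Finset.mem_univ j0) h
    have := hM.norm32 _ hd hd0
    omega
  funext i
  by_cases hi : i = j0
  · rw [hi]; exact hj
  · exact hoff i hi

theorem even_min_count_two {M : AddSubgroup (Fin 24 → ℤ)} (hM : Good M)
    (hmin : ∀ c ∈ code M, c ≠ 0 → 8 ≤ hammingNorm c) :
    {y : Fin 24 → ℤ | y ∈ M ∧ ∑ i, y i ^ 2 = 32 ∧ (∀ i, y i % 2 = 0) ∧ ∃ i, y i % 4 = 2}.ncard ≤
      128 * {c : Fin 24 → ZMod 2 | c ∈ code M ∧ hammingNorm c = 8}.ncard := by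
  classical
  show (SS M).ncard ≤ _
  have hshape : ∀ y ∈ SS M, hammingNorm (cw y) = 8 ∧
      ∀ i, (cw y i ≠ 0 → (y i = 2 ∨ y i = -2)) ∧ (cw y i = 0 → y i = 0) :=
    fun y hy => shape hmin y hy.1 hy.2.1 hy.2.2.1 hy.2.2.2
  have hcode : ∀ y ∈ SS M, cw y ∈ code M := fun y hy => ⟨y, hy.1, hy.2.2.1, fun i => rfl⟩
  have hj0ex : ∀ y ∈ SS M, ∃ j0, cw y j0 ≠ 0 := by
    intro y hy
    obtain ⟨i, hi⟩ := hy.2.2.2
    exact ⟨i, (cw_ne_zero_iff y i (hy.2.2.1 i)).mpr hi⟩
  have hfin : (SS M).Finite := by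
    have hinj : Set.InjOn
        (fun y : Fin 24 → ℤ => (cw y, Finset.univ.filter (fun i => y i = -2))) (SS M) := by
      intro y hy y' hy' h
      simp only [Prod.mk.injEq] at h
      obtain ⟨hcc, hN⟩ := h
      obtain ⟨j0, hj0⟩ := hj0ex y hy
      exact key hM hmin y y' hy hy' hcc j0 hj0 (by rw [hN])
    exact Set.Finite.of_injOn (Set.mapsTo_univ _ _) hinj Set.finite_univ
  rw [Set.ncard_eq_toFinset_card (SS M) hfin]
  have hfib : ∀ c ∈ hfin.toFinset.image cw,
      (hfin.toFinset.filter (fun y => cw y = c)).card ≤ 128 := by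
    intro c hc
    obtain ⟨y0, hy0, rfl⟩ := Finset.mem_image.mp hc
    have hy0S : y0 ∈ SS M := hfin.mem_toFinset.mp hy0
    obtain ⟨j0, hj0⟩ := hj0ex y0 hy0S
    have hw : (Finset.univ.filter (fun i => cw y0 i ≠ 0)).card = 8 := by
      have := (hshape y0 hy0S).1
      unfold hammingNorm at this
      convert this
    have hcard7 : ((Finset.univ.filter (fun i => cw y0 i ≠ 0)).erase j0).card = 7 := by
      rw [Finset.card_erase_of_mem (by simp [hj0]), hw]
    calc (hfin.toFinset.filter (fun y => cw y = cw y0)).card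
        ≤ (((Finset.univ.filter (fun i => cw y0 i ≠ 0)).erase j0).powerset).card := by
          apply Finset.card_le_card_of_injOn
            (fun y : Fin 24 → ℤ => (Finset.univ.filter (fun i => y i = -2)).erase j0)
          · intro y hy
            rw [Finset.mem_coe, Finset.mem_filter, Set.Finite.mem_toFinset] at hy
            obtain ⟨hyS, hcy⟩ := hy
            rw [Finset.mem_coe, Finset.mem_powerset]
            intro i hi
            rw [Finset.mem_erase] at hi ⊢
            refine ⟨hi.1, ?_⟩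
            simp only [Finset.mem_filter, Finset.mem_univ, true_and] at hi ⊢
            intro h0
            rw [← hcy] at h0
            have := ((hshape y hyS).2 i).2 h0
            omega
          · intro y hy y' hy' h
            rw [Finset.mem_coe, Finset.mem_filter, Set.Finite.mem_toFinset] at hy hy'
            exact key hM hmin y y' hy.1 hy'.1 (hy.2.trans hy'.2.symm) j0
              (by rw [hy.2]; exact hj0) h
      _ = 128 := by rw [Finset.card_powerset, hcard7]; norm_num
  have h1 := Finset.card_le_mul_card_image (f := cw) hfin.toFinset 128 hfib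
  have h2 : (hfin.toFinset.image cw).card ≤
      {c : Fin 24 → ZMod 2 | c ∈ code M ∧ hammingNorm c = 8}.ncard := by
    rw [← Set.ncard_coe_finset]
    apply Set.ncard_le_ncard _ (Set.toFinite _)
    intro c hc
    obtain ⟨y, hy, rfl⟩ := Finset.mem_image.mp (Finset.mem_coe.mp hc)
    have hyS := hfin.mem_toFinset.mp hy
    exact ⟨hcode y hyS, (hshape y hyS).1⟩
  calc hfin.toFinset.card ≤ 128 * (hfin.toFinset.image cw).card := h1
    _ ≤ _ := Nat.mul_le_mul_left _ h2

end Cfsg.Agent.Lib.Helper12.LCB8
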