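import Mathlib
import Cfsg.Agent.Lib.Helper61.BlkDefs

/-!
# S5634 (blocks of dimension at least 2), piece BLK-A (helper12 for helper61)

`stepA`: spread the centre of a transvection of `X` over a whole block.
-/

set_option autoImplicit false
set_option linter.unusedSectionVars false

namespace Cfsg.Agent.Lib.Helper61.Blk

open Matrix Cfsg.Agent.Lib.Helper97

section
variable {ι : Type} [Fintype ι] [DecidableEq ι] {F : Type*} [Field F] {t : ℕ}

/-- A -/
theorem stepA (β : ι → Fin t) (hf : Fib2 β) {X : Subgroup (GL ι F)} (hBT : BT β X)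
    {c φ : ι → F} (h : TM X c φ) (l : Fin t) (hφ : ¬ Hit β l φ) (hc : Hit β l c) :
    ∀ u : ι → F, InB β l u → TM X u φ := by
  have hφ0 : ∀ j, β j = l → φ j = 0 := by
    intro j hj
    by_contra hne
    exact hφ ⟨j, hj, hne⟩
  have hφu : ∀ u : ι → F, InB β l u → φ ⬝ᵥ u = 0 := by
    intro u hu
    show ∑ j, φ j * u j = 0
    apply Finset.sum_eq_zero
    intro j _
    by_cases hj : β j = l
    · rw [hφ0 j hj, zero_mul]
    · rw [hu j hj, mul_zero]
  have star : ∀ u ψ : ι → F, InB β l u → InB β l ψ → ψ ⬝ᵥ u = 0 →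
      TM X ((ψ ⬝ᵥ c) • u) φ := by
    intro u ψ hu hψ h0
    have h1 := TM_conj_tv h (hBT l u ψ hu hψ h0)
    rw [hφu u hu, zero_smul, sub_zero] at h1
    have h2 := TM_sub_left h1 h
    rwa [add_sub_cancel_left] at h2
  have hsingle : ∀ j, β j = l → ∀ a : F, InB β l (Pi.single j a : ι → F) := by
    intro j hj a j' hj'
    have hne : j' ≠ j := fun h' => hj' (h' ▸ hj)
    rw [Pi.single_apply, if_neg hne]
  obtain ⟨j1, hj1, hcj1⟩ := hc
  have hoth : ∀ j2, j2 ≠ j1 → β j2 = l → ∀ a : F, TM X (Pi.single j2 a) φ := by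
    intro j2 hne hj2 a
    have h0 : (Pi.single j1 (c j1)⁻¹ : ι → F) ⬝ᵥ Pi.single j2 a = 0 := by
      rw [single_dotProduct, Pi.single_eq_of_ne hne.symm, mul_zero]
    have h1 := star (Pi.single j2 a) (Pi.single j1 (c j1)⁻¹) (hsingle j2 hj2 a)
      (hsingle j1 hj1 _) h0
    rw [single_dotProduct, inv_mul_cancel₀ hcj1, one_smul] at h1
    exact h1
  have hj1all : ∀ a : F, TM X (Pi.single j1 a) φ := by
    intro a
    obtain ⟨j2, hne, hj2'⟩ := hf.other j1
    have hj2 : β j2 = l := hj2'.trans hj1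
    by_cases hc2 : c j2 = 0
    · have h0 : (Pi.single j1 (c j1)⁻¹ - Pi.single j2 (c j1)⁻¹ : ι → F) ⬝ᵥ
          (Pi.single j1 a + Pi.single j2 a) = 0 := by
        rw [sub_dotProduct, single_dotProduct, single_dotProduct]
        simp [hne, hne.symm]
      have hu : InB β l (Pi.single j1 a + Pi.single j2 a : ι → F) := by
        intro j hj
        rw [Pi.add_apply, hsingle j1 hj1 a j hj, hsingle j2 hj2 a j hj, add_zero]
      have hψ : InB β l (Pi.single j1 (c j1)⁻¹ - Pi.single j2 (c j1)⁻¹ : ι → F) := by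
        intro j hj
        rw [Pi.sub_apply, hsingle j1 hj1 _ j hj, hsingle j2 hj2 _ j hj, sub_zero]
      have h1 := star _ _ hu hψ h0
      have h2 : (Pi.single j1 (c j1)⁻¹ - Pi.single j2 (c j1)⁻¹ : ι → F) ⬝ᵥ c = 1 := by
        rw [sub_dotProduct, single_dotProduct, single_dotProduct, hc2, mul_zero, sub_zero,
          inv_mul_cancel₀ hcj1]
      rw [h2, one_smul] at h1
      have h3 := TM_sub_left h1 (hoth j2 hne hj2 a)
      rwa [add_sub_cancel_right] at h3
    · have h0 : (Pi.single j2 (c j2)⁻¹ : ι → F) ⬝ᵥ Pi.single j1 a = 0 := by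
        rw [single_dotProduct, Pi.single_eq_of_ne hne, mul_zero]
      have h1 := star (Pi.single j1 a) (Pi.single j2 (c j2)⁻¹) (hsingle j1 hj1 a)
        (hsingle j2 hj2 _) h0
      rw [single_dotProduct, inv_mul_cancel₀ hc2, one_smul] at h1
      exact h1
  intro u hu
  have hall : ∀ j, TM X (Pi.single j (u j)) φ := by
    intro j
    by_cases hj : β j = l
    · by_cases hjj : j = j1
      · rw [hjj]
        exact hj1all _
      · exact hoth j hjj hj _
    · rw [hu j hj, Pi.single_zero]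
      exact TM_zero_left X φ
  rw [← Finset.univ_sum_single u]
  exact TM_sum_left Finset.univ (fun j _ => hall j)

end

end Cfsg.Agent.Lib.Helper61.Blk
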