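import Mathlib
import Cfsg.Agent.Lib.Helper1.Hall
import Cfsg.Agent.Lib.Helper12.Supersolvable2

/-!
# Converse of Lagrange: abelian groups, and products of a solvable group with an abelian group
-/

set_option autoImplicit false

namespace Cfsg.Agent.Lib.Helper12

open Subgroup

universe u

/-- A finite abelian group is supersolvable. -/
theorem isSupersolvable_of_commGroup_aux : ∀ (n : ℕ) (A : Type u) [CommGroup A] [Finite A],
    Nat.card A = n → IsSupersolvable A := by
  intro n
  induction n using Nat.strong_induction_on with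
  | _ n ih =>
    intro A _ _ hcard
    by_cases hnt : Nontrivial A
    · obtain ⟨g, hg⟩ := exists_ne (1 : A)
      have hlt : Nat.card (A ⧸ zpowers g) < n := by
        rw [← hcard, Subgroup.card_eq_card_quotient_mul_card_subgroup (zpowers g)]
        have h1 : 1 < Nat.card (zpowers g) :=
          (Subgroup.one_lt_card_iff_ne_bot _).mpr (zpowers_ne_bot.mpr hg)
        have h0 : 0 < Nat.card (A ⧸ zpowers g) := Nat.card_pos
        nlinarith
      exact isSupersolvable_of_isCyclic_of_quotient (zpowers g) (ih _ hlt (A ⧸ zpowers g) rfl)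
    · rw [not_nontrivial_iff_subsingleton] at hnt
      exact isSupersolvable_of_subsingleton

theorem isSupersolvable_of_commGroup (A : Type u) [CommGroup A] [Finite A] : IsSupersolvable A :=
  isSupersolvable_of_commGroup_aux _ A rfl

/-- A finite abelian group has a subgroup of every order dividing its order. -/
theorem hasSubgroupOfEveryOrder_of_commGroup (A : Type u) [CommGroup A] [Finite A] :
    HasSubgroupOfEveryOrder A :=
  hasSubgroupOfEveryOrder_aux _ A rfl (isSupersolvable_of_commGroup A)

/-- The arithmetic behind `hasSubgroupOfEveryOrder_prod_of_solvable`. -/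
theorem exists_hall_factor {n m d : ℕ} (hn : n ≠ 0) (hm : m ≠ 0) (hd : d ∣ n * m)
    (hA : ∀ p : ℕ, p.Prime → p ∣ m → p ∣ n)
    (hexp : ∀ p : ℕ, p.Prime → p ∣ n → m.factorization p + 1 = n.factorization p) :
    ∃ h : ℕ, h ∣ n ∧ Nat.Coprime h (n / h) ∧ h ∣ d ∧ d / h ∣ m := by
  classical
  have hd0 : d ≠ 0 := by
    rintro rfl
    exact mul_ne_zero hn hm (zero_dvd_iff.mp hd)
  obtain ⟨f, hfdef⟩ : ∃ f : ℕ →₀ ℕ,
      f = n.factorization.filter (fun p => n.factorization p ≤ d.factorization p) := ⟨_, rfl⟩
  have fval : ∀ p, f p = if n.factorization p ≤ d.factorization p then n.factorization p else 0 := by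
    intro p
    rw [hfdef, Finsupp.filter_apply]
  have hsupp : ∀ p ∈ f.support, p.Prime := by
    intro p hp
    rw [Finsupp.mem_support_iff] at hp
    by_contra hnp
    apply hp
    rw [fval p, Nat.factorization_eq_zero_of_not_prime n hnp]
    simp
  have hfac : (f.prod (· ^ ·)).factorization = f := Nat.prod_pow_factorization_eq_self hsupp
  have hh0 : f.prod (· ^ ·) ≠ 0 := by
    rw [Finsupp.prod, Finset.prod_ne_zero_iff]
    intro p hp
    exact pow_ne_zero _ (hsupp p hp).ne_zero
  have h1 : f.prod (· ^ ·) ∣ n := by
    rw [← Nat.factorization_le_iff_dvd hh0 hn, hfac]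
    intro p
    rw [fval p]
    split_ifs <;> simp
  have h3 : f.prod (· ^ ·) ∣ d := by
    rw [← Nat.factorization_le_iff_dvd hh0 hd0, hfac]
    intro p
    rw [fval p]
    split_ifs with hle
    · exact hle
    · exact Nat.zero_le _
  have hnh0 : n / f.prod (· ^ ·) ≠ 0 := by
    intro h0
    have := Nat.div_mul_cancel h1
    rw [h0, zero_mul] at this
    exact hn this.symm
  have hdh0 : d / f.prod (· ^ ·) ≠ 0 := by
    intro h0
    have := Nat.div_mul_cancel h3
    rw [h0, zero_mul] at this
    exact hd0 this.symm
  refine ⟨f.prod (· ^ ·), h1, ?_, h3, ?_⟩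
  · apply Nat.coprime_of_dvd
    intro p hp hph hpn
    have e1 : 0 < (f.prod (· ^ ·)).factorization p := hp.factorization_pos_of_dvd hh0 hph
    have e2 : 0 < (n / f.prod (· ^ ·)).factorization p := hp.factorization_pos_of_dvd hnh0 hpn
    rw [Nat.factorization_div h1, hfac] at e2
    rw [hfac] at e1
    have e3 := fval p
    rw [Finsupp.coe_tsub, Pi.sub_apply] at e2
    split_ifs at e3 with hle <;> omega
  · rw [← Nat.factorization_le_iff_dvd hdh0 hm, Nat.factorization_div h3, hfac]
    intro p
    rw [Finsupp.coe_tsub, Pi.sub_apply]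
    by_cases hp : p.Prime
    · have e0 : d.factorization p ≤ n.factorization p + m.factorization p := by
        have := (Nat.factorization_le_iff_dvd hd0 (mul_ne_zero hn hm)).mpr hd p
        rwa [Nat.factorization_mul hn hm, Finsupp.coe_add, Pi.add_apply] at this
      have e3 := fval p
      by_cases hpn : p ∣ n
      · have e4 := hexp p hp hpn
        split_ifs at e3 with hle <;> omega
      · have e5 : n.factorization p = 0 := Nat.factorization_eq_zero_of_not_dvd hpn
        have e6 : m.factorization p = 0 :=
          Nat.factorization_eq_zero_of_not_dvd (fun h => hpn (hA p hp h))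
        omega
    · rw [Nat.factorization_eq_zero_of_not_prime d hp]
      omega

/-- Let `G` be a finite solvable group and `A` a finite abelian group such that every prime
dividing `|A|` divides `|G|` and the `p`-part of `|A|` is one less than that of `|G|`. Then
`G × A` has a subgroup of every order dividing its order. -/
theorem hasSubgroupOfEveryOrder_prod_of_solvable {G : Type*} {A : Type u} [Group G] [CommGroup A]
    [Finite G] [Finite A] [Group.IsSolvable G]
    (hA : ∀ p : ℕ, p.Prime → p ∣ Nat.card A → p ∣ Nat.card G)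
    (hexp : ∀ p : ℕ, p.Prime → p ∣ Nat.card G →
      (Nat.card A).factorization p + 1 = (Nat.card G).factorization p) :
    HasSubgroupOfEveryOrder (G × A) := by
  intro d hd
  rw [Nat.card_prod] at hd
  obtain ⟨h, h1, h2, h3, h4⟩ :=
    exists_hall_factor Nat.card_pos.ne' Nat.card_pos.ne' hd hA hexp
  obtain ⟨H, hH⟩ := Cfsg.Agent.Lib.Helper1.hall_exists h (Nat.card G / h)
    (Nat.mul_div_cancel' h1).symm h2
  obtain ⟨B, hB⟩ := hasSubgroupOfEveryOrder_of_commGroup A (d / h) h4
  refine ⟨H.prod B, ?_⟩
  rw [Nat.card_congr (prodEquiv H B).toEquiv, Nat.card_prod, hH, hB]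
  exact Nat.mul_div_cancel' h3

end Cfsg.Agent.Lib.Helper12
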