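import Cfsg.Agent.Lib.Helper27.ChevDyn
import Cfsg.Prelude.Def_ChevAutomorphisms

/-!
# The symmetries of the Dynkin diagrams (piece `PN`)

A verified backtracking search classifies the permutations of the nodes that preserve the
numbers of bonds, for each of the seven data.
-/

set_option autoImplicit false

namespace Cfsg.Agent.Lib.Helper12.ChevDynP

open Cfsg.Lie Cfsg.Agent.Lib.Helper27.ChevDyn

/-- consistency of a new assignment `i ↦ v` with the previous ones -/
def consB {n : ℕ} (bond : Fin n → Fin n → ℕ) (asg : List (Fin n × Fin n)) (i v : Fin n) : Bool :=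
  asg.all (fun p => decide (p.2 ≠ v) && decide (bond v p.2 = bond i p.1))

/-- backtracking search: every consistent completion of the assignment satisfies `P` -/
def srch {n : ℕ} (bond : Fin n → Fin n → ℕ) (P : List (Fin n × Fin n) → Bool) :
    List (Fin n) → List (Fin n × Fin n) → Bool
  | [], asg => P asg
  | i :: rest, asg =>
    (List.finRange n).all (fun v => !(consB bond asg i v) || srch bond P rest ((i, v) :: asg))

theorem srch_sound {n : ℕ} (bond : Fin n → Fin n → ℕ) (P : List (Fin n × Fin n) → Bool)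
    (π : Fin n → Fin n) (hinj : Function.Injective π)
    (hπ : ∀ i j : Fin n, i ≠ j → bond (π i) (π j) = bond i j) :
    ∀ (rest : List (Fin n)) (asg : List (Fin n × Fin n)),
      srch bond P rest asg = true → (∀ p ∈ asg, p.2 = π p.1) →
      (∀ i ∈ rest, ∀ p ∈ asg, p.1 ≠ i) → rest.Nodup →
      ∃ asg' : List (Fin n × Fin n), P asg' = true ∧ (∀ p ∈ asg', p.2 = π p.1) ∧
        (∀ i ∈ rest, ∃ p ∈ asg', p.1 = i) ∧ (∀ p ∈ asg, p ∈ asg') := by
  intro rest
  induction rest with
  | nil =>
    intro asg hs hag _ _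
    exact ⟨asg, hs, hag, fun i hi => absurd hi List.not_mem_nil, fun p hp => hp⟩
  | cons i rest ih =>
    intro asg hs hag hfresh hnd
    have hs' : srch bond P (i :: rest) asg =
        (List.finRange n).all
          (fun v => !(consB bond asg i v) || srch bond P rest ((i, v) :: asg)) := rfl
    rw [hs', List.all_eq_true] at hs
    have h1 := hs (π i) (List.mem_finRange _)
    have hc : consB bond asg i (π i) = true := by
      unfold consB
      rw [List.all_eq_true]
      intro p hp
      have hp1 : p.1 ≠ i := hfresh i List.mem_cons_self p hp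
      have hp2 : p.2 = π p.1 := hag p hp
      rw [Bool.and_eq_true, decide_eq_true_eq, decide_eq_true_eq]
      refine ⟨?_, ?_⟩
      · rw [hp2]
        exact fun h => hp1 (hinj h)
      · rw [hp2]
        exact hπ i p.1 (Ne.symm hp1)
    rw [hc] at h1
    have h2 : srch bond P rest ((i, π i) :: asg) = true := by simpa using h1
    obtain ⟨asg', hP, hag', hcov, hsub⟩ := ih ((i, π i) :: asg) h2
      (by
        intro p hp
        rcases List.mem_cons.mp hp with rfl | hp
        · rfl
        · exact hag p hp)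
      (by
        intro j hj p hp
        rcases List.mem_cons.mp hp with rfl | hp
        · intro h
          have : i = j := h
          rw [this] at hnd
          exact (List.nodup_cons.mp hnd).1 hj
        · exact hfresh j (List.mem_cons_of_mem _ hj) p hp)
      (List.nodup_cons.mp hnd).2
    refine ⟨asg', hP, hag', ?_, fun p hp => hsub p (List.mem_cons_of_mem _ hp)⟩
    intro j hj
    rcases List.mem_cons.mp hj with rfl | hj
    · exact ⟨(j, π j), hsub _ List.mem_cons_self, rfl⟩
    · exact hcov j hj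

/-- the final test: the assignment agrees with one of the listed value tables -/
def PL {n : ℕ} (τs : List (List ℕ)) (asg : List (Fin n × Fin n)) : Bool :=
  τs.any (fun τl => asg.all (fun p => decide (p.2.val = τl.getD p.1.val 0)))

/-- the check for one datum -/
def symChk (D : ChevalleyDatum) (τs : List (List ℕ)) (ord : List (Fin D.rank)) : Prop :=
  ord.Nodup ∧ (∀ i, i ∈ ord) ∧ srch (bondD D) (PL τs) ord [] = true

instance (D : ChevalleyDatum) (τs : List (List ℕ)) (ord : List (Fin D.rank)) :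
    Decidable (symChk D τs ord) := by
  unfold symChk
  infer_instance

theorem sym_of_chk (D : ChevalleyDatum) (τs : List (List ℕ)) (ord : List (Fin D.rank))
    (h : symChk D τs ord) (π : Equiv.Perm (Fin D.rank))
    (hπ : ∀ i j : Fin D.rank, i ≠ j → bondD D (π i) (π j) = bondD D i j) :
    ∃ τl ∈ τs, ∀ i, (π i).val = τl.getD i.val 0 := by
  obtain ⟨hnd, hall, hs⟩ := h
  obtain ⟨asg', hP, hag, hcov, -⟩ := srch_sound (bondD D) (PL τs) π π.injective hπ ord [] hs
    (fun p hp => absurd hp List.not_mem_nil) (fun i _ p hp => absurd hp List.not_mem_nil) hnd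
  unfold PL at hP
  rw [List.any_eq_true] at hP
  obtain ⟨τl, hτ, hτ2⟩ := hP
  rw [List.all_eq_true] at hτ2
  refine ⟨τl, hτ, fun i => ?_⟩
  obtain ⟨p, hp, rfl⟩ := hcov i (hall i)
  have h3 := hτ2 p hp
  rw [decide_eq_true_eq] at h3
  rw [← hag p hp]
  exact h3

theorem eq_one_of_vals {n : ℕ} (π : Equiv.Perm (Fin n)) (τl : List ℕ)
    (h : ∀ i, (π i).val = τl.getD i.val 0) (hid : ∀ i : Fin n, τl.getD i.val 0 = i.val) :
    π = 1 :=
  Equiv.ext fun i => Fin.ext ((h i).trans (hid i))

theorem eq_of_vals {n : ℕ} (π π' : Equiv.Perm (Fin n)) (τl : List ℕ)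
    (h : ∀ i, (π i).val = τl.getD i.val 0) (h' : ∀ i, (π' i).val = τl.getD i.val 0) :
    π = π' :=
  Equiv.ext fun i => Fin.ext ((h i).trans (h' i).symm)

/-- at most one nontrivial symmetry, from a two-element table list -/
theorem two_of_vals {n : ℕ} (idl σl : List ℕ) (hid : ∀ i : Fin n, idl.getD i.val 0 = i.val)
    (π π' : Equiv.Perm (Fin n))
    (h : ∃ τl ∈ [idl, σl], ∀ i, (π i).val = τl.getD i.val 0)
    (h' : ∃ τl ∈ [idl, σl], ∀ i, (π' i).val = τl.getD i.val 0) :
    π = 1 ∨ π' = 1 ∨ π = π' := by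
  obtain ⟨τl, hτ, hv⟩ := h
  obtain ⟨τl', hτ', hv'⟩ := h'
  simp only [List.mem_cons, List.not_mem_nil, or_false] at hτ hτ'
  rcases hτ with rfl | rfl
  · exact Or.inl (eq_one_of_vals π _ hv hid)
  · rcases hτ' with rfl | rfl
    · exact Or.inr (Or.inl (eq_one_of_vals π' _ hv' hid))
    · exact Or.inr (Or.inr (eq_of_vals π π' _ hv hv'))

theorem chk_G2 : symChk chevG2 [[0, 1], [1, 0]] [⟨0, by decide⟩, ⟨1, by decide⟩] := by
  decide +kernel

theorem chk_B2 : symChk chevB2 [[0, 1], [1, 0]] [⟨0, by decide⟩, ⟨1, by decide⟩] := by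
  decide +kernel

theorem chk_D4 : symChk chevD4
    [[0, 1, 2, 3], [0, 1, 3, 2], [2, 1, 0, 3], [2, 1, 3, 0], [3, 1, 0, 2], [3, 1, 2, 0]]
    [⟨1, by decide⟩, ⟨0, by decide⟩, ⟨2, by decide⟩, ⟨3, by decide⟩] := by
  decide +kernel

theorem chk_F4 : symChk chevF4 [[0, 1, 2, 3], [3, 2, 1, 0]]
    [⟨1, by decide⟩, ⟨2, by decide⟩, ⟨0, by decide⟩, ⟨3, by decide⟩] := by
  decide +kernel

theorem chk_E6 : symChk chevE6 [[0, 1, 2, 3, 4, 5], [5, 1, 4, 3, 2, 0]]
    [⟨3, by decide⟩, ⟨1, by decide⟩, ⟨2, by decide⟩, ⟨4, by decide⟩, ⟨0, by decide⟩,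
      ⟨5, by decide⟩] := by
  decide +kernel

theorem chk_E7 : symChk chevE7 [[0, 1, 2, 3, 4, 5, 6]]
    [⟨3, by decide⟩, ⟨1, by decide⟩, ⟨2, by decide⟩, ⟨4, by decide⟩, ⟨0, by decide⟩,
      ⟨5, by decide⟩, ⟨6, by decide⟩] := by
  decide +kernel

theorem chk_E8 : symChk chevE8 [[0, 1, 2, 3, 4, 5, 6, 7]]
    [⟨3, by decide⟩, ⟨1, by decide⟩, ⟨2, by decide⟩, ⟨4, by decide⟩, ⟨0, by decide⟩,
      ⟨5, by decide⟩, ⟨6, by decide⟩, ⟨7, by decide⟩] := by
  decide +kernel

/-- PN: the symmetries of the diagrams -/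
theorem pieceN (D : ChevalleyDatum) (hD : D ∈ lst) (π : Equiv.Perm (Fin D.rank))
    (hπ : ∀ i j : Fin D.rank, i ≠ j → bondD D (π i) (π j) = bondD D i j) :
    (D = chevE7 ∨ D = chevE8 → π = 1) ∧
    (D ≠ chevD4 → ∀ π' : Equiv.Perm (Fin D.rank),
      (∀ i j : Fin D.rank, i ≠ j → bondD D (π' i) (π' j) = bondD D i j) →
      π = 1 ∨ π' = 1 ∨ π = π') ∧
    (D = chevD4 → ∀ h1 : 1 < D.rank, π ⟨1, h1⟩ = ⟨1, h1⟩) := by
  simp only [lst, List.mem_cons, List.not_mem_nil, or_false] at hD
  rcases hD with rfl | rfl | rfl | rfl | rfl | rfl | rfl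
  · -- G2
    refine ⟨?_, ?_, ?_⟩
    · rintro (h | h) <;> exact absurd (congrArg ChevalleyDatum.nroots h) (by decide)
    · intro _ π' hπ'
      exact two_of_vals _ _ (by decide) π π' (sym_of_chk _ _ _ chk_G2 π hπ)
        (sym_of_chk _ _ _ chk_G2 π' hπ')
    · intro h
      exact absurd (congrArg ChevalleyDatum.nroots h) (by decide)
  · -- B2
    refine ⟨?_, ?_, ?_⟩
    · rintro (h | h) <;> exact absurd (congrArg ChevalleyDatum.nroots h) (by decide)
    · intro _ π' hπ'
      exact two_of_vals _ _ (by decide) π π' (sym_of_chk _ _ _ chk_B2 π hπ)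
        (sym_of_chk _ _ _ chk_B2 π' hπ')
    · intro h
      exact absurd (congrArg ChevalleyDatum.nroots h) (by decide)
  · -- D4
    refine ⟨?_, ?_, ?_⟩
    · rintro (h | h) <;> exact absurd (congrArg ChevalleyDatum.nroots h) (by decide)
    · intro h
      exact absurd rfl h
    · intro _ h1
      obtain ⟨τl, hτ, hv⟩ := sym_of_chk _ _ _ chk_D4 π hπ
      apply Fin.ext
      rw [hv ⟨1, h1⟩]
      simp only [List.mem_cons, List.not_mem_nil, or_false] at hτ
      rcases hτ with rfl | rfl | rfl | rfl | rfl | rfl <;> rfl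
  · -- F4
    refine ⟨?_, ?_, ?_⟩
    · rintro (h | h) <;> exact absurd (congrArg ChevalleyDatum.nroots h) (by decide)
    · intro _ π' hπ'
      exact two_of_vals _ _ (by decide) π π' (sym_of_chk _ _ _ chk_F4 π hπ)
        (sym_of_chk _ _ _ chk_F4 π' hπ')
    · intro h
      exact absurd (congrArg ChevalleyDatum.nroots h) (by decide)
  · -- E6
    refine ⟨?_, ?_, ?_⟩
    · rintro (h | h) <;> exact absurd (congrArg ChevalleyDatum.nroots h) (by decide)
    · intro _ π' hπ'
      exact two_of_vals _ _ (by decide) π π' (sym_of_chk _ _ _ chk_E6 π hπ)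
        (sym_of_chk _ _ _ chk_E6 π' hπ')
    · intro h
      exact absurd (congrArg ChevalleyDatum.nroots h) (by decide)
  · -- E7
    have key : ∀ π : Equiv.Perm (Fin chevE7.rank),
        (∀ i j : Fin chevE7.rank, i ≠ j → bondD chevE7 (π i) (π j) = bondD chevE7 i j) →
        π = 1 := by
      intro π hπ
      obtain ⟨τl, hτ, hv⟩ := sym_of_chk _ _ _ chk_E7 π hπ
      simp only [List.mem_cons, List.not_mem_nil, or_false] at hτ
      subst hτ
      exact eq_one_of_vals π _ hv (by decide)
    refine ⟨fun _ => key π hπ, fun _ π' _ => Or.inl (key π hπ), ?_⟩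
    intro h
    exact absurd (congrArg ChevalleyDatum.nroots h) (by decide)
  · -- E8
    have key : ∀ π : Equiv.Perm (Fin chevE8.rank),
        (∀ i j : Fin chevE8.rank, i ≠ j → bondD chevE8 (π i) (π j) = bondD chevE8 i j) →
        π = 1 := by
      intro π hπ
      obtain ⟨τl, hτ, hv⟩ := sym_of_chk _ _ _ chk_E8 π hπ
      simp only [List.mem_cons, List.not_mem_nil, or_false] at hτ
      subst hτ
      exact eq_one_of_vals π _ hv (by decide)
    refine ⟨fun _ => key π hπ, fun _ π' _ => Or.inl (key π hπ), ?_⟩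
    intro h
    exact absurd (congrArg ChevalleyDatum.nroots h) (by decide)

end Cfsg.Agent.Lib.Helper12.ChevDynP
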