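import Mathlib
import Cfsg.Agent.Lib.Helper97.FCDefs
import Cfsg.Agent.Lib.Helper87.Fusion14

/-! S5115 piece FC-NORMAL (helper12 for helper97): the core statement, as a statement about
the group `↥H`. -/

set_option autoImplicit false

namespace Cfsg.Agent.Lib.Helper12.FC

open Cfsg.Agent.Lib.Helper97.FC

universe u

theorem fc_normal (h : CoreStmt.{u}) : NormalStmt.{u} := by
  intro G _ _ p _ S Q H hS hQ hH
  obtain ⟨U, hUle, hExt, hcen⟩ := h G p S Q H hS hQ hH
  constructor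
  · obtain ⟨R, rfl⟩ := hS
    obtain ⟨R₁, hR₁⟩ := Cfsg.Agent.Lib.Helper87.exists_sylow_inf_normal R H
    refine ⟨R₁, ?_⟩
    rw [hR₁]
    ext x
    rw [Subgroup.mem_subgroupOf, Subgroup.mem_subgroupOf, Subgroup.mem_inf]
    exact ⟨fun hx => hx.1, fun hx => ⟨hx, x.2⟩⟩
  · refine ⟨U.subgroupOf H, ?_, ?_, ?_⟩
    · intro x hx
      rw [Subgroup.mem_subgroupOf] at hx ⊢
      exact (hUle hx).1
    · intro P' hP' g hg
      have hP : P'.map H.subtype ≤ S ⊓ H := by
        rintro _ ⟨x, hx, rfl⟩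
        exact ⟨Subgroup.mem_subgroupOf.mp (hP' hx), x.2⟩
      obtain ⟨h', hh'H, hh'N, hh'eq⟩ := hExt (P'.map H.subtype) hP g.1 g.2 (by
        rintro _ ⟨x, hx, rfl⟩
        have h1 := hg x hx
        exact ⟨Subgroup.mem_subgroupOf.mp h1, (g * x * g⁻¹).2⟩)
      refine ⟨⟨h', hh'H⟩, ?_, ?_⟩
      · rw [Subgroup.mem_normalizer_iff]
        intro y
        rw [Subgroup.mem_subgroupOf, Subgroup.mem_subgroupOf]
        exact (Subgroup.mem_normalizer_iff.mp hh'N) y.1
      · intro x hx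
        apply Subtype.ext
        exact hh'eq x.1 ⟨x, hx, rfl⟩
    · intro z hz hzc
      rw [Subgroup.mem_subgroupOf] at hz ⊢
      apply hcen z.1 ⟨hz, z.2⟩
      intro x hx
      have hxH : x ∈ H := (hUle hx).2
      have h1 := hzc ⟨x, hxH⟩ (Subgroup.mem_subgroupOf.mpr hx)
      exact congrArg Subtype.val h1

end Cfsg.Agent.Lib.Helper12.FC
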