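import Mathlib
import Cfsg.Agent.Lib.Helper15.FH0
import Cfsg.Agent.Lib.Helper34.FHMb
import Cfsg.Agent.Lib.Helper92.FHMa

/-!
# Feit–Higman: the multiplicity theorem (piece Mc)
-/

set_option autoImplicit false

namespace Cfsg.Agent.Lib.Helper12.FHMc

open Cfsg Cfsg.Agent.Lib.Helper8 Cfsg.Agent.Lib.Helper15.FH Cfsg.Agent.Lib.Helper92.FH


section

variable {W : Type*} [Group W] [Fintype W] {S : Set W}

/-- The averaging map `M ↦ ∑ w, (ind w)⁻¹ tr(M ρ(w⁻¹)) • X w`. -/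
noncomputable def iota {Ω' : Type*} [Fintype Ω'] [DecidableEq Ω'] (ind : W → ℝ)
    (X : W → Matrix Ω' Ω' ℝ) (ρ : W → Matrix (Fin 2) (Fin 2) ℝ)
    (M : Matrix (Fin 2) (Fin 2) ℝ) : Matrix Ω' Ω' ℝ :=
  ∑ w, ((ind w)⁻¹ * (M * ρ w⁻¹).trace) • X w

theorem iota_smul {Ω' : Type*} [Fintype Ω'] [DecidableEq Ω'] (ind : W → ℝ)
    (X : W → Matrix Ω' Ω' ℝ) (ρ : W → Matrix (Fin 2) (Fin 2) ℝ) (a : ℝ)
    (M : Matrix (Fin 2) (Fin 2) ℝ) : iota ind X ρ (a • M) = a • iota ind X ρ M := by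
  unfold iota
  rw [Finset.smul_sum]
  refine Finset.sum_congr rfl fun w _ => ?_
  rw [Matrix.smul_mul, Matrix.trace_smul, smul_smul, smul_eq_mul]
  congr 1
  ring

theorem iota_sum {Ω' : Type*} [Fintype Ω'] [DecidableEq Ω'] (ind : W → ℝ)
    (X : W → Matrix Ω' Ω' ℝ) (ρ : W → Matrix (Fin 2) (Fin 2) ℝ) {κ : Type*} (s : Finset κ)
    (f : κ → Matrix (Fin 2) (Fin 2) ℝ) :
    iota ind X ρ (∑ i ∈ s, f i) = ∑ i ∈ s, iota ind X ρ (f i) := by
  unfold iota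
  rw [Finset.sum_comm]
  refine Finset.sum_congr rfl fun w _ => ?_
  rw [Finset.sum_mul, Matrix.trace_sum, Finset.mul_sum, Finset.sum_smul]

omit [Fintype W] in
theorem rho_inv_step (hE : ExchGen S) (ρ : W → Matrix (Fin 2) (Fin 2) ℝ)
    (ρ_mul' : ∀ x ∈ S, ∀ w, len S w < len S (w * x) → ρ (w * x) = ρ w * ρ x)
    {x : W} (hx : x ∈ S) (w : W) (h : len S w < len S (x * w)) :
    ρ (x * w)⁻¹ = ρ w⁻¹ * ρ x := by
  have hxi : x⁻¹ = x := inv_eq_of_mul_eq_one_right (hE.sq x hx)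
  have e : (x * w)⁻¹ = w⁻¹ * x := by rw [mul_inv_rev, hxi]
  rw [e]
  apply ρ_mul' x hx
  rw [← e, len_inv hE.toInvGen, len_inv hE.toInvGen]
  exact h

omit [Fintype W] in
theorem q_pos_of (q ind : W → ℝ) (ind_pos : ∀ w, 0 < ind w)
    (ind_mul : ∀ x ∈ S, ∀ w, len S w < len S (x * w) → ind (x * w) = q x * ind w)
    {x : W} (hx : x ∈ S) (w : W) (h : len S w < len S (x * w)) : 0 < q x := by
  have h1 := ind_pos (x * w)
  rw [ind_mul x hx w h] at h1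
  exact (mul_pos_iff_of_pos_right (ind_pos w)).mp h1

theorem iota_mul_left (hE : ExchGen S) {Ω' : Type*} [Fintype Ω'] [DecidableEq Ω']
    (q ind : W → ℝ) (ind_pos : ∀ w, 0 < ind w)
    (ind_mul : ∀ x ∈ S, ∀ w, len S w < len S (x * w) → ind (x * w) = q x * ind w)
    (X : W → Matrix Ω' Ω' ℝ)
    (X_mul : ∀ x ∈ S, ∀ w, len S w < len S (x * w) → X x * X w = X (x * w))
    (X_sq : ∀ x ∈ S, X x * X x = q x • (1 : Matrix Ω' Ω' ℝ) + (q x - 1) • X x)
    (ρ : W → Matrix (Fin 2) (Fin 2) ℝ)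
    (ρ_mul' : ∀ x ∈ S, ∀ w, len S w < len S (w * x) → ρ (w * x) = ρ w * ρ x)
    (ρ_sq : ∀ x ∈ S, ρ x * ρ x = q x • (1 : Matrix (Fin 2) (Fin 2) ℝ) + (q x - 1) • ρ x)
    {x : W} (hx : x ∈ S) (M : Matrix (Fin 2) (Fin 2) ℝ) :
    X x * iota ind X ρ M = iota ind X ρ (ρ x * M) := by
  have hL : ∀ w, len S w < len S (x * w) →
      LinearMap.mulLeft ℝ (X x) (X w) = X (x * w) := by
    intro w h
    rw [LinearMap.mulLeft_apply, X_mul x hx w h]
  have hL2 : ∀ w, len S w < len S (x * w) →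
      LinearMap.mulLeft ℝ (X x) (X (x * w)) = q x • X w + (q x - 1) • X (x * w) := by
    intro w h
    rw [LinearMap.mulLeft_apply, ← X_mul x hx w h, ← Matrix.mul_assoc, X_sq x hx, Matrix.add_mul,
      Matrix.smul_mul, Matrix.smul_mul, Matrix.one_mul]
  have h1 : ∀ w, len S w < len S (x * w) →
      (ind w)⁻¹ * (ρ x * M * ρ w⁻¹).trace =
        q x * ((ind (x * w))⁻¹ * (M * ρ (x * w)⁻¹).trace) := by
    intro w h
    have hq := q_pos_of q ind ind_pos ind_mul hx w h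
    have hi := ind_pos w
    rw [rho_inv_step hE ρ ρ_mul' hx w h, ind_mul x hx w h]
    have e : (M * (ρ w⁻¹ * ρ x)).trace = (ρ x * M * ρ w⁻¹).trace := by
      rw [← Matrix.mul_assoc, Matrix.trace_mul_comm, Matrix.mul_assoc]
    rw [e]
    field_simp
  have h2 : ∀ w, len S w < len S (x * w) →
      (ind (x * w))⁻¹ * (ρ x * M * ρ (x * w)⁻¹).trace =
        (ind w)⁻¹ * (M * ρ w⁻¹).trace +
          (q x - 1) * ((ind (x * w))⁻¹ * (M * ρ (x * w)⁻¹).trace) := by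
    intro w h
    have hq := q_pos_of q ind ind_pos ind_mul hx w h
    have hi := ind_pos w
    rw [rho_inv_step hE ρ ρ_mul' hx w h, ind_mul x hx w h]
    have key : (ρ x * M * (ρ w⁻¹ * ρ x)).trace =
        q x * (M * ρ w⁻¹).trace + (q x - 1) * (M * (ρ w⁻¹ * ρ x)).trace := by
      calc (ρ x * M * (ρ w⁻¹ * ρ x)).trace = (ρ x * (M * ρ w⁻¹ * ρ x)).trace := by
            simp only [Matrix.mul_assoc]
        _ = (M * ρ w⁻¹ * ρ x * ρ x).trace := Matrix.trace_mul_comm _ _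
        _ = (M * ρ w⁻¹ * (ρ x * ρ x)).trace := by rw [Matrix.mul_assoc (M * ρ w⁻¹)]
        _ = q x * (M * ρ w⁻¹).trace + (q x - 1) * (M * (ρ w⁻¹ * ρ x)).trace := by
            rw [ρ_sq x hx, Matrix.mul_add, Matrix.mul_smul, Matrix.mul_smul, Matrix.mul_one,
              Matrix.trace_add, Matrix.trace_smul, Matrix.trace_smul, smul_eq_mul, smul_eq_mul,
              Matrix.mul_assoc]
    rw [key]
    field_simp
  have h := pair_sum hE hx X (LinearMap.mulLeft ℝ (X x)) (q x) hL hL2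
    (fun w => (ind w)⁻¹ * (M * ρ w⁻¹).trace) (fun w => (ind w)⁻¹ * (ρ x * M * ρ w⁻¹).trace)
    h1 h2
  unfold iota
  rw [Finset.mul_sum, ← h]
  refine Finset.sum_congr rfl fun w _ => ?_
  rw [Matrix.mul_smul, LinearMap.mulLeft_apply]

theorem kappa_mul_right (hE : ExchGen S) (q ind : W → ℝ) (ind_one : ind 1 = 1)
    (ind_pos : ∀ w, 0 < ind w)
    (ind_mul : ∀ x ∈ S, ∀ w, len S w < len S (x * w) → ind (x * w) = q x * ind w)
    (ρ : W → Matrix (Fin 2) (Fin 2) ℝ)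
    (ρ_mul : ∀ x ∈ S, ∀ w, len S w < len S (x * w) → ρ (x * w) = ρ x * ρ w)
    (ρ_mul' : ∀ x ∈ S, ∀ w, len S w < len S (w * x) → ρ (w * x) = ρ w * ρ x)
    (ρ_sq : ∀ x ∈ S, ρ x * ρ x = q x • (1 : Matrix (Fin 2) (Fin 2) ℝ) + (q x - 1) • ρ x)
    {x : W} (hx : x ∈ S) (M : Matrix (Fin 2) (Fin 2) ℝ) :
    iota ind ρ ρ M * ρ x = iota ind ρ ρ (M * ρ x) := by
  have hre : ∀ M' : Matrix (Fin 2) (Fin 2) ℝ,
      iota ind ρ ρ M' = ∑ w, ((ind w)⁻¹ * (M' * ρ w).trace) • ρ w⁻¹ := by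
    intro M'
    unfold iota
    rw [← Equiv.sum_comp (Equiv.inv W)]
    refine Finset.sum_congr rfl fun w _ => ?_
    simp only [Equiv.inv_apply, inv_inv]
    rw [ind_inv hE q ind ind_one ind_mul w]
  have hL : ∀ w, len S w < len S (x * w) →
      LinearMap.mulRight ℝ (ρ x) (ρ w⁻¹) = ρ (x * w)⁻¹ := by
    intro w h
    rw [LinearMap.mulRight_apply, rho_inv_step hE ρ ρ_mul' hx w h]
  have hL2 : ∀ w, len S w < len S (x * w) →
      LinearMap.mulRight ℝ (ρ x) (ρ (x * w)⁻¹) = q x • ρ w⁻¹ + (q x - 1) • ρ (x * w)⁻¹ := by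
    intro w h
    rw [LinearMap.mulRight_apply, rho_inv_step hE ρ ρ_mul' hx w h, Matrix.mul_assoc, ρ_sq x hx,
      Matrix.mul_add, Matrix.mul_smul, Matrix.mul_smul, Matrix.mul_one]
  have h1 : ∀ w, len S w < len S (x * w) →
      (ind w)⁻¹ * (M * ρ x * ρ w).trace = q x * ((ind (x * w))⁻¹ * (M * ρ (x * w)).trace) := by
    intro w h
    have hq := q_pos_of q ind ind_pos ind_mul hx w h
    have hi := ind_pos w
    rw [ρ_mul x hx w h, ind_mul x hx w h, Matrix.mul_assoc]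
    field_simp
  have h2 : ∀ w, len S w < len S (x * w) →
      (ind (x * w))⁻¹ * (M * ρ x * ρ (x * w)).trace =
        (ind w)⁻¹ * (M * ρ w).trace + (q x - 1) * ((ind (x * w))⁻¹ * (M * ρ (x * w)).trace) := by
    intro w h
    have hq := q_pos_of q ind ind_pos ind_mul hx w h
    have hi := ind_pos w
    rw [ρ_mul x hx w h, ind_mul x hx w h]
    have key : (M * ρ x * (ρ x * ρ w)).trace =
        q x * (M * ρ w).trace + (q x - 1) * (M * (ρ x * ρ w)).trace := by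
      calc (M * ρ x * (ρ x * ρ w)).trace = (M * (ρ x * ρ x) * ρ w).trace := by
            simp only [Matrix.mul_assoc]
        _ = q x * (M * ρ w).trace + (q x - 1) * (M * (ρ x * ρ w)).trace := by
            rw [ρ_sq x hx, Matrix.mul_add, Matrix.add_mul, Matrix.mul_smul, Matrix.mul_smul,
              Matrix.mul_one, Matrix.smul_mul, Matrix.smul_mul, Matrix.trace_add,
              Matrix.trace_smul, Matrix.trace_smul, smul_eq_mul, smul_eq_mul, Matrix.mul_assoc]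
    rw [key]
    field_simp
  have h := pair_sum hE hx (fun w => ρ w⁻¹) (LinearMap.mulRight ℝ (ρ x)) (q x) hL hL2
    (fun w => (ind w)⁻¹ * (M * ρ w).trace) (fun w => (ind w)⁻¹ * (M * ρ x * ρ w).trace) h1 h2
  rw [hre M, hre (M * ρ x), Finset.sum_mul, ← h]
  refine Finset.sum_congr rfl fun w _ => ?_
  rw [Matrix.smul_mul, LinearMap.mulRight_apply]

end

theorem multiplicity {W : Type*} [Group W] [Fintype W] {S : Set W} (hE : ExchGen S)
    {Ω : Type*} [Fintype Ω] [DecidableEq Ω] [Nonempty Ω] (D : HeckeData W S Ω)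
    (ρ : W → Matrix (Fin 2) (Fin 2) ℝ) (ρ_one : ρ 1 = 1)
    (ρ_mul : ∀ x ∈ S, ∀ w, len S w < len S (x * w) → ρ (x * w) = ρ x * ρ w)
    (ρ_mul' : ∀ x ∈ S, ∀ w, len S w < len S (w * x) → ρ (w * x) = ρ w * ρ x)
    (ρ_sq : ∀ x ∈ S, ρ x * ρ x = D.q x • (1 : Matrix (Fin 2) (Fin 2) ℝ) + (D.q x - 1) • ρ x)
    (ρ_irr : ∀ M : Matrix (Fin 2) (Fin 2) ℝ, (∀ x ∈ S, M * ρ x = ρ x * M) → ∃ c : ℝ, M = c • 1) :
    ∃ r : ℕ, 0 < r ∧
      (∑ w, (D.ind w)⁻¹ * (ρ w⁻¹).trace * (ρ w).trace) * r = 4 * Fintype.card Ω := by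
  classical
  have hι : ∀ x ∈ S, ∀ M : Matrix (Fin 2) (Fin 2) ℝ,
      D.T x * iota D.ind D.T ρ M = iota D.ind D.T ρ (ρ x * M) := fun x hx M =>
    iota_mul_left hE D.q D.ind D.ind_pos D.ind_mul D.T D.T_mul D.T_sq ρ ρ_mul' ρ_sq hx M
  have hκl : ∀ x ∈ S, ∀ M : Matrix (Fin 2) (Fin 2) ℝ,
      ρ x * iota D.ind ρ ρ M = iota D.ind ρ ρ (ρ x * M) := fun x hx M =>
    iota_mul_left hE D.q D.ind D.ind_pos D.ind_mul ρ
      (fun x hx w h => (ρ_mul x hx w h).symm) ρ_sq ρ ρ_mul' ρ_sq hx M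
  have hκr : ∀ x ∈ S, ∀ M : Matrix (Fin 2) (Fin 2) ℝ,
      iota D.ind ρ ρ M * ρ x = iota D.ind ρ ρ (M * ρ x) := fun x hx M =>
    kappa_mul_right hE D.q D.ind D.ind_one D.ind_pos D.ind_mul ρ ρ_mul ρ_mul' ρ_sq hx M
  -- (4)
  obtain ⟨lam, hlam⟩ := ρ_irr (iota D.ind ρ ρ 1) (fun x hx => by
    rw [hκr x hx 1, hκl x hx 1, Matrix.one_mul, Matrix.mul_one])
  -- (5)
  have h5 : ∀ n : ℕ, ∀ w : W, len S w = n → ∀ M : Matrix (Fin 2) (Fin 2) ℝ,
      D.T w * iota D.ind D.T ρ M = iota D.ind D.T ρ (ρ w * M) := by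
    intro n
    induction n with
    | zero =>
      intro w hw M
      have hw1 : w = 1 := hE.toInvGen.len_eq_zero hw
      rw [hw1, D.T_one, ρ_one, Matrix.one_mul, Matrix.one_mul]
    | succ n ih =>
      intro w hw M
      have hw1 : w ≠ 1 := by
        rintro rfl
        rw [len_one] at hw
        omega
      obtain ⟨x, hx, hd⟩ := hE.toInvGen.exists_left_descent hw1
      have hxx : x * (x * w) = w := by rw [← mul_assoc, hE.sq x hx, one_mul]
      have hlt : len S (x * w) < len S (x * (x * w)) := by rw [hxx]; omega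
      have hT : D.T w = D.T x * D.T (x * w) := by
        rw [D.T_mul x hx (x * w) hlt, hxx]
      have hρ : ρ w = ρ x * ρ (x * w) := by
        rw [← ρ_mul x hx (x * w) hlt, hxx]
      rw [hT, hρ, Matrix.mul_assoc, ih (x * w) (by omega) M, hι x hx, Matrix.mul_assoc]
  -- (6)
  have hcdef : iota D.ind D.T ρ 1 =
      ∑ w, ((D.ind w)⁻¹ * ((1 : Matrix (Fin 2) (Fin 2) ℝ) * ρ w⁻¹).trace) • D.T w := rfl
  have hzdef : iota D.ind ρ ρ 1 =
      ∑ w, ((D.ind w)⁻¹ * ((1 : Matrix (Fin 2) (Fin 2) ℝ) * ρ w⁻¹).trace) • ρ w := rfl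
  have hcc : iota D.ind D.T ρ 1 * iota D.ind D.T ρ 1 = lam • iota D.ind D.T ρ 1 := by
    calc iota D.ind D.T ρ 1 * iota D.ind D.T ρ 1
        = (∑ w, ((D.ind w)⁻¹ * ((1 : Matrix (Fin 2) (Fin 2) ℝ) * ρ w⁻¹).trace) • D.T w) *
            iota D.ind D.T ρ 1 := by rw [← hcdef]
      _ = ∑ w, ((D.ind w)⁻¹ * ((1 : Matrix (Fin 2) (Fin 2) ℝ) * ρ w⁻¹).trace) •
            (D.T w * iota D.ind D.T ρ 1) := by
          rw [Finset.sum_mul]
          exact Finset.sum_congr rfl fun w _ => Matrix.smul_mul _ _ _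
      _ = ∑ w, ((D.ind w)⁻¹ * ((1 : Matrix (Fin 2) (Fin 2) ℝ) * ρ w⁻¹).trace) •
            iota D.ind D.T ρ (ρ w) := by
          refine Finset.sum_congr rfl fun w _ => ?_
          rw [h5 _ w rfl 1, Matrix.mul_one]
      _ = iota D.ind D.T ρ
            (∑ w, ((D.ind w)⁻¹ * ((1 : Matrix (Fin 2) (Fin 2) ℝ) * ρ w⁻¹).trace) • ρ w) := by
          rw [iota_sum]
          exact Finset.sum_congr rfl fun w _ => (iota_smul _ _ _ _ _).symm
      _ = iota D.ind D.T ρ (lam • 1) := by rw [← hzdef, hlam]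
      _ = lam • iota D.ind D.T ρ 1 := iota_smul _ _ _ _ _
  -- (7)
  have htr : (iota D.ind D.T ρ 1).trace = 2 * (Fintype.card Ω : ℝ) := by
    rw [hcdef, Matrix.trace_sum, Finset.sum_eq_single 1]
    · rw [Matrix.trace_smul, inv_one, ρ_one, D.ind_one, D.T_one, Matrix.one_mul,
        Matrix.trace_one, Matrix.trace_one]
      simp
    · intro w _ hw
      rw [Matrix.trace_smul, D.T_trace w hw, smul_zero]
    · intro h
      exact absurd (Finset.mem_univ _) h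
  have hne : (iota D.ind D.T ρ 1).trace ≠ 0 := by
    rw [htr]
    have : 0 < Fintype.card Ω := Fintype.card_pos
    positivity
  obtain ⟨r, hr0, hr⟩ := Cfsg.Agent.Lib.Helper34.trace_of_sq_eq_smul _ lam hcc hne
  refine ⟨r, hr0, ?_⟩
  have hS : ∑ w, (D.ind w)⁻¹ * (ρ w⁻¹).trace * (ρ w).trace = 2 * lam := by
    have h1 := congrArg Matrix.trace hlam
    rw [hzdef, Matrix.trace_sum, Matrix.trace_smul, Matrix.trace_one] at h1
    simp only [Matrix.trace_smul, Matrix.one_mul, smul_eq_mul, Fintype.card_fin] at h1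
    rw [h1]
    push_cast
    ring
  rw [hS]
  rw [htr] at hr
  linarith

end Cfsg.Agent.Lib.Helper12.FHMc
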