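import Mathlib
import Cfsg.Agent.Lib.Helper26.Gross2DefsC

/-!
# S3795 piece MIN2INV (helper12 for helper26): a nonabelian minimal configuration for `p = 2`
is a `GrossInv` configuration
-/

set_option autoImplicit false
open scoped commutatorElement

namespace Cfsg.Agent.Lib.Helper12.Gross2MIN2INV

open Cfsg.Agent.Lib.Helper26 Cfsg.Agent.Lib.Helper26.Gross2

universe u

theorem gross2_min2inv : Min2InvStmt.{u} := by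
  intro Γ _ _ s n P φ h hnab
  have hψ2 : (φ ^ 2 ^ n) ^ 2 = 1 := h.psi_pow
  have hψinv : (φ ^ 2 ^ n)⁻¹ = φ ^ 2 ^ n := by
    rw [inv_eq_iff_mul_eq_one, ← pow_two]
    exact hψ2
  refine ⟨h.hq, h.hqp, h.hfin, h.hQ, h.hφ, h.hnorm, h.comm_central, ?_, ?_, ?_, hnab⟩
  · -- the centre is centralised by `ψ`
    intro z hz hzc
    have hzZ : z ∈ P ⊓ Subgroup.centralizer (P : Set Γ) :=
      Subgroup.mem_inf.mpr ⟨hz, Subgroup.mem_centralizer_iff.mpr (fun w hw => (hzc w hw).symm)⟩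
    have hne : P ⊓ Subgroup.centralizer (P : Set Γ) ≠ P := by
      intro hE
      obtain ⟨x, hx, y, hy, hxy⟩ := hnab
      have hxZ : x ∈ P ⊓ Subgroup.centralizer (P : Set Γ) := by rw [hE]; exact hx
      exact hxy (Subgroup.mem_centralizer_iff.mp hxZ.2 y hy).symm
    exact h.hsub _ inf_le_left hne
      (fun u hu => by
        have := h.zpow_norm_center (Subgroup.mem_zpowers φ) u hu
        exact this) z hzZ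
  · -- `x * ψ x ψ⁻¹` is central
    intro x hx w hw
    have hx' : φ ^ 2 ^ n * x * (φ ^ 2 ^ n)⁻¹ ∈ P := h.psi_norm x hx
    have hwP : x * (φ ^ 2 ^ n * x * (φ ^ 2 ^ n)⁻¹) ∈ P := P.mul_mem hx hx'
    have hcP : ⁅φ ^ 2 ^ n * x * (φ ^ 2 ^ n)⁻¹, x⁆ ∈ P := h.comm_mem hx' hx
    have hcψ : φ ^ 2 ^ n * ⁅φ ^ 2 ^ n * x * (φ ^ 2 ^ n)⁻¹, x⁆ =
        ⁅φ ^ 2 ^ n * x * (φ ^ 2 ^ n)⁻¹, x⁆ * φ ^ 2 ^ n := h.psi_comm_comm hx' hx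
    -- `ψ w ψ⁻¹ = c * w`
    have e1 : φ ^ 2 ^ n * (x * (φ ^ 2 ^ n * x * (φ ^ 2 ^ n)⁻¹)) * (φ ^ 2 ^ n)⁻¹ =
        ⁅φ ^ 2 ^ n * x * (φ ^ 2 ^ n)⁻¹, x⁆ * (x * (φ ^ 2 ^ n * x * (φ ^ 2 ^ n)⁻¹)) := by
      have e0 : φ ^ 2 ^ n * (x * (φ ^ 2 ^ n * x * (φ ^ 2 ^ n)⁻¹)) * (φ ^ 2 ^ n)⁻¹ =
          (φ ^ 2 ^ n * x * (φ ^ 2 ^ n)⁻¹) *
            ((φ ^ 2 ^ n * φ ^ 2 ^ n) * x * ((φ ^ 2 ^ n)⁻¹ * (φ ^ 2 ^ n)⁻¹)) := by group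
      have e00 : φ ^ 2 ^ n * φ ^ 2 ^ n = 1 := by rw [← pow_two]; exact hψ2
      have e01 : (φ ^ 2 ^ n)⁻¹ * (φ ^ 2 ^ n)⁻¹ = 1 := by
        rw [← mul_inv_rev, e00, inv_one]
      rw [e0, e00, e01, one_mul, mul_one, commutatorElement_def]
      group
    -- conjugating once more: `c ^ 2 = 1`
    have e2 : ⁅φ ^ 2 ^ n * x * (φ ^ 2 ^ n)⁻¹, x⁆ ^ 2 = 1 := by
      have e3 : φ ^ 2 ^ n * (φ ^ 2 ^ n * (x * (φ ^ 2 ^ n * x * (φ ^ 2 ^ n)⁻¹)) * (φ ^ 2 ^ n)⁻¹) *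
          (φ ^ 2 ^ n)⁻¹ = x * (φ ^ 2 ^ n * x * (φ ^ 2 ^ n)⁻¹) := by
        have e00 : φ ^ 2 ^ n * φ ^ 2 ^ n = 1 := by rw [← pow_two]; exact hψ2
        have e01 : (φ ^ 2 ^ n)⁻¹ * (φ ^ 2 ^ n)⁻¹ = 1 := by
          rw [← mul_inv_rev, e00, inv_one]
        calc φ ^ 2 ^ n * (φ ^ 2 ^ n * (x * (φ ^ 2 ^ n * x * (φ ^ 2 ^ n)⁻¹)) * (φ ^ 2 ^ n)⁻¹) *
              (φ ^ 2 ^ n)⁻¹
            = (φ ^ 2 ^ n * φ ^ 2 ^ n) * (x * (φ ^ 2 ^ n * x * (φ ^ 2 ^ n)⁻¹)) *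
                ((φ ^ 2 ^ n)⁻¹ * (φ ^ 2 ^ n)⁻¹) := by group
          _ = x * (φ ^ 2 ^ n * x * (φ ^ 2 ^ n)⁻¹) := by rw [e00, e01, one_mul, mul_one]
      rw [e1] at e3
      have e4 : φ ^ 2 ^ n * (⁅φ ^ 2 ^ n * x * (φ ^ 2 ^ n)⁻¹, x⁆ *
            (x * (φ ^ 2 ^ n * x * (φ ^ 2 ^ n)⁻¹))) * (φ ^ 2 ^ n)⁻¹ =
          ⁅φ ^ 2 ^ n * x * (φ ^ 2 ^ n)⁻¹, x⁆ * (⁅φ ^ 2 ^ n * x * (φ ^ 2 ^ n)⁻¹, x⁆ *
            (x * (φ ^ 2 ^ n * x * (φ ^ 2 ^ n)⁻¹))) := by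
        calc φ ^ 2 ^ n * (⁅φ ^ 2 ^ n * x * (φ ^ 2 ^ n)⁻¹, x⁆ *
              (x * (φ ^ 2 ^ n * x * (φ ^ 2 ^ n)⁻¹))) * (φ ^ 2 ^ n)⁻¹
            = (φ ^ 2 ^ n * ⁅φ ^ 2 ^ n * x * (φ ^ 2 ^ n)⁻¹, x⁆) *
                (x * (φ ^ 2 ^ n * x * (φ ^ 2 ^ n)⁻¹)) * (φ ^ 2 ^ n)⁻¹ := by group
          _ = (⁅φ ^ 2 ^ n * x * (φ ^ 2 ^ n)⁻¹, x⁆ * φ ^ 2 ^ n) *
                (x * (φ ^ 2 ^ n * x * (φ ^ 2 ^ n)⁻¹)) * (φ ^ 2 ^ n)⁻¹ := by rw [hcψ]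
          _ = ⁅φ ^ 2 ^ n * x * (φ ^ 2 ^ n)⁻¹, x⁆ *
                (φ ^ 2 ^ n * (x * (φ ^ 2 ^ n * x * (φ ^ 2 ^ n)⁻¹)) * (φ ^ 2 ^ n)⁻¹) := by group
          _ = _ := by rw [e1]
      rw [e4, ← mul_assoc] at e3
      rw [pow_two]
      exact mul_eq_right.mp e3
    have e5 : ⁅φ ^ 2 ^ n * x * (φ ^ 2 ^ n)⁻¹, x⁆ = 1 := by
      obtain ⟨j, hj⟩ := h.hQ ⟨_, hcP⟩
      have hj' : ⁅φ ^ 2 ^ n * x * (φ ^ 2 ^ n)⁻¹, x⁆ ^ s ^ j = 1 := congrArg Subtype.val hj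
      have hcop : Nat.Coprime (s ^ j) 2 :=
        Nat.Coprime.pow_left j ((Nat.coprime_primes h.hq Nat.prime_two).2 h.hqp)
      have h7 := pow_gcd_eq_one.2 ⟨hj', e2⟩
      rwa [hcop, pow_one] at h7
    rw [e5, one_mul] at e1
    have e6 : φ ^ 2 ^ n * (x * (φ ^ 2 ^ n * x * (φ ^ 2 ^ n)⁻¹)) =
        (x * (φ ^ 2 ^ n * x * (φ ^ 2 ^ n)⁻¹)) * φ ^ 2 ^ n :=
      eq_mul_of_mul_inv_eq e1
    exact h.psi_fixed_central _ hwP e6 w hw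
  · -- `x ^ s` is central
    intro x hx w hw
    have e1 : ⁅x ^ s, w⁆ = 1 := by
      rw [h.comm_pow_left hx hw s]
      exact h.comm_pow x hx w hw
    exact commutatorElement_eq_one_iff_mul_comm.mp e1

end Cfsg.Agent.Lib.Helper12.Gross2MIN2INV
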