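import Mathlib
import Cfsg.Agent.Lib.Helper12.Supersolvable4

set_option autoImplicit false

namespace Cfsg.Agent.Lib.Helper12

open Subgroup

universe u

variable {G : Type*} [Group G]

theorem relIndex_dvd_index_of_le_normalizer {H D : Subgroup G}
    (h : D ≤ normalizer (H : Set G)) : H.relIndex D ∣ H.index := by
  have hHN : H ≤ normalizer (H : Set G) := le_normalizer
  have hn : (H.subgroupOf (normalizer (H : Set G))).Normal := normal_in_normalizer
  have h1 := relIndex_dvd_index_of_normal (H.subgroupOf (normalizer (H : Set G)))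
    (D.subgroupOf (normalizer (H : Set G)))
  rw [relIndex_subgroupOf h] at h1
  exact h1.trans (relIndex_dvd_index_of_le hHN)

theorem not_dvd_card_of_isComplementSystem [Finite G] {K : Nat.Primes → Subgroup G}
    (hK : IsComplementSystem K) (p : Nat.Primes) : ¬ (p : ℕ) ∣ Nat.card (K p) := by
  have e := Subgroup.card_mul_index (K p)
  rw [hK p] at e
  have h1 : Nat.card (K p) = Nat.card G / (p : ℕ) ^ (Nat.card G).factorization p :=
    Nat.eq_div_of_mul_eq_left (pow_pos p.2.pos _).ne' e
  rw [h1]
  exact Nat.not_dvd_ordCompl p.2 Nat.card_pos.ne'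

/-- The system normalizer of a Hall complement system is nilpotent. -/
theorem isNilpotent_systemNormalizer [Finite G] (K : Nat.Primes → Subgroup G)
    (hK : IsComplementSystem K) : Group.IsNilpotent (systemNormalizer K) := by
  apply ((Group.isNilpotent_of_finite_tfae (G := systemNormalizer K)).out 3 0).mp
  intro q hq Q
  have hnormal : ∀ p : Nat.Primes, ((K p).subgroupOf (systemNormalizer K)).Normal :=
    fun p => normal_subgroupOf_of_le_normalizer (iInf_le _ p)
  have hTn : (⨅ (p : Nat.Primes) (_ : (p : ℕ) ≠ q),
      (K p).subgroupOf (systemNormalizer K)).Normal :=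
    normal_iInf_normal (fun p => normal_iInf_normal (fun _ => hnormal p))
  have hQT : (Q : Subgroup (systemNormalizer K)) ≤
      ⨅ (p : Nat.Primes) (_ : (p : ℕ) ≠ q), (K p).subgroupOf (systemNormalizer K) := by
    apply le_iInf
    intro p
    apply le_iInf
    intro hpq
    have := hnormal p
    apply le_of_isPGroup_of_coprime_index Q.isPGroup'
    have h1 : ((K p).subgroupOf (systemNormalizer K)).index ∣
        (p : ℕ) ^ (Nat.card G).factorization p := by
      rw [← hK p]
      exact relIndex_dvd_index_of_le_normalizer (iInf_le _ p)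
    exact Nat.Coprime.coprime_dvd_right h1
      (Nat.Coprime.pow_right _ ((Nat.coprime_primes hq.out p.2).mpr (Ne.symm hpq)))
  have hT : IsPGroup q (⨅ (p : Nat.Primes) (_ : (p : ℕ) ≠ q),
      (K p).subgroupOf (systemNormalizer K) : Subgroup (systemNormalizer K)) := by
    apply IsPGroup.of_card (n := (Nat.card (⨅ (p : Nat.Primes) (_ : (p : ℕ) ≠ q),
      (K p).subgroupOf (systemNormalizer K) : Subgroup (systemNormalizer K))).primeFactorsList.length)
    apply Nat.eq_prime_pow_of_unique_prime_dvd Nat.card_pos.ne'
    intro r hr hrd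
    by_contra hrq
    have hle : (⨅ (p : Nat.Primes) (_ : (p : ℕ) ≠ q),
        (K p).subgroupOf (systemNormalizer K)) ≤
        (K ⟨r, hr⟩).subgroupOf (systemNormalizer K) := iInf₂_le (⟨r, hr⟩ : Nat.Primes) hrq
    have h1 := Subgroup.card_dvd_of_le hle
    have h2 : Nat.card ((K ⟨r, hr⟩).subgroupOf (systemNormalizer K)) ∣ Nat.card (K ⟨r, hr⟩) := by
      rw [← Subgroup.card_map_of_injective (systemNormalizer K).subtype_injective,
        subgroupOf_map_subtype]
      exact Subgroup.card_dvd_of_le inf_le_left
    exact not_dvd_card_of_isComplementSystem hK ⟨r, hr⟩ (hrd.trans (h1.trans h2))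
  have hTQ := Q.is_maximal' hT hQT
  rw [← hTQ]
  exact hTn

end Cfsg.Agent.Lib.Helper12
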