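import Mathlib
import Cfsg.Agent.S0007
import Cfsg.Agent.Lib.Helper1.Hall
import Cfsg.Agent.Lib.Helper12.HallSystem

/-!
# Hall complement systems: conjugacy, quotients, system normalizers
-/

set_option autoImplicit false

namespace Cfsg.Agent.Lib.Helper12

open Subgroup Pointwise

variable {G : Type*} [Group G]

/-- The index of a finite intersection of subgroups with pairwise coprime indices. -/
theorem index_iInf_finset_of_coprime [Finite G] {ι : Type*} (A : ι → Subgroup G) (S : Finset ι)
    (hcop : ∀ i ∈ S, ∀ j ∈ S, i ≠ j → Nat.Coprime (A i).index (A j).index) :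
    (⨅ i ∈ S, A i).index = ∏ i ∈ S, (A i).index := by
  classical
  induction S using Finset.induction_on with
  | empty => simp
  | insert r S hr ih =>
    rw [Finset.iInf_insert, Finset.prod_insert hr]
    have ih' := ih (fun i hi j hj hij =>
      hcop i (Finset.mem_insert_of_mem hi) j (Finset.mem_insert_of_mem hj) hij)
    have hc : Nat.Coprime (A r).index (⨅ i ∈ S, A i).index := by
      rw [ih']
      apply Nat.Coprime.prod_right
      intro i hi
      exact hcop r (Finset.mem_insert_self r S) i (Finset.mem_insert_of_mem hi)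
        (fun h => hr (h ▸ hi))
    rw [(Cfsg.Agent.S0007.result _ _ hc).1, ih']

theorem coprime_index_of_isComplementSystem {K : Nat.Primes → Subgroup G}
    (hK : IsComplementSystem K) {p q : Nat.Primes} (hpq : p ≠ q) :
    Nat.Coprime (K p).index (K q).index := by
  rw [hK p, hK q]
  exact Nat.Coprime.pow _ _ ((Nat.coprime_primes p.2 q.2).mpr (fun h => hpq (Subtype.ext h)))

theorem card_of_isComplementSystem [Finite G] {K : Nat.Primes → Subgroup G}
    (hK : IsComplementSystem K) (p : Nat.Primes) :
    Nat.card (K p) = Nat.card G / (p : ℕ) ^ (Nat.card G).factorization p := by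
  have e := Subgroup.card_mul_index (K p)
  rw [hK p] at e
  exact Nat.eq_div_of_mul_eq_left (pow_pos p.2.pos _).ne' e

theorem eq_top_of_isComplementSystem [Finite G] {K : Nat.Primes → Subgroup G}
    (hK : IsComplementSystem K) {p : Nat.Primes} (hp : ¬ (p : ℕ) ∣ Nat.card G) : K p = ⊤ := by
  rw [← index_eq_one, hK p, Nat.factorization_eq_zero_of_not_dvd hp, pow_zero]

/-- The primes dividing `n`, as a finset of `Nat.Primes`. -/
noncomputable def primesDividing (n : ℕ) : Finset Nat.Primes :=
  Finset.subtype Nat.Prime n.primeFactors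

theorem mem_primesDividing {n : ℕ} (hn : n ≠ 0) (p : Nat.Primes) :
    p ∈ primesDividing n ↔ (p : ℕ) ∣ n :=
  (Finset.mem_subtype (p := Nat.Prime) (s := n.primeFactors) (a := p)).trans
    ⟨fun h => Nat.dvd_of_mem_primeFactors h, fun h => Nat.mem_primeFactors.mpr ⟨p.2, h, hn⟩⟩

/-- Simultaneous conjugacy of two Hall complement systems on a finite set of primes. -/
theorem exists_conj_complementSystem_finset [Finite G] [Group.IsSolvable G]
    (K L : Nat.Primes → Subgroup G) (hK : IsComplementSystem K) (hL : IsComplementSystem L)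
    (S : Finset Nat.Primes) : ∃ g : G, ∀ p ∈ S, MulAut.conj g • K p = L p := by
  classical
  induction S using Finset.induction_on with
  | empty => exact ⟨1, fun p hp => absurd hp (Finset.notMem_empty p)⟩
  | insert r S hr ih =>
    obtain ⟨g, hg⟩ := ih
    obtain ⟨h₀, hh₀⟩ : ∃ h₀ : G, MulAut.conj h₀ • K r = L r := by
      have hpos : Nat.card G ≠ 0 := Nat.card_pos.ne'
      refine Cfsg.Agent.Lib.Helper1.hall_conj
        (Nat.card G / (r : ℕ) ^ (Nat.card G).factorization r)
        ((r : ℕ) ^ (Nat.card G).factorization r) ?_ ?_ (K r) (L r)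
        (card_of_isComplementSystem hK r) (card_of_isComplementSystem hL r)
      · rw [mul_comm]
        exact (Nat.ordProj_mul_ordCompl_eq_self (Nat.card G) r).symm
      · exact (Nat.Coprime.pow_left _ (Nat.coprime_ordCompl r.2 hpos)).symm
    have hc : Nat.Coprime (L r).index (⨅ p ∈ S, L p).index := by
      rw [index_iInf_finset_of_coprime L S
        (fun i _ j _ hij => coprime_index_of_isComplementSystem hL hij)]
      apply Nat.Coprime.prod_right
      intro i hi
      exact coprime_index_of_isComplementSystem hL (fun h => hr (h ▸ hi))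
    obtain ⟨y, hy, x, hx, ht⟩ := (Cfsg.Agent.S0007.result (L r) (⨅ p ∈ S, L p) hc).2 (h₀ * g⁻¹)
    refine ⟨x * g, fun p hp => ?_⟩
    rw [map_mul, mul_smul]
    rcases Finset.mem_insert.mp hp with rfl | hpS
    · have h1 : MulAut.conj (h₀ * g⁻¹) • (MulAut.conj g • K p) = L p := by
        rw [← mul_smul, ← map_mul]
        simpa using hh₀
      rw [ht, map_mul, mul_smul] at h1
      have h2 : MulAut.conj y⁻¹ • L p = L p := conj_smul_eq_self_of_mem (inv_mem hy)
      rw [← h2, ← h1, ← mul_smul, ← map_mul]
      simp
    · rw [hg p hpS]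
      have hxp : x ∈ L p := by
        have h3 := mem_iInf.mp hx p
        exact mem_iInf.mp h3 hpS
      exact conj_smul_eq_self_of_mem hxp

/-- Any two Hall complement systems of a finite solvable group are simultaneously conjugate. -/
theorem exists_conj_complementSystem [Finite G] [Group.IsSolvable G]
    (K L : Nat.Primes → Subgroup G) (hK : IsComplementSystem K) (hL : IsComplementSystem L) :
    ∃ g : G, ∀ p : Nat.Primes, MulAut.conj g • K p = L p := by
  obtain ⟨g, hg⟩ := exists_conj_complementSystem_finset K L hK hL (primesDividing (Nat.card G))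
  refine ⟨g, fun p => ?_⟩
  by_cases hp : (p : ℕ) ∣ Nat.card G
  · exact hg p ((mem_primesDividing Nat.card_pos.ne' p).mpr hp)
  · rw [eq_top_of_isComplementSystem hK hp, eq_top_of_isComplementSystem hL hp]
    exact conj_smul_eq_self_of_mem (mem_top g)

end Cfsg.Agent.Lib.Helper12
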