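import Mathlib
import Cfsg.Agent.Lib.Helper12.HallSystem2

/-!
# Hall complement systems in quotients; system normalizers
-/

set_option autoImplicit false

namespace Cfsg.Agent.Lib.Helper12

open Subgroup Pointwise

variable {G : Type*} [Group G]

theorem index_eq_of_not_dvd_card [Finite G] {H : Subgroup G} {p b : ℕ} (hp : p.Prime)
    (h2 : ¬ p ∣ Nat.card H) (hidx : H.index = p ^ b) :
    H.index = p ^ (Nat.card G).factorization p := by
  have e := Subgroup.card_mul_index H
  rw [hidx] at e
  rw [hidx, ← e, Nat.factorization_mul Nat.card_pos.ne' (pow_pos hp.pos b).ne']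
  simp [Nat.factorization_eq_zero_of_not_dvd h2, hp.factorization_pow]

/-- The image of a Hall complement system in a quotient is a Hall complement system. -/
theorem isComplementSystem_map_mk [Finite G] {K : Nat.Primes → Subgroup G}
    (hK : IsComplementSystem K) (N : Subgroup G) [N.Normal] :
    IsComplementSystem (fun p => (K p).map (QuotientGroup.mk' N)) := by
  intro p
  have h1 : ((K p).map (QuotientGroup.mk' N)).index ∣ (p : ℕ) ^ (Nat.card G).factorization p := by
    rw [← hK p]
    exact index_map_dvd _ (QuotientGroup.mk'_surjective N)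
  obtain ⟨b, -, hidx⟩ := (Nat.dvd_prime_pow p.2).mp h1
  have h2 : ¬ (p : ℕ) ∣ Nat.card ((K p).map (QuotientGroup.mk' N)) :=
    fun hdvd => not_dvd_card_of_isComplementSystem hK p (hdvd.trans (card_map_dvd _ _))
  exact index_eq_of_not_dvd_card p.2 h2 hidx

/-- If `g` normalizes `H ⊔ N`, where `H` is a Hall `p`-complement of the solvable group `G` and
`N` is normal, then `g` lies in `N_G(H) N`. -/
theorem exists_mul_mem_normalizer_of_hall [Finite G] [Group.IsSolvable G] {H N : Subgroup G}
    [hN : N.Normal] {p : ℕ} (hp : p.Prime) {a : ℕ} (hidx : H.index = p ^ a)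
    (hcard : ¬ p ∣ Nat.card H) {g : G} (hg : g ∈ normalizer ((H ⊔ N : Subgroup G) : Set G)) :
    ∃ u ∈ normalizer (H : Set G), ∃ n ∈ N, g = u * n := by
  have hHM : H ≤ H ⊔ N := le_sup_left
  have hgM : MulAut.conj g • (H ⊔ N) = H ⊔ N :=
    (Cfsg.Agent.Lib.Helper1.mem_normalizer_iff_conj_smul g (H ⊔ N)).mp hg
  have hgH : MulAut.conj g • H ≤ H ⊔ N := by
    have h1 : MulAut.conj g • H ≤ MulAut.conj g • (H ⊔ N) :=
      pointwise_smul_le_pointwise_smul_iff.mpr hHM
    rwa [hgM] at h1
  have hrel : H.relIndex (H ⊔ N) ∣ p ^ a := by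
    rw [← hidx]
    exact relIndex_dvd_index_of_le hHM
  obtain ⟨b, -, hb⟩ := (Nat.dvd_prime_pow hp).mp hrel
  have c1 : Nat.card (H.subgroupOf (H ⊔ N)) = Nat.card H :=
    Nat.card_congr (subgroupOfEquivOfLe hHM).toEquiv
  have c2 : Nat.card ((MulAut.conj g • H).subgroupOf (H ⊔ N)) = Nat.card H :=
    (Nat.card_congr (subgroupOfEquivOfLe hgH).toEquiv).trans
      (Nat.card_congr (equivSMul (MulAut.conj g) H).toEquiv).symm
  have hcardM : Nat.card (H ⊔ N : Subgroup G) = Nat.card H * p ^ b := by
    have e := Subgroup.card_mul_index (H.subgroupOf (H ⊔ N))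
    rw [c1] at e
    rw [← e, ← hb]
    rfl
  have hcop : Nat.Coprime (Nat.card H) (p ^ b) :=
    (Nat.Coprime.pow_left b ((Nat.Prime.coprime_iff_not_dvd hp).mpr hcard)).symm
  obtain ⟨u, hu⟩ := Cfsg.Agent.Lib.Helper1.hall_conj (Nat.card H) (p ^ b) hcardM hcop
    (H.subgroupOf (H ⊔ N)) ((MulAut.conj g • H).subgroupOf (H ⊔ N)) c1 c2
  rw [conj_smul_subgroupOf hHM u] at hu
  have hu' : MulAut.conj (u : G) • H = MulAut.conj g • H := by
    have h1 := congrArg (Subgroup.map (H ⊔ N).subtype) hu
    rwa [subgroupOf_map_subtype, subgroupOf_map_subtype,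
      inf_of_le_left (conj_smul_le_of_le hHM u), inf_of_le_left hgH] at h1
  have huM : (u : G) ∈ N ⊔ H := by
    rw [sup_comm]
    exact u.2
  obtain ⟨n, hn, k, hk, hnk⟩ := mem_sup_of_normal_left.mp huM
  have h3 : MulAut.conj n • H = MulAut.conj g • H := by
    rw [← hu', ← hnk, map_mul, mul_smul, conj_smul_eq_self_of_mem hk]
  have h4 : n⁻¹ * g ∈ normalizer (H : Set G) := by
    rw [Cfsg.Agent.Lib.Helper1.mem_normalizer_iff_conj_smul, map_mul, mul_smul, ← h3, ← mul_smul,
      ← map_mul]
    simp
  exact ⟨n⁻¹ * g, h4, g⁻¹ * n * g, hN.conj_mem' n hn g, by group⟩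

/-- If `g ∈ A i * N` for every `i` in a finite family of subgroups of pairwise coprime indices,
then `g ∈ (⨅ i, A i) * N`. -/
theorem exists_mul_mem_iInf_finset [Finite G] {ι : Type*} (A : ι → Subgroup G) (N : Subgroup G)
    [N.Normal] (S : Finset ι)
    (hcop : ∀ i ∈ S, ∀ j ∈ S, i ≠ j → Nat.Coprime (A i).index (A j).index)
    (g : G) (hg : ∀ i ∈ S, ∃ a ∈ A i, ∃ n ∈ N, g = a * n) :
    ∃ b ∈ ⨅ i ∈ S, A i, ∃ n ∈ N, g = b * n := by
  classical
  induction S using Finset.induction_on with
  | empty => exact ⟨g, by simp, 1, one_mem _, by simp⟩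
  | insert r S hr ih =>
    have hcopS : ∀ i ∈ S, ∀ j ∈ S, i ≠ j → Nat.Coprime (A i).index (A j).index :=
      fun i hi j hj hij =>
        hcop i (Finset.mem_insert_of_mem hi) j (Finset.mem_insert_of_mem hj) hij
    obtain ⟨b, hb, n, hn, hbn⟩ := ih hcopS (fun i hi => hg i (Finset.mem_insert_of_mem hi))
    obtain ⟨a, ha, n', hn', han⟩ := hg r (Finset.mem_insert_self r S)
    have hc : Nat.Coprime (A r).index (⨅ i ∈ S, A i).index := by
      rw [index_iInf_finset_of_coprime A S hcopS]
      apply Nat.Coprime.prod_right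
      intro i hi
      exact hcop r (Finset.mem_insert_self r S) i (Finset.mem_insert_of_mem hi)
        (fun h => hr (h ▸ hi))
    have hrel : ∀ X : Subgroup G, X.relIndex N ∣ X.index := by
      intro X
      rw [← inf_relIndex_right, ← relIndex_sup_eq_of_normal X N]
      exact relIndex_dvd_index_of_le le_sup_left
    have hcN : Nat.Coprime ((A r).subgroupOf N).index ((⨅ i ∈ S, A i).subgroupOf N).index :=
      Nat.Coprime.coprime_dvd_left (hrel _) (Nat.Coprime.coprime_dvd_right (hrel _) hc)
    have hz : a⁻¹ * b ∈ N := by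
      have h5 : a * n' = b * n := han.symm.trans hbn
      have h6 : a⁻¹ * b = n' * n⁻¹ := by
        calc a⁻¹ * b = a⁻¹ * (b * n) * n⁻¹ := by group
          _ = a⁻¹ * (a * n') * n⁻¹ := by rw [h5]
          _ = n' * n⁻¹ := by group
      rw [h6]
      exact mul_mem hn' (inv_mem hn)
    obtain ⟨x, hx, y, hy, hxy⟩ := (Cfsg.Agent.S0007.result _ _ hcN).2 ⟨a⁻¹ * b, hz⟩
    have hxy' : a⁻¹ * b = (x : G) * (y : G) := congrArg Subtype.val hxy
    refine ⟨b * (y : G)⁻¹, ?_, (y : G) * n, mul_mem y.2 hn, ?_⟩
    · rw [Finset.iInf_insert]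
      refine mem_inf.mpr ⟨?_, mul_mem hb (inv_mem (mem_subgroupOf.mp hy))⟩
      have h7 : b * (y : G)⁻¹ = a * (x : G) := by
        calc b * (y : G)⁻¹ = a * (a⁻¹ * b) * (y : G)⁻¹ := by group
          _ = a * ((x : G) * (y : G)) * (y : G)⁻¹ := by rw [hxy']
          _ = a * (x : G) := by group
      rw [h7]
      exact mul_mem ha (mem_subgroupOf.mp hx)
    · rw [hbn]
      group

/-- The system normalizer of the image of a Hall complement system in a quotient is the image of
the system normalizer. -/
theorem systemNormalizer_map_mk [Finite G] [Group.IsSolvable G] {K : Nat.Primes → Subgroup G}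
    (hK : IsComplementSystem K) (N : Subgroup G) [N.Normal] :
    systemNormalizer (fun p => (K p).map (QuotientGroup.mk' N)) =
      (systemNormalizer K).map (QuotientGroup.mk' N) := by
  apply le_antisymm
  · intro xbar hx
    obtain ⟨g, rfl⟩ := QuotientGroup.mk'_surjective N xbar
    have hx' : (QuotientGroup.mk' N) g ∈ ⨅ p : Nat.Primes,
        normalizer (((K p).map (QuotientGroup.mk' N) : Subgroup (G ⧸ N)) : Set (G ⧸ N)) := hx
    have h1 : ∀ p : Nat.Primes, g ∈ normalizer ((K p ⊔ N : Subgroup G) : Set G) := by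
      intro p
      have h0 := mem_iInf.mp hx' p
      rw [← mem_comap, comap_normalizer_eq_of_surjective _ (QuotientGroup.mk'_surjective N),
        comap_map_eq, QuotientGroup.ker_mk'] at h0
      exact h0
    have h2 : ∀ p : Nat.Primes, ∃ u ∈ normalizer ((K p : Subgroup G) : Set G), ∃ n ∈ N,
        g = u * n := fun p =>
      exists_mul_mem_normalizer_of_hall p.2 (hK p) (not_dvd_card_of_isComplementSystem hK p) (h1 p)
    have hcop : ∀ i ∈ primesDividing (Nat.card G), ∀ j ∈ primesDividing (Nat.card G), i ≠ j →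
        Nat.Coprime (normalizer ((K i : Subgroup G) : Set G)).index
          (normalizer ((K j : Subgroup G) : Set G)).index := by
      intro i _ j _ hij
      exact Nat.Coprime.coprime_dvd_left (index_dvd_of_le le_normalizer)
        (Nat.Coprime.coprime_dvd_right (index_dvd_of_le le_normalizer)
          (coprime_index_of_isComplementSystem hK hij))
    obtain ⟨b, hb, n, hn, hbn⟩ := exists_mul_mem_iInf_finset
      (fun p => normalizer ((K p : Subgroup G) : Set G)) N (primesDividing (Nat.card G)) hcop g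
      (fun p _ => h2 p)
    have hbD : b ∈ systemNormalizer K := by
      refine mem_iInf.mpr (fun p => ?_)
      by_cases hp : (p : ℕ) ∣ Nat.card G
      · exact mem_iInf.mp (mem_iInf.mp hb p) ((mem_primesDividing Nat.card_pos.ne' p).mpr hp)
      · rw [eq_top_of_isComplementSystem hK hp, normalizer_eq_top_iff.mpr inferInstance]
        exact mem_top b
    refine ⟨b, hbD, ?_⟩
    rw [hbn, map_mul]
    have h8 : (QuotientGroup.mk' N) n = 1 := (QuotientGroup.eq_one_iff n).mpr hn
    rw [h8, mul_one]
  · apply le_iInf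
    intro p
    exact (map_mono (iInf_le _ p)).trans (le_normalizer_map _)

/-- The normal closure of a system normalizer of a finite solvable group is the whole group. -/
theorem normalClosure_systemNormalizer [Finite G] [Group.IsSolvable G]
    {K : Nat.Primes → Subgroup G} (hK : IsComplementSystem K) :
    normalClosure ((systemNormalizer K : Subgroup G) : Set G) = ⊤ := by
  by_contra hne
  have hMn : (normalClosure ((systemNormalizer K : Subgroup G) : Set G)).Normal :=
    normalClosure_normal
  have hnt : Nontrivial (G ⧸ normalClosure ((systemNormalizer K : Subgroup G) : Set G)) :=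
    QuotientGroup.nontrivial_iff.mpr hne
  obtain ⟨B, hBn, hBp⟩ := Cfsg.Agent.Lib.Helper1.exists_normal_prime_index
    (G ⧸ normalClosure ((systemNormalizer K : Subgroup G) : Set G))
  have hM₁n : (B.comap (QuotientGroup.mk'
      (normalClosure ((systemNormalizer K : Subgroup G) : Set G)))).Normal := hBn.comap _
  have hidx : (B.comap (QuotientGroup.mk'
      (normalClosure ((systemNormalizer K : Subgroup G) : Set G)))).index = B.index :=
    index_comap_of_surjective B (QuotientGroup.mk'_surjective _)
  have hD : systemNormalizer K ≤ B.comap (QuotientGroup.mk'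
      (normalClosure ((systemNormalizer K : Subgroup G) : Set G))) := by
    intro x hx
    rw [mem_comap]
    have h1 : (QuotientGroup.mk' (normalClosure ((systemNormalizer K : Subgroup G) : Set G))) x
        = 1 := (QuotientGroup.eq_one_iff x).mpr (le_normalClosure hx)
    rw [h1]
    exact one_mem _
  obtain ⟨M₁, hM₁⟩ : ∃ M₁, M₁ = B.comap (QuotientGroup.mk'
      (normalClosure ((systemNormalizer K : Subgroup G) : Set G))) := ⟨_, rfl⟩
  rw [← hM₁] at hM₁n hidx hD
  have key := systemNormalizer_map_mk hK M₁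
  have hbot : (systemNormalizer K).map (QuotientGroup.mk' M₁) = ⊥ := by
    rw [Subgroup.map_eq_bot_iff, QuotientGroup.ker_mk']
    exact hD
  have hcard : Nat.card (G ⧸ M₁) = B.index := by
    rw [← hidx]
    rfl
  have hfact : Fact (Nat.card (G ⧸ M₁)).Prime := ⟨hcard ▸ hBp⟩
  have hcyc : IsCyclic (G ⧸ M₁) := isCyclic_of_prime_card rfl
  have hcomm : ∀ a b : G ⧸ M₁, a * b = b * a := by
    intro a b
    let _ := IsCyclic.commGroup (α := G ⧸ M₁)
    exact mul_comm a b
  have htop : systemNormalizer (fun p => (K p).map (QuotientGroup.mk' M₁)) = ⊤ := by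
    rw [eq_top_iff]
    intro x _
    refine mem_iInf.mpr (fun p => ?_)
    rw [mem_normalizer_iff]
    intro h
    rw [hcomm x h, mul_inv_cancel_right]
  rw [htop, hbot] at key
  have h1 : Nat.card (G ⧸ M₁) = 1 := by
    have h2 := Subgroup.card_top (G := G ⧸ M₁)
    rw [key, card_bot] at h2
    exact h2.symm
  rw [hcard] at h1
  exact hBp.ne_one h1

end Cfsg.Agent.Lib.Helper12
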