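import Mathlib
import Cfsg.Agent.Lib.Helper58.JEDefs

/-! Piece JE-Y2 of the S2948 project (helper58): every element of `T` normalizing `D` maps `y`
into `yQ ∪ y⁻¹Q`. -/

set_option autoImplicit false

namespace Cfsg.Agent.Lib.Helper12.JE

open Cfsg.Agent.Lib.Helper58.JE Cfsg.Agent.Lib.Helper72.JL Cfsg.Agent.Lib.Helper72.SC
  Cfsg.Agent.Lib.Helper78.Jc

universe u

/-- if `a` commutes with `c` and `a y a⁻¹ = c y` then `a^m y a^{-m} = c^m y` -/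
theorem y2_aux_grp {H : Type*} [Group H] (a y c : H) (hac : a * c = c * a)
    (hy : a * y * a⁻¹ = c * y) (m : ℕ) : a ^ m * y * (a ^ m)⁻¹ = c ^ m * y := by
  induction m with
  | zero => simp
  | succ m ih =>
    have hcm : a * c ^ m = c ^ m * a := (Commute.pow_right (show Commute a c from hac) m).eq
    have e1 : a ^ (m + 1) * y * (a ^ (m + 1))⁻¹ = a * (a ^ m * y * (a ^ m)⁻¹) * a⁻¹ := by
      rw [pow_succ', mul_inv_rev]
      simp only [mul_assoc]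
    rw [e1, ih]
    calc a * (c ^ m * y) * a⁻¹ = (a * c ^ m) * y * a⁻¹ := by simp only [mul_assoc]
      _ = c ^ m * (a * y * a⁻¹) := by
        rw [hcm]
        simp only [mul_assoc]
      _ = c ^ (m + 1) * y := by rw [hy, pow_succ, mul_assoc]

/-- the computation modulo `Q` -/
theorem y2_aux_mod {G : Type*} [Group G] (L Q : Subgroup G) (hQL : Q ≤ L)
    (hQn : L ≤ Subgroup.normalizer (Q : Set G)) (t y c : G) (ht : t ∈ L) (hy : y ∈ L)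
    (hc : c ∈ L) (hcomm : t⁻¹ * c⁻¹ * t * c ∈ Q) (hty : t * y * t⁻¹ = c * y) (m : ℕ)
    (htm : t ^ m = 1) : c ^ m ∈ Q := by
  have : (Q.subgroupOf L).Normal := (Subgroup.normal_subgroupOf_iff_le_normalizer hQL).2 hQn
  let π : ↥L →* ↥L ⧸ Q.subgroupOf L := QuotientGroup.mk' (Q.subgroupOf L)
  have h1 : π ⟨t, ht⟩ * π ⟨c, hc⟩ = π ⟨c, hc⟩ * π ⟨t, ht⟩ := by
    rw [← map_mul, ← map_mul]
    symm
    apply QuotientGroup.eq.2
    rw [Subgroup.mem_subgroupOf]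
    have e : (((⟨c, hc⟩ * ⟨t, ht⟩ : ↥L)⁻¹ * (⟨t, ht⟩ * ⟨c, hc⟩) : ↥L) : G)
        = t⁻¹ * c⁻¹ * t * c := by
      simp [mul_assoc]
    rw [e]
    exact hcomm
  have h2 : π ⟨t, ht⟩ * π ⟨y, hy⟩ * (π ⟨t, ht⟩)⁻¹ = π ⟨c, hc⟩ * π ⟨y, hy⟩ := by
    rw [← map_inv, ← map_mul, ← map_mul, ← map_mul]
    congr 1
    exact Subtype.ext hty
  have h3 := y2_aux_grp _ _ _ h1 h2 m
  have h4 : π ⟨t, ht⟩ ^ m = 1 := by
    rw [← map_pow]
    have e : (⟨t, ht⟩ : ↥L) ^ m = 1 := Subtype.ext (by simpa using htm)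
    rw [e, map_one]
  rw [h4, one_mul, inv_one, mul_one] at h3
  have h5 : π (⟨c, hc⟩ ^ m) = 1 := by
    rw [map_pow]
    exact mul_eq_right.1 h3.symm
  have h6 := (QuotientGroup.eq_one_iff _).1 h5
  rw [Subgroup.mem_subgroupOf] at h6
  simpa using h6

/-- the first case: a commutator `[t, y']` lying in `C` lies in `Q` -/
theorem y2_aux_first {G : Type u} [Group G] [Finite G] (T L Q C V D A : Subgroup G) (b : G)
    (hd : Data T L Q C V D A b) (t y' : G) (ht : t ∈ T) (hy' : y' ∈ L)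
    (hc : t * y' * t⁻¹ * y'⁻¹ ∈ C) : t * y' * t⁻¹ * y'⁻¹ ∈ Q := by
  have hty : t * y' * t⁻¹ = (t * y' * t⁻¹ * y'⁻¹) * y' := by group
  generalize t * y' * t⁻¹ * y'⁻¹ = c at hc hty ⊢
  have htL : t ∈ L := hd.hTL ht
  have hcL : c ∈ L := hd.hCL hc
  have hcomm : t⁻¹ * c⁻¹ * t * c ∈ Q := by
    have h1 := hd.hc1 c⁻¹ (C.inv_mem hc) t⁻¹ (T.inv_mem ht)
    have h2 := Q.inv_mem h1
    have e : (c⁻¹ * t⁻¹ * c⁻¹⁻¹ * t⁻¹⁻¹)⁻¹ = t⁻¹ * c⁻¹ * t * c := by group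
    rwa [e] at h2
  obtain ⟨k, hk⟩ := hd.hT2 ⟨t, ht⟩
  have htk : t ^ 2 ^ k = 1 := by
    have h1 := congrArg Subtype.val hk
    simpa using h1
  have hcQ : c ^ 2 ^ k ∈ Q :=
    y2_aux_mod L Q (hd.hQT.trans hd.hTL) hd.hQn t y' c htL hy' hcL hcomm hty _ htk
  obtain ⟨r, hr⟩ := hd.hQ2 ⟨c ^ 2 ^ k, hcQ⟩
  have hr' : (c ^ 2 ^ k) ^ 2 ^ r = 1 := by
    have h1 := congrArg Subtype.val hr
    simpa using h1
  apply hd.hc2 c hc
  refine ⟨k + r, ?_⟩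
  rw [pow_add, pow_mul]
  exact hr'

/-- the three cosets of `C` in `D` -/
theorem y2_aux_tri {G : Type*} [Group G] (C D : Subgroup G) (hCD : C ≤ D)
    (hn : D ≤ Subgroup.normalizer (C : Set G)) (hDC : C.relIndex D = 3) (y d : G) (hy : y ∈ D)
    (hyC : y ∉ C) (hd : d ∈ D) (hdC : d ∉ C) : y⁻¹ * d ∈ C ∨ y * d ∈ C := by
  have : (C.subgroupOf D).Normal := (Subgroup.normal_subgroupOf_iff_le_normalizer hCD).2 hn
  have : Fact (Nat.Prime 3) := ⟨Nat.prime_three⟩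
  have hcard : Nat.card (↥D ⧸ C.subgroupOf D) = 3 := hDC
  let π : ↥D →* ↥D ⧸ C.subgroupOf D := QuotientGroup.mk' (C.subgroupOf D)
  have hmemC : ∀ (x : G) (hx : x ∈ D), π ⟨x, hx⟩ = 1 → x ∈ C := by
    intro x hx h
    have h1 := (QuotientGroup.eq_one_iff _).1 h
    rw [Subgroup.mem_subgroupOf] at h1
    exact h1
  have hy1 : π ⟨y, hy⟩ ≠ 1 := fun h => hyC (hmemC y hy h)
  have hd1 : π ⟨d, hd⟩ ≠ 1 := fun h => hdC (hmemC d hd h)
  have hmem : π ⟨d, hd⟩ ∈ Subgroup.zpowers (π ⟨y, hy⟩) := mem_zpowers_of_prime_card hcard hy1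
  obtain ⟨k, hk⟩ := Subgroup.mem_zpowers_iff.1 hmem
  have h3 : π ⟨y, hy⟩ ^ 3 = 1 := by
    rw [← hcard]
    exact pow_card_eq_one'
  have hk3 : π ⟨y, hy⟩ ^ k = π ⟨y, hy⟩ ^ (k % 3) := by
    conv_lhs => rw [← Int.mul_ediv_add_emod k 3]
    rw [zpow_add, zpow_mul, zpow_ofNat, h3, one_zpow, one_mul]
  rw [hk3] at hk
  have hcases : k % 3 = 0 ∨ k % 3 = 1 ∨ k % 3 = 2 := by omega
  rcases hcases with h0 | h0 | h0
  · exfalso
    rw [h0, zpow_zero] at hk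
    exact hd1 hk.symm
  · left
    rw [h0, zpow_one] at hk
    have e : π (⟨y, hy⟩⁻¹ * ⟨d, hd⟩) = 1 := by
      rw [map_mul, map_inv, ← hk, inv_mul_cancel]
    exact hmemC (y⁻¹ * d) (D.mul_mem (D.inv_mem hy) hd) e
  · right
    have e : π (⟨y, hy⟩ * ⟨d, hd⟩) = 1 := by
      rw [map_mul, ← hk, h0]
      have e2 : π ⟨y, hy⟩ * π ⟨y, hy⟩ ^ (2 : ℤ) = π ⟨y, hy⟩ ^ 3 := by
        rw [zpow_ofNat, pow_succ' _ 2]
      rw [e2, h3]
    exact hmemC (y * d) (D.mul_mem hy hd) e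

/-- JE-Y2 -/
theorem y2 : Y2Stmt.{u} := by
  intro G _ _ T L Q C V D A b y hd hy
  obtain ⟨hyD, hyC, -, hby⟩ := hy
  intro t ht htD
  have htL : t ∈ L := hd.hTL ht
  have hyL : y ∈ L := hd.hDL hyD
  have hdD : t * y * t⁻¹ ∈ D := (Subgroup.mem_normalizer_iff.1 htD y).1 hyD
  have hdC : t * y * t⁻¹ ∉ C := by
    intro h
    apply hyC
    have h1 := (Subgroup.mem_normalizer_iff.1 (hd.hCn (L.inv_mem htL)) (t * y * t⁻¹)).1 h
    have e : t⁻¹ * (t * y * t⁻¹) * t⁻¹⁻¹ = y := by group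
    rwa [e] at h1
  rcases y2_aux_tri C D hd.hCD (hd.hDL.trans hd.hCn) hd.hDC y (t * y * t⁻¹) hyD hyC hdD hdC
    with h | h
  · left
    apply y2_aux_first T L Q C V D A b hd t y ht hyL
    have h1 := (Subgroup.mem_normalizer_iff.1 (hd.hCn hyL) (y⁻¹ * (t * y * t⁻¹))).1 h
    have e : y * (y⁻¹ * (t * y * t⁻¹)) * y⁻¹ = t * y * t⁻¹ * y⁻¹ := by group
    rwa [e] at h1
  · right
    have hbT : b ∈ T := hd.hA.1 hd.hbA
    have htb : t * b ∈ T := T.mul_mem ht hbT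
    have e1 : (t * b) * y * (t * b)⁻¹ * y⁻¹ = (y * (t * y * t⁻¹))⁻¹ := by
      have e0 : (t * b) * y * (t * b)⁻¹ = t * (b * y * b⁻¹) * t⁻¹ := by group
      rw [e0, hby]
      group
    have h1 : (t * b) * y * (t * b)⁻¹ * y⁻¹ ∈ Q := by
      apply y2_aux_first T L Q C V D A b hd (t * b) y htb hyL
      rw [e1]
      exact C.inv_mem h
    rw [e1] at h1
    have h2 : y * (t * y * t⁻¹) ∈ Q := by
      have h2' := Q.inv_mem h1
      rwa [inv_inv] at h2'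
    have h3 := (Subgroup.mem_normalizer_iff.1 (hd.hQn (L.inv_mem hyL)) _).1 h2
    have e2 : y⁻¹ * (y * (t * y * t⁻¹)) * y⁻¹⁻¹ = t * y * t⁻¹ * y := by group
    rwa [e2] at h3

end Cfsg.Agent.Lib.Helper12.JE
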