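import Mathlib
import Cfsg.Agent.Lib.Helper78.JNDefs
import Cfsg.Agent.Lib.Helper41.Cores

/-! Piece JN-CQ of the S2944 project (helper78): the kernel of `rhoT` is `O₂(X)` extended by a
group of odd order. -/

set_option autoImplicit false

namespace Cfsg.Agent.Lib.Helper12.JN

open Cfsg.Agent.Lib.Helper78.JN Cfsg.Agent.Lib.Helper72.JL Cfsg.Agent.Lib.Helper72.SC
  Cfsg.Agent.Lib.Helper78.Jc

open scoped commutatorElement

universe u

/-- A 2-subgroup normalizing a 2-subgroup `T` of odd index lies in `T`. -/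
theorem cq_aux1 {X : Type*} [Group X] [Finite X] (T P : Subgroup X) (hT2 : IsPGroup 2 ↥T)
    (hTodd : Odd T.index) (hP : IsPGroup 2 ↥P) (hPT : P ≤ Subgroup.normalizer (T : Set X)) :
    P ≤ T := by
  have h2 : IsPGroup 2 ↥(P ⊔ T : Subgroup X) := hP.to_sup_of_normal_right' hT2 hPT
  have hle : T ≤ P ⊔ T := le_sup_right
  have hd1 : T.relIndex (P ⊔ T) ∣ T.index := Subgroup.relIndex_dvd_index_of_le hle
  have hd2 : T.relIndex (P ⊔ T) ∣ Nat.card ↥(P ⊔ T : Subgroup X) :=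
    Subgroup.relIndex_dvd_card T (P ⊔ T)
  obtain ⟨n, hn⟩ := IsPGroup.iff_card.1 h2
  rw [hn] at hd2
  obtain ⟨k, hk, hk2⟩ := (Nat.dvd_prime_pow Nat.prime_two).1 hd2
  have hodd : Odd (T.relIndex (P ⊔ T)) := hTodd.of_dvd_nat hd1
  have h1 : T.relIndex (P ⊔ T) = 1 := by
    rw [hk2] at hodd ⊢
    rcases k with _ | k
    · rfl
    · exfalso
      rw [pow_succ] at hodd
      exact (Nat.not_odd_iff_even.2 (even_two.mul_left _)) hodd
  have h3 : P ⊔ T ≤ T := Subgroup.relIndex_eq_one.1 h1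
  exact le_sup_left.trans h3

/-- The cyclic group generated by an element of 2-power order is a 2-group. -/
theorem cq_aux2 {X : Type*} [Group X] (g : X) (k : ℕ) (hg : g ^ 2 ^ k = 1) :
    IsPGroup 2 ↥(Subgroup.zpowers g) := by
  rintro ⟨y, hy⟩
  obtain ⟨n, rfl⟩ := Subgroup.mem_zpowers_iff.1 hy
  refine ⟨k, Subtype.ext ?_⟩
  show (g ^ n) ^ 2 ^ k = 1
  rw [← zpow_natCast, ← zpow_mul, mul_comm, zpow_mul, zpow_natCast, hg, one_zpow]

/-- JN-CQ -/
theorem cq : CqStmt.{u} := by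
  intro X _ _ T hs
  have hker : ∀ c : X, c ∈ (rhoT T).ker → ∀ v ∈ VT T, c * v * c⁻¹ = v := by
    intro c hc v hv
    rw [MonoidHom.mem_ker] at hc
    have h1 : ((rhoT T c ⟨v, hv⟩ : ↥(VT T)) : X) = c * v * c⁻¹ := by
      unfold rhoT
      rw [MulAut.conjNormal_apply]
    rw [← h1, hc]
    rfl
  have hCn : ((rhoT T).ker).Normal := MonoidHom.normal_ker _
  have hCN : (rhoT T).ker ≤ Subgroup.normalizer (T : Set X) := by
    intro c hc
    apply hs.hZN
    intro z hz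
    have hzV : z ∈ VT T := Subgroup.subset_normalClosure hz
    exact mul_inv_eq_iff_eq_mul.1 (hker c hc z hzV)
  have hPD : ∀ P : Subgroup X, IsPGroup 2 ↥P → P ≤ (rhoT T).ker → P ≤ (rhoT T).ker ⊓ T := by
    intro P hP hPC
    exact le_inf hPC (cq_aux1 T P hs.hT2 hs.hTodd hP (hPC.trans hCN))
  have hDn : ((rhoT T).ker ⊓ T).Normal := by
    constructor
    intro d hd x
    have hxd : x * d * x⁻¹ ∈ (rhoT T).ker := hCn.conj_mem d hd.1 x
    obtain ⟨k, hk⟩ := hs.hT2 ⟨d, hd.2⟩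
    have hk' : d ^ 2 ^ k = 1 := by
      have h1 := congrArg Subtype.val hk
      simpa using h1
    have hk'' : (x * d * x⁻¹) ^ 2 ^ k = 1 := by
      rw [conj_pow, hk']
      simp
    have hPle : Subgroup.zpowers (x * d * x⁻¹) ≤ (rhoT T).ker := by
      rw [Subgroup.zpowers_le]
      exact hxd
    exact hPD _ (cq_aux2 _ k hk'') hPle (Subgroup.mem_zpowers _)
  have hD2 : IsPGroup 2 ↥((rhoT T).ker ⊓ T : Subgroup X) := hs.hT2.to_le inf_le_right
  have hDQ : (rhoT T).ker ⊓ T ≤ Cfsg.pCore 2 X :=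
    Cfsg.Agent.Lib.Helper41.le_pCore _ hD2
  refine ⟨?_, fun P hP hPC => (hPD P hP hPC).trans hDQ⟩
  intro c hc
  obtain ⟨k, m, hm, hkm⟩ := Nat.exists_eq_two_pow_mul_odd (orderOf_pos c).ne'
  refine ⟨m, hm, ?_⟩
  have h2 : (c ^ m) ^ 2 ^ k = 1 := by
    rw [← pow_mul, mul_comm, ← hkm]
    exact pow_orderOf_eq_one c
  have hPle : Subgroup.zpowers (c ^ m) ≤ (rhoT T).ker := by
    rw [Subgroup.zpowers_le]
    exact Subgroup.pow_mem _ hc m
  exact hDQ (hPD _ (cq_aux2 _ k h2) hPle (Subgroup.mem_zpowers _))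

end Cfsg.Agent.Lib.Helper12.JN
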