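import Mathlib
import Cfsg.Agent.Lib.Helper78.JQDefs

/-! Piece JQ-CNTB of the S2945 project (helper78):
`|C_A(W) ∩ ⟨W^A⟩| · |N_A(W) : C_A(W)| ≤ 4`. -/

set_option autoImplicit false

namespace Cfsg.Agent.Lib.Helper12.JQ

open Cfsg.Agent.Lib.Helper78.JQ Cfsg.Agent.Lib.Helper78.Jc

universe u

theorem cntb_mem_cj {X : Type*} [Group X] (a : X) (W : Subgroup X) (x : X) :
    x ∈ cj a W ↔ ∃ w ∈ W, a * w * a⁻¹ = x := by
  unfold cj
  rw [Subgroup.mem_map]
  simp only [MulEquiv.coe_toMonoidHom, MulAut.conj_apply]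

/-- a proper subgroup of a group of order 4 has order at most 2 -/
theorem cntb_card_le_two {X : Type*} [Group X] [Finite X] (W F : Subgroup X)
    (hW : Nat.card ↥W = 4) (hF : F ≤ W) (hne : ¬ W ≤ F) : Nat.card ↥F ≤ 2 := by
  have hdvd : Nat.card ↥F ∣ 2 ^ 2 := by
    have h1 := Subgroup.card_dvd_of_le hF
    rw [hW] at h1
    exact h1
  have hne4 : Nat.card ↥F ≠ 4 := by
    intro h
    apply hne
    have h2 : F = W := Subgroup.eq_of_le_of_card_ge hF (by rw [h, hW])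
    rw [h2]
  obtain ⟨k, hk, hk2⟩ := (Nat.dvd_prime_pow Nat.prime_two).1 hdvd
  rw [hk2] at hne4 ⊢
  interval_cases k
  · norm_num
  · norm_num
  · exact absurd rfl hne4

/-- two non-identity elements of a group of order 2 are equal -/
theorem cntb_two {X : Type*} [Group X] (F : Subgroup X) (hF : Nat.card ↥F = 2) (x y : X)
    (hx : x ∈ F) (hy : y ∈ F) (hx1 : x ≠ 1) (hy1 : y ≠ 1) : x = y := by
  obtain ⟨z, -, hz⟩ := (Nat.card_eq_two_iff' (1 : ↥F)).1 hF
  have h1 := hz ⟨x, hx⟩ (fun h => hx1 (congrArg Subtype.val h))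
  have h2 := hz ⟨y, hy⟩ (fun h => hy1 (congrArg Subtype.val h))
  exact congrArg Subtype.val (h1.trans h2.symm)

/-- the elements of `W` commuting with `a` -/
def cntbFix {X : Type*} [Group X] (W : Subgroup X) (a : X) : Subgroup X :=
  W ⊓ Subgroup.centralizer ({a} : Set X)

theorem cntb_mem_fix {X : Type*} [Group X] (W : Subgroup X) (a w : X) :
    w ∈ cntbFix W a ↔ w ∈ W ∧ a * w = w * a := by
  unfold cntbFix
  rw [Subgroup.mem_inf, Subgroup.mem_centralizer_iff]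
  simp

theorem cntb_fix_le {X : Type*} [Group X] (W : Subgroup X) (a : X) : cntbFix W a ≤ W :=
  inf_le_left

theorem cntb_comm_mem {X : Type*} [Group X] (W : Subgroup X)
    (hWc : ∀ a ∈ W, ∀ b ∈ W, a * b = b * a) (a : X)
    (ha : a ∈ Subgroup.normalizer (W : Set X)) (ha2 : a * a = 1) (w : X) (hw : w ∈ W) :
    w * (a * w * a⁻¹) ∈ cntbFix W a := by
  have hai : a⁻¹ = a := inv_eq_of_mul_eq_one_right ha2
  have hw' : a * w * a⁻¹ ∈ W := (Subgroup.mem_normalizer_iff.1 ha w).1 hw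
  rw [cntb_mem_fix]
  refine ⟨W.mul_mem hw hw', ?_⟩
  have e1 : a * (w * (a * w * a⁻¹)) = (a * w * a⁻¹) * (a * (a * w * a⁻¹) * a⁻¹) * a := by group
  have e2 : a * (a * w * a⁻¹) * a⁻¹ = w := by
    rw [hai]
    calc a * (a * w * a) * a = (a * a) * w * (a * a) := by group
      _ = w := by rw [ha2, one_mul, mul_one]
  rw [e1, e2, hWc _ hw' _ hw]

theorem cntb_fix_card {X : Type*} [Group X] [Finite X] (W : Subgroup X)
    (hWc : ∀ a ∈ W, ∀ b ∈ W, a * b = b * a) (hW2 : ∀ w ∈ W, w * w = 1)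
    (hW4 : Nat.card ↥W = 4) (a : X) (ha : a ∈ Subgroup.normalizer (W : Set X))
    (ha2 : a * a = 1) (w : X) (hw : w ∈ W) (hne : a * w ≠ w * a) :
    Nat.card ↥(cntbFix W a) = 2 ∧ w * (a * w * a⁻¹) ≠ 1 := by
  have hv := cntb_comm_mem W hWc a ha ha2 w hw
  have hv1 : w * (a * w * a⁻¹) ≠ 1 := by
    intro h
    apply hne
    have hwi : w⁻¹ = w := inv_eq_of_mul_eq_one_right (hW2 w hw)
    have h2 : a * w * a⁻¹ = w := by
      have h3 := eq_inv_of_mul_eq_one_right h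
      rw [h3, hwi]
    calc a * w = (a * w * a⁻¹) * a := by group
      _ = w * a := by rw [h2]
  refine ⟨le_antisymm ?_ ?_, hv1⟩
  · apply cntb_card_le_two W _ hW4 (cntb_fix_le W a)
    intro hle
    exact hne ((cntb_mem_fix W a w).1 (hle hw)).2
  · have hnt : Nontrivial ↥(cntbFix W a) :=
      ⟨⟨⟨1, Subgroup.one_mem _⟩, ⟨_, hv⟩, fun h => hv1 (congrArg Subtype.val h).symm⟩⟩
    exact Finite.one_lt_card

/-- two commuting involutions acting nontrivially on a four-group have the same action -/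
theorem cntb_prod {X : Type*} [Group X] [Finite X] (W : Subgroup X)
    (hWc : ∀ a ∈ W, ∀ b ∈ W, a * b = b * a) (hW2 : ∀ w ∈ W, w * w = 1)
    (hW4 : Nat.card ↥W = 4) (a b : X) (ha : a ∈ Subgroup.normalizer (W : Set X))
    (hb : b ∈ Subgroup.normalizer (W : Set X)) (ha2 : a * a = 1) (hb2 : b * b = 1)
    (hab : a * b = b * a) (hna : ∃ w ∈ W, a * w ≠ w * a) (hnb : ∃ w ∈ W, b * w ≠ w * b) :
    ∀ w ∈ W, (a * b) * w = w * (a * b) := by
  obtain ⟨wa, hwa, hwa'⟩ := hna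
  obtain ⟨wb, hwb, hwb'⟩ := hnb
  have hFa := (cntb_fix_card W hWc hW2 hW4 a ha ha2 wa hwa hwa').1
  have hFb := (cntb_fix_card W hWc hW2 hW4 b hb hb2 wb hwb hwb').1
  have hai : a⁻¹ = a := inv_eq_of_mul_eq_one_right ha2
  have hbi : b⁻¹ = b := inv_eq_of_mul_eq_one_right hb2
  have hle : cntbFix W a ≤ cntbFix W b := by
    intro v hv
    by_cases hv1 : v = 1
    · rw [hv1]
      exact Subgroup.one_mem _
    · obtain ⟨hvW, hva⟩ := (cntb_mem_fix W a v).1 hv
      have hbv : b * v * b⁻¹ ∈ cntbFix W a := by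
        rw [cntb_mem_fix]
        refine ⟨(Subgroup.mem_normalizer_iff.1 hb v).1 hvW, ?_⟩
        rw [hbi]
        calc a * (b * v * b) = (a * b) * v * b := by group
          _ = b * (a * v) * b := by rw [hab]; group
          _ = b * v * (a * b) := by rw [hva]; group
          _ = b * v * b * a := by rw [hab]; group
      have hbv1 : b * v * b⁻¹ ≠ 1 := by
        intro h
        apply hv1
        have e : v = b⁻¹ * (b * v * b⁻¹) * b := by group
        rw [e, h]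
        group
      have heq := cntb_two _ hFa _ _ hbv hv hbv1 hv1
      rw [cntb_mem_fix]
      refine ⟨hvW, ?_⟩
      calc b * v = (b * v * b⁻¹) * b := by group
        _ = v * b := by rw [heq]
  have hFeq : cntbFix W a = cntbFix W b :=
    Subgroup.eq_of_le_of_card_ge hle (by rw [hFa, hFb])
  intro w hw
  by_cases hc : a * w = w * a
  · have hwF : w ∈ cntbFix W b := by
      rw [← hFeq, cntb_mem_fix]
      exact ⟨hw, hc⟩
    have hcb := ((cntb_mem_fix W b w).1 hwF).2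
    calc a * b * w = a * (b * w) := by group
      _ = a * w * b := by rw [hcb]; group
      _ = w * (a * b) := by rw [hc]; group
  · have hcb : b * w ≠ w * b := by
      intro h
      apply hc
      have hwF : w ∈ cntbFix W a := by
        rw [hFeq, cntb_mem_fix]
        exact ⟨hw, h⟩
      exact ((cntb_mem_fix W a w).1 hwF).2
    have h1 := cntb_fix_card W hWc hW2 hW4 a ha ha2 w hw hc
    have h2 := cntb_fix_card W hWc hW2 hW4 b hb hb2 w hw hcb
    have hm1 := cntb_comm_mem W hWc a ha ha2 w hw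
    have hm2 := cntb_comm_mem W hWc b hb hb2 w hw
    rw [← hFeq] at hm2
    have heq := cntb_two _ hFa _ _ hm1 hm2 h1.2 h2.2
    have heq2 : a * w * a⁻¹ = b * w * b⁻¹ := mul_left_cancel heq
    rw [hai, hbi] at heq2
    calc a * b * w = a * (b * w * b) * b := by
          rw [show a * (b * w * b) * b = a * b * w * (b * b) by group, hb2, mul_one]
      _ = a * (a * w * a) * b := by rw [heq2]
      _ = (a * a) * w * (a * b) := by group
      _ = w * (a * b) := by rw [ha2, one_mul]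

/-- elements of the join of two commuting subgroups are products -/
theorem cntb_sup_decomp {X : Type*} [Group X] (W R : Subgroup X)
    (hc : ∀ w ∈ W, ∀ r ∈ R, w * r = r * w) (u : X) (hu : u ∈ W ⊔ R) :
    ∃ w ∈ W, ∃ r ∈ R, u = w * r := by
  let S : Subgroup X :=
    { carrier := {u | ∃ w ∈ W, ∃ r ∈ R, u = w * r}
      mul_mem' := by
        rintro _ _ ⟨w, hw, r, hr, rfl⟩ ⟨w', hw', r', hr', rfl⟩
        refine ⟨w * w', W.mul_mem hw hw', r * r', R.mul_mem hr hr', ?_⟩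
        calc w * r * (w' * r') = w * (r * w') * r' := by group
          _ = w * (w' * r) * r' := by rw [hc w' hw' r hr]
          _ = w * w' * (r * r') := by group
      one_mem' := ⟨1, W.one_mem, 1, R.one_mem, by simp⟩
      inv_mem' := by
        rintro _ ⟨w, hw, r, hr, rfl⟩
        refine ⟨w⁻¹, W.inv_mem hw, r⁻¹, R.inv_mem hr, ?_⟩
        rw [mul_inv_rev]
        exact (hc w⁻¹ (W.inv_mem hw) r⁻¹ (R.inv_mem hr)).symm }
  have h1 : W ≤ S := fun w hw => ⟨w, hw, 1, R.one_mem, by simp⟩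
  have h2 : R ≤ S := fun r hr => ⟨1, W.one_mem, r, hr, by simp⟩
  exact (sup_le h1 h2) hu

theorem cntb_cj_ne {X : Type*} [Group X] (W : Subgroup X) (a₀ a : X)
    (ha₀ : a₀ ∈ Subgroup.normalizer (W : Set X)) (hne : cj a W ≠ W) : cj (a₀ * a) W ≠ W := by
  intro h
  apply hne
  ext x
  constructor
  · intro hx
    obtain ⟨w, hw, rfl⟩ := (cntb_mem_cj a W x).1 hx
    have h1 : a₀ * a * w * (a₀ * a)⁻¹ ∈ W := by
      rw [← h]
      exact (cntb_mem_cj (a₀ * a) W _).2 ⟨w, hw, rfl⟩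
    have h2 := (Subgroup.mem_normalizer_iff.1 (Subgroup.inv_mem _ ha₀) _).1 h1
    have e : a₀⁻¹ * (a₀ * a * w * (a₀ * a)⁻¹) * a₀⁻¹⁻¹ = a * w * a⁻¹ := by group
    rwa [e] at h2
  · intro hx
    have h1 : a₀ * x * a₀⁻¹ ∈ W := (Subgroup.mem_normalizer_iff.1 ha₀ x).1 hx
    rw [← h] at h1
    obtain ⟨w, hw, he⟩ := (cntb_mem_cj (a₀ * a) W _).1 h1
    refine (cntb_mem_cj a W x).2 ⟨w, hw, ?_⟩
    have e : a * w * a⁻¹ = a₀⁻¹ * (a₀ * a * w * (a₀ * a)⁻¹) * a₀ := by group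
    rw [e, he]
    group

/-- JQ-CNTB -/
theorem cntb : CntbStmt.{u} := by
  intro X _ _ U A W y hUn hUc hU2 hAc hA2 hWU hW4 hyW hfpf hcent hind hdisj
  have hcjU : ∀ a : X, cj a W ≤ U := by
    intro a x hx
    obtain ⟨w, hw, rfl⟩ := (cntb_mem_cj a W x).1 hx
    exact hUn.conj_mem w (hWU hw) a
  have hSU : cjSup A W ≤ U := iSup_le fun a => hcjU a
  have hNU : cjSupNe A W ≤ U := iSup_le fun a => hcjU _
  have hL1 : cjSup A W ≤ W ⊔ cjSupNe A W := by
    unfold cjSup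
    apply iSup_le
    intro a
    by_cases h : cj (a : X) W = W
    · rw [h]
      exact le_sup_left
    · exact le_trans
        (le_iSup (fun i : {a : ↥A // cj (a : X) W ≠ W} => cj ((i : ↥A) : X) W) ⟨a, h⟩)
        le_sup_right
  set B := A ⊓ Subgroup.centralizer (W : Set X) ⊓ cjSup A W with hB
  have hBA : B ≤ A := inf_le_left.trans inf_le_left
  have hBS : B ≤ cjSup A W := inf_le_right
  have hBU : B ≤ U := hBS.trans hSU
  have hφinj : ∀ u ∈ B, ∀ u' ∈ B,
      u⁻¹ * (y * u * y⁻¹) = u'⁻¹ * (y * u' * y⁻¹) → u = u' := by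
    intro u hu u' hu' h
    have hd : u * u'⁻¹ ∈ B := B.mul_mem hu (B.inv_mem hu')
    have hyd : y * (u * u'⁻¹) * y⁻¹ = u * u'⁻¹ := by
      have h1 : y * u * y⁻¹ = u * (u'⁻¹ * (y * u' * y⁻¹)) := by
        rw [← h]
        group
      calc y * (u * u'⁻¹) * y⁻¹ = (y * u * y⁻¹) * (y * u' * y⁻¹)⁻¹ := by group
        _ = u * (u'⁻¹ * (y * u' * y⁻¹)) * (y * u' * y⁻¹)⁻¹ := by rw [h1]
        _ = u * u'⁻¹ := by group
    have hd1 : u * u'⁻¹ = 1 := by
      apply hind _ (hBS hd)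
      intro a ha
      have hda : a * (u * u'⁻¹) = (u * u'⁻¹) * a := hAc a ha _ (hBA hd)
      have hda' : a⁻¹ * (u * u'⁻¹) = (u * u'⁻¹) * a⁻¹ := hAc a⁻¹ (A.inv_mem ha) _ (hBA hd)
      have hyd' : y * (u * u'⁻¹) = (u * u'⁻¹) * y := by
        calc y * (u * u'⁻¹) = (y * (u * u'⁻¹) * y⁻¹) * y := by group
          _ = (u * u'⁻¹) * y := by rw [hyd]
      calc a * y * a⁻¹ * (u * u'⁻¹) = a * y * (a⁻¹ * (u * u'⁻¹)) := by group
        _ = a * (y * (u * u'⁻¹)) * a⁻¹ := by rw [hda']; group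
        _ = (a * (u * u'⁻¹)) * y * a⁻¹ := by rw [hyd']; group
        _ = u * u'⁻¹ * (a * y * a⁻¹) := by rw [hda]; group
    exact mul_inv_eq_one.1 hd1
  have hB4 : Nat.card ↥B ≤ 4 := by
    rw [← hW4]
    let f : ↥B → ↥W := fun u => ⟨(u : X)⁻¹ * (y * (u : X) * y⁻¹), hyW u (hBU u.2)⟩
    apply Nat.card_le_card_of_injective f
    intro u u' h
    have h' := congrArg Subtype.val h
    exact Subtype.ext (hφinj u u.2 u' u'.2 h')
  by_cases hle : A ⊓ Subgroup.normalizer (W : Set X) ≤ A ⊓ Subgroup.centralizer (W : Set X)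
  · rw [Subgroup.relIndex_eq_one.2 hle, mul_one]
    exact hB4
  · obtain ⟨a₀, ha₀N, ha₀C⟩ := SetLike.not_le_iff_exists.1 hle
    have ha₀A : a₀ ∈ A := (Subgroup.mem_inf.1 ha₀N).1
    have ha₀n : a₀ ∈ Subgroup.normalizer (W : Set X) := (Subgroup.mem_inf.1 ha₀N).2
    have ha₀c : a₀ ∉ Subgroup.centralizer (W : Set X) :=
      fun h => ha₀C (Subgroup.mem_inf.2 ⟨ha₀A, h⟩)
    have ha₀2 : a₀ * a₀ = 1 := hA2 a₀ ha₀A
    have hWc : ∀ a ∈ W, ∀ b ∈ W, a * b = b * a := fun a ha b hb => hUc a (hWU ha) b (hWU hb)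
    have hW2 : ∀ w ∈ W, w * w = 1 := fun w hw => hU2 w (hWU hw)
    have hnc : ∀ a : X, a ∉ Subgroup.centralizer (W : Set X) → ∃ w ∈ W, a * w ≠ w * a := by
      intro a hac
      by_contra hcon
      push Not at hcon
      apply hac
      rw [Subgroup.mem_centralizer_iff]
      intro w hw
      exact (hcon w hw).symm
    have hrel : (A ⊓ Subgroup.centralizer (W : Set X)).relIndex
        (A ⊓ Subgroup.normalizer (W : Set X)) = 2 := by
      rw [Subgroup.relIndex_eq_two_iff]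
      refine ⟨a₀, ha₀N, ?_⟩
      intro b hb
      by_cases hbC : b ∈ A ⊓ Subgroup.centralizer (W : Set X)
      · right
        refine ⟨hbC, ?_⟩
        intro h
        apply ha₀C
        have e : a₀ = b⁻¹ * (b * a₀) := by group
        rw [e]
        exact Subgroup.mul_mem _ (Subgroup.inv_mem _ hbC) h
      · left
        refine ⟨?_, hbC⟩
        have hbA : b ∈ A := (Subgroup.mem_inf.1 hb).1
        have hbn : b ∈ Subgroup.normalizer (W : Set X) := (Subgroup.mem_inf.1 hb).2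
        have hbc : b ∉ Subgroup.centralizer (W : Set X) :=
          fun h => hbC (Subgroup.mem_inf.2 ⟨hbA, h⟩)
        refine Subgroup.mem_inf.2 ⟨A.mul_mem hbA ha₀A, ?_⟩
        rw [Subgroup.mem_centralizer_iff]
        intro w hw
        exact (cntb_prod W hWc hW2 hW4 b a₀ hbn ha₀n (hA2 b hbA) ha₀2 (hAc b hbA a₀ ha₀A)
          (hnc b hbc) (hnc a₀ ha₀c) w hw).symm
    rw [hrel]
    have hL3 : ∀ r ∈ cjSupNe A W, a₀ * r * a₀⁻¹ ∈ cjSupNe A W := by
      intro r hr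
      unfold cjSupNe at hr
      refine Subgroup.iSup_induction (C := fun r => a₀ * r * a₀⁻¹ ∈ cjSupNe A W) _ hr ?_ ?_ ?_
      · rintro ⟨a, hne⟩ x hx
        obtain ⟨w, hw, rfl⟩ := (cntb_mem_cj _ W x).1 hx
        have hne' : cj (a₀ * (a : X)) W ≠ W := cntb_cj_ne W a₀ a ha₀n hne
        have hx' : a₀ * ((a : X) * w * (a : X)⁻¹) * a₀⁻¹ ∈ cj (a₀ * (a : X)) W := by
          rw [cntb_mem_cj]
          exact ⟨w, hw, by group⟩
        exact Subgroup.mem_iSup_of_mem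
          (S := fun i : {a : ↥A // cj (a : X) W ≠ W} => cj ((i : ↥A) : X) W)
          ⟨⟨a₀ * (a : X), A.mul_mem ha₀A a.2⟩, hne'⟩ hx'
      · show a₀ * 1 * a₀⁻¹ ∈ cjSupNe A W
        rw [mul_one, mul_inv_cancel]
        exact Subgroup.one_mem _
      · intro x x' hx hx'
        show a₀ * (x * x') * a₀⁻¹ ∈ cjSupNe A W
        have e : a₀ * (x * x') * a₀⁻¹ = (a₀ * x * a₀⁻¹) * (a₀ * x' * a₀⁻¹) := by group
        rw [e]
        exact Subgroup.mul_mem _ hx hx'
    have hL4 : ∀ r ∈ cjSupNe A W, y * r * y⁻¹ = r := by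
      intro r hr
      unfold cjSupNe at hr
      refine Subgroup.iSup_induction (C := fun r => y * r * y⁻¹ = r) _ hr ?_ ?_ ?_
      · rintro ⟨a, hne⟩ x hx
        obtain ⟨w, hw, rfl⟩ := (cntb_mem_cj _ W x).1 hx
        have ha2 : (a : X) * (a : X) = 1 := hA2 a a.2
        have hai : (a : X)⁻¹ = (a : X) := inv_eq_of_mul_eq_one_right ha2
        have hc := hcent a a.2 hne w hw
        rw [hai] at hc
        show y * ((a : X) * w * (a : X)⁻¹) * y⁻¹ = (a : X) * w * (a : X)⁻¹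
        rw [hai]
        calc y * ((a : X) * w * (a : X)) * y⁻¹
            = ((a : X) * (a : X)) * y * ((a : X) * w * (a : X)) * y⁻¹ := by rw [ha2, one_mul]
          _ = (a : X) * (((a : X) * y * (a : X)) * w) * ((a : X) * y⁻¹) := by group
          _ = (a : X) * (w * ((a : X) * y * (a : X))) * ((a : X) * y⁻¹) := by rw [hc]
          _ = (a : X) * w * (a : X) * y * ((a : X) * (a : X)) * y⁻¹ := by group
          _ = (a : X) * w * (a : X) := by rw [ha2]; group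
      · show y * 1 * y⁻¹ = 1
        rw [mul_one, mul_inv_cancel]
      · intro x x' hx hx'
        show y * (x * x') * y⁻¹ = x * x'
        have e : y * (x * x') * y⁻¹ = (y * x * y⁻¹) * (y * x' * y⁻¹) := by group
        rw [e, hx, hx']
    have hkey : ∀ u ∈ B, ∃ w ∈ cntbFix W a₀,
        u⁻¹ * (y * u * y⁻¹) = w⁻¹ * (y * w * y⁻¹) := by
      intro u hu
      obtain ⟨w, hw, r, hr, rfl⟩ := cntb_sup_decomp W (cjSupNe A W)
        (fun w hw r hr => hUc w (hWU hw) r (hNU hr)) u (hL1 (hBS hu))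
      have hcomm : a₀ * (w * r) = (w * r) * a₀ := hAc a₀ ha₀A _ (hBA hu)
      have hw' : a₀ * w * a₀⁻¹ ∈ W := (Subgroup.mem_normalizer_iff.1 ha₀n w).1 hw
      have hr' : a₀ * r * a₀⁻¹ ∈ cjSupNe A W := hL3 r hr
      have he : w⁻¹ * (a₀ * w * a₀⁻¹) = r * (a₀ * r * a₀⁻¹)⁻¹ := by
        have h1 : w * r = (a₀ * w * a₀⁻¹) * (a₀ * r * a₀⁻¹) := by
          calc w * r = (w * r) * a₀ * a₀⁻¹ := by group
            _ = a₀ * (w * r) * a₀⁻¹ := by rw [hcomm]
            _ = (a₀ * w * a₀⁻¹) * (a₀ * r * a₀⁻¹) := by group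
        calc w⁻¹ * (a₀ * w * a₀⁻¹)
            = w⁻¹ * ((a₀ * w * a₀⁻¹) * (a₀ * r * a₀⁻¹)) * (a₀ * r * a₀⁻¹)⁻¹ := by group
          _ = w⁻¹ * (w * r) * (a₀ * r * a₀⁻¹)⁻¹ := by rw [← h1]
          _ = r * (a₀ * r * a₀⁻¹)⁻¹ := by group
      have hmem : w⁻¹ * (a₀ * w * a₀⁻¹) ∈ W ⊓ cjSupNe A W := by
        refine Subgroup.mem_inf.2 ⟨W.mul_mem (W.inv_mem hw) hw', ?_⟩
        rw [he]
        exact Subgroup.mul_mem _ hr (Subgroup.inv_mem _ hr')
      rw [hdisj, Subgroup.mem_bot] at hmem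
      have hwa : a₀ * w = w * a₀ := by
        have h2 : a₀ * w * a₀⁻¹ = w := by
          have h3 := eq_inv_of_mul_eq_one_right hmem
          rw [h3, inv_inv]
        calc a₀ * w = (a₀ * w * a₀⁻¹) * a₀ := by group
          _ = w * a₀ := by rw [h2]
      refine ⟨w, (cntb_mem_fix W a₀ w).2 ⟨hw, hwa⟩, ?_⟩
      have hyr : y * r * y⁻¹ = r := hL4 r hr
      have hwU : w⁻¹ * (y * w * y⁻¹) ∈ U := hWU (hyW w (hWU hw))
      have hrU : r ∈ U := hNU hr
      calc (w * r)⁻¹ * (y * (w * r) * y⁻¹)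
          = r⁻¹ * (w⁻¹ * (y * w * y⁻¹)) * (y * r * y⁻¹) := by group
        _ = r⁻¹ * ((w⁻¹ * (y * w * y⁻¹)) * r) := by rw [hyr]; group
        _ = r⁻¹ * (r * (w⁻¹ * (y * w * y⁻¹))) := by rw [hUc _ hwU r hrU]
        _ = w⁻¹ * (y * w * y⁻¹) := by group
    have hC2 : Nat.card ↥(cntbFix W a₀) = 2 := by
      obtain ⟨w, hw, hne⟩ := hnc a₀ ha₀c
      exact (cntb_fix_card W hWc hW2 hW4 a₀ ha₀n ha₀2 w hw hne).1
    have hB2 : Nat.card ↥B ≤ 2 := by
      rw [← hC2]
      choose g hg1 hg2 using hkey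
      let f : ↥B → ↥(cntbFix W a₀) := fun u => ⟨g u u.2, hg1 u u.2⟩
      apply Nat.card_le_card_of_injective f
      intro u u' h
      have h' : g u u.2 = g u' u'.2 := congrArg Subtype.val h
      apply Subtype.ext
      apply hφinj u u.2 u' u'.2
      rw [hg2 u u.2, hg2 u' u'.2, h']
    calc Nat.card ↥B * 2 ≤ 2 * 2 := Nat.mul_le_mul_right 2 hB2
      _ = 4 := rfl

end Cfsg.Agent.Lib.Helper12.JQ
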