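import Mathlib
import Cfsg.Agent.Lib.Helper54.OrthLagMinus

/-!
Piece MF-TRANS of S2716: in odd characteristic, transport along an isometry of two minus type
forms carries `Inndiag` into `Inndiag`.
-/

set_option autoImplicit false
set_option linter.unusedSectionVars false
set_option linter.unusedVariables false

namespace Cfsg.Agent.Lib.Helper12.MFTRANS

open Cfsg Matrix
open Cfsg.Agent.Lib.Helper51 Cfsg.Agent.Lib.Helper54

theorem ringChar_ne_two_of_two_ne_zero {F : Type*} [Field F] (h2 : (2 : F) ≠ 0) :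
    ringChar F ≠ 2 := by
  intro h
  apply h2
  have h3 := CharP.cast_eq_zero F (ringChar F)
  rw [h] at h3
  exact_mod_cast h3

/-- The generator step: conjugating a class preserving similarity by an isometry gives a class
preserving similarity of the target form. -/
theorem conj_sim_preserves {F : Type*} [Field F] [Fintype F] (h2 : (2 : F) ≠ 0) {m : ℕ}
    (a b a' b' : F)
    (hab : ∀ z₁ z₂ : F, z₁ ^ 2 + a * z₁ * z₂ + b * z₂ ^ 2 = 0 → z₁ = 0 ∧ z₂ = 0)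
    (hab' : ∀ z₁ z₂ : F, z₁ ^ 2 + a' * z₁ * z₂ + b' * z₂ ^ 2 = 0 → z₁ = 0 ∧ z₂ = 0)
    (T : GL ((Fin m ⊕ Fin m) ⊕ Fin 2) F)
    (hT : ∀ v : (Fin m ⊕ Fin m) ⊕ Fin 2 → F, Cfsg.quadFormMinus m F a' b'
        ((T : Matrix ((Fin m ⊕ Fin m) ⊕ Fin 2) ((Fin m ⊕ Fin m) ⊕ Fin 2) F) *ᵥ v) =
      Cfsg.quadFormMinus m F a b v)
    (g : GL ((Fin m ⊕ Fin m) ⊕ Fin 2) F)
    (hg : g ∈ Geo.quadSimilarityGroup (F := F) (Cfsg.quadFormMinus m F a b))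
    (hp : Cfsg.PreservesSingularClassesMinus m a b
      (g : Matrix ((Fin m ⊕ Fin m) ⊕ Fin 2) ((Fin m ⊕ Fin m) ⊕ Fin 2) F)) :
    T * g * T⁻¹ ∈ Geo.quadSimilarityGroup (F := F) (Cfsg.quadFormMinus m F a' b') ∧
    Cfsg.PreservesSingularClassesMinus m a' b'
      ((T * g * T⁻¹ : GL ((Fin m ⊕ Fin m) ⊕ Fin 2) F) :
        Matrix ((Fin m ⊕ Fin m) ⊕ Fin 2) ((Fin m ⊕ Fin m) ⊕ Fin 2) F) := by
  have hF : ringChar F ≠ 2 := ringChar_ne_two_of_two_ne_zero h2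
  obtain ⟨c, hc⟩ := hg
  -- the conjugate is a similarity with the same multiplier
  have hsim : ∀ v : (Fin m ⊕ Fin m) ⊕ Fin 2 → F, Cfsg.quadFormMinus m F a' b'
      (((T * g * T⁻¹ : GL ((Fin m ⊕ Fin m) ⊕ Fin 2) F) :
        Matrix ((Fin m ⊕ Fin m) ⊕ Fin 2) ((Fin m ⊕ Fin m) ⊕ Fin 2) F) *ᵥ v) =
      (c : F) * Cfsg.quadFormMinus m F a' b' v := by
    intro v
    have e1 : ((T * g * T⁻¹ : GL ((Fin m ⊕ Fin m) ⊕ Fin 2) F) :
        Matrix ((Fin m ⊕ Fin m) ⊕ Fin 2) ((Fin m ⊕ Fin m) ⊕ Fin 2) F) *ᵥ v =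
        (T : Matrix ((Fin m ⊕ Fin m) ⊕ Fin 2) ((Fin m ⊕ Fin m) ⊕ Fin 2) F) *ᵥ
          ((g : Matrix ((Fin m ⊕ Fin m) ⊕ Fin 2) ((Fin m ⊕ Fin m) ⊕ Fin 2) F) *ᵥ
            (((T⁻¹ : GL ((Fin m ⊕ Fin m) ⊕ Fin 2) F) :
              Matrix ((Fin m ⊕ Fin m) ⊕ Fin 2) ((Fin m ⊕ Fin m) ⊕ Fin 2) F) *ᵥ v)) := by
      rw [Units.val_mul, Units.val_mul, Matrix.mulVec_mulVec, Matrix.mulVec_mulVec]
    have e2 : (T : Matrix ((Fin m ⊕ Fin m) ⊕ Fin 2) ((Fin m ⊕ Fin m) ⊕ Fin 2) F) *ᵥ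
        (((T⁻¹ : GL ((Fin m ⊕ Fin m) ⊕ Fin 2) F) :
          Matrix ((Fin m ⊕ Fin m) ⊕ Fin 2) ((Fin m ⊕ Fin m) ⊕ Fin 2) F) *ᵥ v) = v := by
      rw [Matrix.mulVec_mulVec, ← Units.val_mul, mul_inv_cancel, Units.val_one, Matrix.one_mulVec]
    rw [e1, hT, hc, ← hT, e2]
  have hmem' : T * g * T⁻¹ ∈ Geo.quadSimilarityGroup (F := F) (Cfsg.quadFormMinus m F a' b') :=
    ⟨c, hsim⟩
  refine ⟨hmem', ?_⟩
  -- transfer to the bundled forms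
  have hgQ : g ∈ Geo.quadSimilarityGroup (F := F) ⇑(QMinus m F a b) := by
    rw [coe_QMinus]; exact ⟨c, hc⟩
  have hgQ' : T * g * T⁻¹ ∈ Geo.quadSimilarityGroup (F := F) ⇑(QMinus m F a' b') := by
    rw [coe_QMinus]; exact hmem'
  have hs := (preserves_minus_iff hF a b hab ⟨g, hgQ⟩).mp hp
  rw [simSgn_eq_one_iff] at hs
  have hmul : ((simMul (QMinus m F a b) (hv_minus a b) ⟨g, hgQ⟩ : Fˣ) : F) = (c : F) := by
    apply simMul_eq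
    intro v
    have e := congrFun (coe_QMinus m F a b)
    rw [e, e]
    exact hc v
  have hmul' : ((simMul (QMinus m F a' b') (hv_minus a' b') ⟨T * g * T⁻¹, hgQ'⟩ : Fˣ) : F) =
      (c : F) := by
    apply simMul_eq
    intro v
    have e := congrFun (coe_QMinus m F a' b')
    rw [e, e]
    exact hsim v
  rw [hmul] at hs
  have hs' : simSgn (QMinus m F a' b') (hv_minus a' b') (m + 1) ⟨T * g * T⁻¹, hgQ'⟩ = 1 := by
    rw [simSgn_eq_one_iff, hmul']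
    show ((T * g * T⁻¹ : GL ((Fin m ⊕ Fin m) ⊕ Fin 2) F) :
        Matrix ((Fin m ⊕ Fin m) ⊕ Fin 2) ((Fin m ⊕ Fin m) ⊕ Fin 2) F).det = (c : F) ^ (m + 1)
    rw [Units.val_mul, Units.val_mul, Matrix.det_mul, Matrix.det_mul]
    have hdet : (T : Matrix ((Fin m ⊕ Fin m) ⊕ Fin 2) ((Fin m ⊕ Fin m) ⊕ Fin 2) F).det *
        ((T⁻¹ : GL ((Fin m ⊕ Fin m) ⊕ Fin 2) F) :
          Matrix ((Fin m ⊕ Fin m) ⊕ Fin 2) ((Fin m ⊕ Fin m) ⊕ Fin 2) F).det = 1 := by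
      rw [← Matrix.det_mul, ← Units.val_mul, mul_inv_cancel, Units.val_one, Matrix.det_one]
    have hs2 : (g : Matrix ((Fin m ⊕ Fin m) ⊕ Fin 2) ((Fin m ⊕ Fin m) ⊕ Fin 2) F).det =
        (c : F) ^ (m + 1) := hs
    rw [hs2]
    linear_combination (c : F) ^ (m + 1) * hdet
  exact (preserves_minus_iff hF a' b' hab' ⟨T * g * T⁻¹, hgQ'⟩).mpr hs'

/-- **MF-TRANS.** -/
theorem inndiag_map_le {F : Type*} [Field F] [Fintype F] (h2 : (2 : F) ≠ 0) {m : ℕ}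
    (a b a' b' : F)
    (hab : ∀ z₁ z₂ : F, z₁ ^ 2 + a * z₁ * z₂ + b * z₂ ^ 2 = 0 → z₁ = 0 ∧ z₂ = 0)
    (hab' : ∀ z₁ z₂ : F, z₁ ^ 2 + a' * z₁ * z₂ + b' * z₂ ^ 2 = 0 → z₁ = 0 ∧ z₂ = 0)
    (T : GL ((Fin m ⊕ Fin m) ⊕ Fin 2) F)
    (hT : ∀ v : (Fin m ⊕ Fin m) ⊕ Fin 2 → F, Cfsg.quadFormMinus m F a' b'
        ((T : Matrix ((Fin m ⊕ Fin m) ⊕ Fin 2) ((Fin m ⊕ Fin m) ⊕ Fin 2) F) *ᵥ v) =
      Cfsg.quadFormMinus m F a b v)
    (Ψ : MulAut (Cfsg.POmega F (Cfsg.quadFormMinus m F a b)) →*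
      MulAut (Cfsg.POmega F (Cfsg.quadFormMinus m F a' b')))
    (hΨ : ∀ (g : GL ((Fin m ⊕ Fin m) ⊕ Fin 2) F)
        (β : MulAut (Cfsg.POmega F (Cfsg.quadFormMinus m F a b))),
        Cfsg.IsInducedBySemilinearPOmega (Cfsg.quadFormMinus m F a b) g (RingEquiv.refl F) β →
        Cfsg.IsInducedBySemilinearPOmega (Cfsg.quadFormMinus m F a' b') (T * g * T⁻¹)
          (RingEquiv.refl F) (Ψ β))
    (β : MulAut (Cfsg.POmega F (Cfsg.quadFormMinus m F a b)))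
    (hβ : β ∈ Cfsg.inndiagPOmegaMinus m F a b) :
    Ψ β ∈ Cfsg.inndiagPOmegaMinus m F a' b' := by
  unfold Cfsg.inndiagPOmegaMinus Cfsg.autSubgroupOf at hβ ⊢
  induction hβ using Subgroup.closure_induction with
  | mem x hx =>
    obtain ⟨g, hg, hp, hi⟩ := hx
    have hstep := conj_sim_preserves h2 a b a' b' hab hab' T hT g hg hp
    exact Subgroup.subset_closure ⟨T * g * T⁻¹, hstep.1, hstep.2, hΨ g x hi⟩
  | one => rw [map_one]; exact one_mem _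
  | mul x y hx hy ihx ihy => rw [map_mul]; exact mul_mem ihx ihy
  | inv x hx ih => rw [map_inv]; exact inv_mem ih

end Cfsg.Agent.Lib.Helper12.MFTRANS
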