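import Mathlib
import Cfsg.Agent.Lib.Helper14.OSDefs

/-!
# S3421 piece OS-E: the centralizer of the involution of a cyclic subgroup of order `a`
-/

set_option autoImplicit false

namespace Cfsg.Agent.Lib.Helper14.OS

theorem ose_a_ge {G : Type*} [Group G] {q a b : ℕ} (H : Hyp G q a b) : 2 ≤ a := by
  have hb := H.hb
  rcases H.hdiff with h | h <;> omega

/-- elements of square one in a cyclic group of even order -/
theorem ose_invol {G : Type*} [Group G] {a : ℕ} (ha : Even a) (ha0 : a ≠ 0) (x : G)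
    (hx : orderOf x = a) (z : G) (hz : z ∈ Subgroup.zpowers x) (hz2 : z ^ 2 = 1) :
    z = 1 ∨ z = x ^ (a / 2) := by
  obtain ⟨k, rfl⟩ := Subgroup.mem_zpowers_iff.mp hz
  obtain ⟨a', rfl⟩ := ha
  have ha' : a' ≠ 0 := by omega
  have h2 : (a' + a') / 2 = a' := by omega
  rw [h2]
  have h3 : x ^ (k * 2) = 1 := by
    rw [zpow_mul, zpow_ofNat]
    exact hz2
  have h4 : ((orderOf x : ℕ) : ℤ) ∣ k * 2 := orderOf_dvd_iff_zpow_eq_one.mpr h3
  rw [hx] at h4
  have h5 : (a' : ℤ) ∣ k := by
    obtain ⟨c, hc⟩ := h4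
    refine ⟨c, ?_⟩
    push_cast at hc
    have h6 : k * 2 = ((a' : ℤ) * c) * 2 := by rw [hc]; ring
    exact mul_right_cancel₀ (two_ne_zero) h6
  obtain ⟨j, rfl⟩ := h5
  have ht2 : (x ^ a') ^ 2 = 1 := by
    rw [← pow_mul, mul_two, ← hx]
    exact pow_orderOf_eq_one x
  rw [zpow_mul, zpow_natCast]
  rcases Int.even_or_odd j with ⟨i, hi⟩ | ⟨i, hi⟩
  · left
    rw [hi, ← two_mul, zpow_mul, zpow_ofNat, ht2, one_zpow]
  · right
    rw [hi, zpow_add, zpow_mul, zpow_ofNat, ht2, one_zpow, one_mul, zpow_one]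

theorem ose_t_order {G : Type*} [Group G] {a : ℕ} (ha : Even a) (ha0 : a ≠ 0) (x : G)
    (hx : orderOf x = a) : orderOf (x ^ (a / 2)) = 2 := by
  obtain ⟨a', rfl⟩ := ha
  have ha' : a' ≠ 0 := by omega
  have h2 : (a' + a') / 2 = a' := by omega
  rw [h2, orderOf_pow_of_dvd ha' (by rw [hx]; exact ⟨2, by ring⟩), hx, ← two_mul,
    Nat.mul_div_cancel _ (Nat.pos_of_ne_zero ha')]

theorem ose_T_le {G : Type*} [Group G] (x y : G) (hy : y ∈ Subgroup.zpowers x) :
    Subgroup.zpowers x ≤ Subgroup.centralizer ({y} : Set G) := by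
  intro z hz
  obtain ⟨k, rfl⟩ := Subgroup.mem_zpowers_iff.mp hz
  obtain ⟨j, rfl⟩ := Subgroup.mem_zpowers_iff.mp hy
  rw [Subgroup.mem_centralizer_singleton_iff]
  exact (((Commute.refl x).zpow_left k).zpow_right j).eq

/-- a subgroup of index two is normalized -/
theorem ose_le_normalizer {G : Type*} [Group G] [Finite G] (T D : Subgroup G) (hTD : T ≤ D)
    (hcard : Nat.card D = 2 * Nat.card T) : D ≤ Subgroup.normalizer (T : Set G) := by
  rw [← Subgroup.normal_subgroupOf_iff_le_normalizer hTD]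
  apply Subgroup.normal_of_index_eq_two
  have h1 := Subgroup.card_mul_index (T.subgroupOf D)
  rw [Nat.card_congr (Subgroup.subgroupOfEquivOfLe hTD).toEquiv, hcard] at h1
  have hpos : 0 < Nat.card T := Nat.card_pos
  exact Nat.eq_of_mul_eq_mul_left hpos (by rw [h1, mul_comm])

/-- the centralizer of the involution is strictly larger than the cyclic group -/
theorem ose_cent_ne {G : Type*} [Group G] [Finite G] {q a b : ℕ} (H : Hyp G q a b)
    (x : G) (hx : orderOf x = a) :
    ¬ Subgroup.centralizer ({x ^ (a / 2)} : Set G) ≤ Subgroup.zpowers x := by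
  intro hle
  have ha2 := ose_a_ge H
  have ha0 : a ≠ 0 := by omega
  have ht : orderOf (x ^ (a / 2)) = 2 := ose_t_order H.ha ha0 x hx
  have ht1 : x ^ (a / 2) ≠ 1 := by
    intro h
    rw [h, orderOf_one] at ht
    omega
  have : Fact (Nat.Prime 2) := ⟨Nat.prime_two⟩
  have htp : IsPGroup 2 (Subgroup.zpowers (x ^ (a / 2))) := by
    apply IsPGroup.of_card (n := 1)
    rw [Nat.card_zpowers, ht, pow_one]
  obtain ⟨P, hP⟩ := htp.exists_le_sylow
  have htP : x ^ (a / 2) ∈ (P : Subgroup G) := hP (Subgroup.mem_zpowers _)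
  have hPT : ¬ (P : Subgroup G) ≤ Subgroup.zpowers x := by
    intro hPT
    have h1 : Nat.card (P : Subgroup G) ∣ a := by
      have := Subgroup.card_dvd_of_le hPT
      rwa [Nat.card_zpowers, hx] at this
    obtain ⟨m, hm⟩ := h1
    have h2 := Subgroup.card_mul_index (P : Subgroup G)
    rw [H.hcard] at h2
    have h3 : (P : Subgroup G).index = 2 * q * m * b := by
      apply Nat.eq_of_mul_eq_mul_left (Nat.card_pos (α := (P : Subgroup G)))
      rw [h2, hm]
      ring
    exact P.not_dvd_index (by rw [h3]; exact ⟨q * m * b, by ring⟩)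
  -- a central involution of `P`
  have hPne : Nontrivial (P : Subgroup G) :=
    ⟨⟨⟨x ^ (a / 2), htP⟩, 1, fun h => ht1 (congrArg Subtype.val h)⟩⟩
  have hZne : Nontrivial (Subgroup.center (P : Subgroup G)) := P.2.center_nontrivial
  obtain ⟨n, hn⟩ := IsPGroup.iff_card.mp (P.2.to_subgroup (Subgroup.center (P : Subgroup G)))
  have hn0 : n ≠ 0 := by
    rintro rfl
    rw [pow_zero] at hn
    have := Finite.one_lt_card (α := Subgroup.center (P : Subgroup G))
    omega
  have h2dvd : 2 ∣ Nat.card (Subgroup.center (P : Subgroup G)) := by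
    rw [hn]
    exact dvd_pow_self 2 hn0
  obtain ⟨z, hz⟩ := exists_prime_orderOf_dvd_card' 2 h2dvd
  have hzG : orderOf (((z : (P : Subgroup G)) : G)) = 2 := by
    rw [Subgroup.orderOf_coe, Subgroup.orderOf_coe, hz]
  have hzc : ∀ g ∈ (P : Subgroup G), g * ((z : (P : Subgroup G)) : G) =
      ((z : (P : Subgroup G)) : G) * g := by
    intro g hg
    have := Subgroup.mem_center_iff.mp z.2 ⟨g, hg⟩
    exact congrArg Subtype.val this
  have hzC : ((z : (P : Subgroup G)) : G) ∈ Subgroup.centralizer ({x ^ (a / 2)} : Set G) := by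
    rw [Subgroup.mem_centralizer_singleton_iff]
    exact (hzc _ htP).symm
  have hzT := hle hzC
  have hz2 : (((z : (P : Subgroup G)) : G)) ^ 2 = 1 := by
    have := pow_orderOf_eq_one (((z : (P : Subgroup G)) : G))
    rwa [hzG] at this
  rcases ose_invol H.ha ha0 x hx _ hzT hz2 with h | h
  · rw [h, orderOf_one] at hzG
    omega
  · apply hPT
    refine le_trans ?_ hle
    intro g hg
    rw [Subgroup.mem_centralizer_singleton_iff, ← h]
    exact hzc g hg

theorem Ct_card {G : Type*} [Group G] [Finite G] {q a b : ℕ} (H : Hyp G q a b)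
    (hca : ∀ y : G, y ≠ 1 → orderOf y ∣ a →
      Nat.card (Subgroup.centralizer ({y} : Set G)) ∣ 2 * a)
    (x : G) (hx : orderOf x = a) :
    orderOf (x ^ (a / 2)) = 2 ∧
    Nat.card (Subgroup.centralizer ({x ^ (a / 2)} : Set G)) = 2 * a ∧
    Subgroup.normalizer ((Subgroup.zpowers x : Subgroup G) : Set G)
      = Subgroup.centralizer ({x ^ (a / 2)} : Set G) := by
  have ha2 := ose_a_ge H
  have ha0 : a ≠ 0 := by omega
  have ht : orderOf (x ^ (a / 2)) = 2 := ose_t_order H.ha ha0 x hx
  have ht1 : x ^ (a / 2) ≠ 1 := by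
    intro h
    rw [h, orderOf_one] at ht
    omega
  have ht2 : (x ^ (a / 2)) ^ 2 = 1 := by
    have := pow_orderOf_eq_one (x ^ (a / 2))
    rwa [ht] at this
  have htT : x ^ (a / 2) ∈ Subgroup.zpowers x := Subgroup.pow_mem _ (Subgroup.mem_zpowers x) _
  have hTC : Subgroup.zpowers x ≤ Subgroup.centralizer ({x ^ (a / 2)} : Set G) :=
    ose_T_le x _ htT
  have hcardT : Nat.card (Subgroup.zpowers x) = a := by rw [Nat.card_zpowers, hx]
  have hdvd : Nat.card (Subgroup.centralizer ({x ^ (a / 2)} : Set G)) ∣ 2 * a :=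
    hca _ ht1 (by rw [ht]; exact H.ha.two_dvd)
  have hadvd : a ∣ Nat.card (Subgroup.centralizer ({x ^ (a / 2)} : Set G)) := by
    have h0 := Subgroup.card_dvd_of_le hTC
    rwa [hcardT] at h0
  have hne := ose_cent_ne H x hx
  have hcard : Nat.card (Subgroup.centralizer ({x ^ (a / 2)} : Set G)) = 2 * a := by
    obtain ⟨k, hk⟩ := hadvd
    have hk2 : k ∣ 2 := by
      rw [hk, mul_comm 2 a] at hdvd
      exact (Nat.mul_dvd_mul_iff_left (by omega)).mp hdvd
    have hk12 : k = 1 ∨ k = 2 := by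
      have hle := Nat.le_of_dvd (by norm_num) hk2
      interval_cases k
      · simp at hk2
      · left; rfl
      · right; rfl
    rcases hk12 with rfl | rfl
    · exfalso
      apply hne
      have heq : Subgroup.zpowers x = Subgroup.centralizer ({x ^ (a / 2)} : Set G) :=
        Subgroup.eq_of_le_of_card_ge hTC (le_of_eq (by rw [hk, hcardT, mul_one]))
      rw [← heq]
    · rw [hk, mul_comm]
  refine ⟨ht, hcard, ?_⟩
  apply le_antisymm
  · intro g hg
    have h1 : g * x ^ (a / 2) * g⁻¹ ∈ Subgroup.zpowers x :=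
      (Subgroup.mem_normalizer_iff.mp hg _).mp htT
    have h2 : (g * x ^ (a / 2) * g⁻¹) ^ 2 = 1 := by
      rw [conj_pow, ht2]
      group
    rcases ose_invol H.ha ha0 x hx _ h1 h2 with h3 | h3
    · exfalso
      apply ht1
      have e : x ^ (a / 2) = g⁻¹ * (g * x ^ (a / 2) * g⁻¹) * g := by group
      rw [e, h3]
      group
    · rw [Subgroup.mem_centralizer_singleton_iff]
      have e : g * x ^ (a / 2) = (g * x ^ (a / 2) * g⁻¹) * g := by group
      rw [e, h3]
  · exact ose_le_normalizer _ _ hTC (by rw [hcard, hcardT])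

theorem Te_cent {G : Type*} [Group G] [Finite G] {q a b : ℕ} (H : Hyp G q a b)
    (hca : ∀ y : G, y ≠ 1 → orderOf y ∣ a →
      Nat.card (Subgroup.centralizer ({y} : Set G)) ∣ 2 * a)
    (x : G) (hx : orderOf x = a) (y : G) (hy : y ∈ Subgroup.zpowers x) (hy1 : y ≠ 1) :
    ((∃ c ∈ Subgroup.centralizer ({x ^ (a / 2)} : Set G), c * y ≠ y * c) →
      Subgroup.centralizer ({y} : Set G) = Subgroup.zpowers x) ∧
    ((∀ c ∈ Subgroup.centralizer ({x ^ (a / 2)} : Set G), c * y = y * c) →
      Subgroup.centralizer ({y} : Set G) = Subgroup.centralizer ({x ^ (a / 2)} : Set G)) := by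
  obtain ⟨ht, hcard, hN⟩ := Ct_card H hca x hx
  have ha2 := ose_a_ge H
  have hcardT : Nat.card (Subgroup.zpowers x) = a := by rw [Nat.card_zpowers, hx]
  have hya : orderOf y ∣ a := by
    rw [← hx]
    exact orderOf_dvd_of_mem_zpowers hy
  have hdvd := hca y hy1 hya
  have hTCy : Subgroup.zpowers x ≤ Subgroup.centralizer ({y} : Set G) := ose_T_le x y hy
  constructor
  · rintro ⟨c, hc, hcy⟩
    have hadvd : a ∣ Nat.card (Subgroup.centralizer ({y} : Set G)) := by
      have h0 := Subgroup.card_dvd_of_le hTCy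
      rwa [hcardT] at h0
    obtain ⟨k, hk⟩ := hadvd
    have hk2 : k ∣ 2 := by
      rw [hk, mul_comm 2 a] at hdvd
      exact (Nat.mul_dvd_mul_iff_left (by omega)).mp hdvd
    have hk12 : k = 1 ∨ k = 2 := by
      have hle := Nat.le_of_dvd (by norm_num) hk2
      interval_cases k
      · simp at hk2
      · left; rfl
      · right; rfl
    rcases hk12 with rfl | rfl
    · exact (Subgroup.eq_of_le_of_card_ge hTCy (le_of_eq (by rw [hk, hcardT, mul_one]))).symm
    · exfalso
      have hle : Subgroup.centralizer ({y} : Set G) ≤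
          Subgroup.normalizer ((Subgroup.zpowers x : Subgroup G) : Set G) :=
        ose_le_normalizer _ _ hTCy (by rw [hk, hcardT, mul_comm])
      rw [hN] at hle
      have heq : Subgroup.centralizer ({y} : Set G) =
          Subgroup.centralizer ({x ^ (a / 2)} : Set G) :=
        Subgroup.eq_of_le_of_card_ge hle (le_of_eq (by rw [hcard, hk, mul_comm]))
      have hcm : c ∈ Subgroup.centralizer ({y} : Set G) := by rw [heq]; exact hc
      exact hcy (Subgroup.mem_centralizer_singleton_iff.mp hcm)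
  · intro hall
    have hle : Subgroup.centralizer ({x ^ (a / 2)} : Set G) ≤
        Subgroup.centralizer ({y} : Set G) := by
      intro c hc
      exact Subgroup.mem_centralizer_singleton_iff.mpr (hall c hc)
    refine (Subgroup.eq_of_le_of_card_ge hle ?_).symm
    rw [hcard]
    exact Nat.le_of_dvd (by omega) hdvd

end Cfsg.Agent.Lib.Helper14.OS
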