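import Mathlib
import Cfsg.Agent.Lib.Helper98.H74Defs

/-!
Project PE (S5988, helper96): piece AR88F (`ar88_even_fwd`), pure arithmetic on
`ModelH 1 (-1) i d m` for even `i ≤ m`.
-/

set_option autoImplicit false
set_option linter.unusedSectionVars false
set_option linter.unusedVariables false

namespace Cfsg.Agent.Lib.Helper12.Pe

universe u

open Cfsg.Agent.Lib.Helper47 Cfsg.Agent.Lib.Helper98.T73 Cfsg.Agent.Lib.Helper98.H74 Module

-- PIECE AR88F
theorem ar88_even_fwd (i d m : ℕ) (hi : 1 ≤ i) (heven : Even i) (hd : 4 ≤ d) (hm : 2 ≤ m)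
    (hme : Even m) (hmd : m < d) (him : i ≤ m) (hM : ModelH 1 (-1) i d m) :
    (((2 * d) % i = 0 ∧ (Odd ((2 * d) / i) ∨ (m % i = 0 ∧ Odd (m / i)))) ∨
      (i ≤ m ∧ ((0 < m % i ∧ m % i < (2 * d) % i) ∨
        (0 < m % i ∧ m % i = (2 * d) % i ∧ Odd ((2 * d + m - 2 * ((2 * d) % i)) / i)) ∨
        (m % i = 0 ∧ 0 < (2 * d) % i ∧ Odd (m / i))))) := by
  have hipos : 0 < i := hi
  have hD := Nat.div_add_mod (2 * d) i
  have hρ := Nat.mod_lt (2 * d) hipos
  have ha1 : 1 ≤ 2 * d / i := Nat.div_pos (by omega) hipos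
  have hsgn : ∀ x : ℕ, sgn i x = (-1) ^ x := fun x => by
    unfold sgn
    rw [if_pos heven]
  obtain ⟨a, ha⟩ : ∃ a, 2 * d / i = a := ⟨_, rfl⟩
  obtain ⟨ρ, hr⟩ : ∃ ρ, 2 * d % i = ρ := ⟨_, rfl⟩
  obtain ⟨b, hb⟩ : ∃ b, m / i = b := ⟨_, rfl⟩
  obtain ⟨μ, hu⟩ : ∃ μ, m % i = μ := ⟨_, rfl⟩
  rw [ha, hr] at hD
  rw [hr] at hρ
  rw [ha] at ha1
  rw [ha, hr, hb, hu]
  by_cases hρ0 : ρ = 0
  · by_cases hao : Odd a
    · exact Or.inl ⟨hρ0, Or.inl hao⟩
    · have hae : Even a := Nat.not_odd_iff_even.mp hao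
      have hvalid : Valid 1 i d a :=
        ⟨ha1, by omega, fun ho => absurd heven (Nat.not_even_iff_odd.mpr ho),
          fun _ => by rw [hsgn, hae.neg_one_pow]⟩
      obtain ⟨j, w, hj, -, hmjw, hw, hw0, -⟩ := hM a hvalid
      have hw00 : w = 0 := by omega
      have hjo : Odd j := by
        have h1 := hw0 hw00
        rw [hsgn] at h1
        rcases Nat.even_or_odd j with hje | hjo
        · rw [hje.neg_one_pow] at h1
          norm_num at h1
        · exact hjo
      have hjb : j = b := by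
        rw [← hb, hmjw, hw00, add_zero, Nat.mul_div_cancel_left j hipos]
      have hμ0 : μ = 0 := by
        rw [← hu, hmjw, hw00, add_zero, Nat.mul_mod_right]
      exact Or.inl ⟨hρ0, Or.inr ⟨hμ0, hjb ▸ hjo⟩⟩
  · have hvalid : Valid 1 i d a :=
      ⟨ha1, by omega, fun ho => absurd heven (Nat.not_even_iff_odd.mpr ho),
        fun h2 => by omega⟩
    obtain ⟨j, w, hj, -, hmjw, hw, hw0, hwpos⟩ := hM a hvalid
    have hwρ : w ≤ ρ := by omega
    have hwi : w < i := by omega
    have hjb : j = b := by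
      rw [← hb, hmjw, Nat.mul_add_div hipos, Nat.div_eq_of_lt hwi, add_zero]
    have hwμ : w = μ := by
      rw [← hu, hmjw, Nat.mul_add_mod, Nat.mod_eq_of_lt hwi]
    subst hjb
    subst hwμ
    right
    refine ⟨him, ?_⟩
    by_cases hμ0 : w = 0
    · right
      right
      refine ⟨hμ0, by omega, ?_⟩
      have h1 := hw0 hμ0
      rw [hsgn] at h1
      rcases Nat.even_or_odd j with hje | hjo
      · rw [hje.neg_one_pow] at h1
        norm_num at h1
      · exact hjo
    · by_cases hlt : w < ρ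
      · left
        exact ⟨by omega, hlt⟩
      · right
        left
        have heq : w = ρ := by omega
        refine ⟨by omega, heq, ?_⟩
        have h1 := hwpos (by omega) (by omega)
        rw [hsgn, hsgn] at h1
        have hsum : (2 * d + m - 2 * ρ) / i = a + j := by
          have h3 : 2 * d + m - 2 * ρ = i * (a + j) := by
            rw [mul_add]
            omega
          rw [h3, Nat.mul_div_cancel_left _ hipos]
        rw [hsum]
        rcases Nat.even_or_odd a with hae | hao <;> rcases Nat.even_or_odd j with hje | hjo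
        · rw [hae.neg_one_pow, hje.neg_one_pow] at h1
          norm_num at h1
        · exact hae.add_odd hjo
        · exact hao.add_even hje
        · rw [hao.neg_one_pow, hjo.neg_one_pow] at h1
          norm_num at h1

end Cfsg.Agent.Lib.Helper12.Pe
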