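import Mathlib
import Cfsg.Prelude.Def_RootSubgroups
import Cfsg.Agent.Lib.Helper5.BaerSuzuki

set_option autoImplicit false

namespace Cfsg.Agent.Lib.Helper12.RootInv

open Cfsg

variable {G : Type*} [Group G]

theorem ri_sq {D : Set G} (hD : IsRootInvolutionSet D) {d : G} (hd : d ∈ D) : d * d = 1 := by
  have h := hD.orderOf_eq d hd
  have h2 : d ^ 2 = 1 := by rw [← h]; exact pow_orderOf_eq_one d
  rwa [pow_two] at h2

theorem ri_inv {D : Set G} (hD : IsRootInvolutionSet D) {d : G} (hd : d ∈ D) : d⁻¹ = d :=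
  inv_eq_of_mul_eq_one_left (ri_sq hD hd)

theorem ri_ne_one {D : Set G} (hD : IsRootInvolutionSet D) {d : G} (hd : d ∈ D) : d ≠ 1 := by
  rintro rfl
  have h := hD.orderOf_eq 1 hd
  simp at h

theorem orderOf_mul_swap (a b : G) : orderOf (b * a) = orderOf (a * b) := by
  have h : b * a = MulAut.conj a⁻¹ (a * b) := by simp
  rw [h, MulEquiv.orderOf_eq]

theorem orderOf_conj_eq (g a : G) : orderOf (g * a * g⁻¹) = orderOf a := by
  have h : g * a * g⁻¹ = MulAut.conj g a := by simp [MulAut.conj_apply]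
  rw [h, MulEquiv.orderOf_eq]

theorem oddAdj_symm {D : Set G} {a b : G} (h : OddAdj D a b) : OddAdj D b a :=
  ⟨h.2.1, h.1, fun e => h.2.2.1 e.symm, by rw [orderOf_mul_swap]; exact h.2.2.2⟩

theorem oddAdj_conj {D : Set G} (hD : IsRootInvolutionSet D) {a b : G} (h : OddAdj D a b) (g : G) :
    OddAdj D (g * a * g⁻¹) (g * b * g⁻¹) := by
  refine ⟨hD.conj_mem a h.1 g, hD.conj_mem b h.2.1 g, fun e => h.2.2.1 ?_, ?_⟩
  · have := congrArg (fun x => g⁻¹ * x * g) e
    simpa [mul_assoc] using this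
  · have : g * a * g⁻¹ * (g * b * g⁻¹) = g * (a * b) * g⁻¹ := by simp [mul_assoc]
    rw [this, orderOf_conj_eq]; exact h.2.2.2

theorem rtg_symm {D : Set G} {a b : G} (h : Relation.ReflTransGen (OddAdj D) a b) :
    Relation.ReflTransGen (OddAdj D) b a := by
  induction h with
  | refl => exact Relation.ReflTransGen.refl
  | tail _ hbc ih => exact Relation.ReflTransGen.head (oddAdj_symm hbc) ih

theorem comp_eq_of_rtg {D : Set G} {a b : G} (h : Relation.ReflTransGen (OddAdj D) a b) :
    elemComponentOf (OddAdj D) D a = elemComponentOf (OddAdj D) D b := by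
  ext x
  constructor
  · rintro ⟨hx, hax⟩
    exact ⟨hx, (rtg_symm h).trans hax⟩
  · rintro ⟨hx, hbx⟩
    exact ⟨hx, h.trans hbx⟩

/-- pure group theory: an involution `f` with `(y f)^m = 1 = y^m`, `m` odd, and `(y f y)^2 = 1` forces `y = 1`. -/
theorem aux_inv {y f : G} {m : ℕ} (hm : Odd m) (hy : y ^ m = 1) (hf : f * f = 1)
    (hyf : (y * f) ^ m = 1) (hz : (y * f * y) * (y * f * y) = 1) : y = 1 := by
  have h1 : f * (y * y) * f = (y * y)⁻¹ := by
    have h : f * (y * y) * f = y⁻¹ * ((y * f * y) * (y * f * y)) * y⁻¹ := by group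
    rw [h, hz]; group
  have h2 : ∀ j : ℕ, f * (y * y) ^ j * f = ((y * y) ^ j)⁻¹ := by
    intro j
    induction j with
    | zero => simp [hf]
    | succ j ih =>
      have h : f * (y * y) ^ (j + 1) * f = (f * (y * y) ^ j * f) * (f * (y * y) * f) := by
        have e1 : (f * (y * y) ^ j * f) * (f * (y * y) * f) = f * (y * y) ^ j * (f * f) * (y * y) * f := by
          simp only [mul_assoc]
        rw [e1, hf, mul_one, pow_succ]
        simp only [mul_assoc]
      rw [h, ih, h1, ← mul_inv_rev, ← pow_succ']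
  obtain ⟨k, rfl⟩ := hm
  have h3 : (y * y) ^ (k + 1) = y := by
    rw [← pow_two, ← pow_mul]
    have e : 2 * (k + 1) = (2 * k + 1) + 1 := by ring
    rw [e, pow_succ, hy, one_mul]
  have h4 : f * y * f = y⁻¹ := by
    have h := h2 (k + 1)
    rwa [h3] at h
  have h5 : (y * f) ^ 2 = 1 := by
    rw [pow_two]
    have e : y * f * (y * f) = y * (f * y * f) := by simp only [mul_assoc]
    rw [e, h4, mul_inv_cancel]
  have h6 : y * f = 1 := by
    have d1 : orderOf (y * f) ∣ 2 := orderOf_dvd_of_pow_eq_one h5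
    have d2 : orderOf (y * f) ∣ 2 * k + 1 := orderOf_dvd_of_pow_eq_one hyf
    have d3 : orderOf (y * f) ∣ 1 := by
      have h := (Nat.dvd_add_right (Dvd.dvd.mul_right d1 k)).mp d2
      exact h
    exact orderOf_eq_one_iff.mp (Nat.dvd_one.mp d3)
  have h7 : y = f⁻¹ := eq_inv_of_mul_eq_one_left h6
  have h8 : y * y = 1 := by rw [h7, ← mul_inv_rev, hf, inv_one]
  rw [← h3, h8, one_pow]

/-- pure group theory: `a` an involution, `y` of odd order, `[y,a]` of order at most 2, `(a y)^4 = 1` forces `y = 1`. -/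
theorem aux_inv2 {a y : G} {m : ℕ} (hm : Odd m) (hy : y ^ m = 1) (ha : a * a = 1)
    (hf : (y⁻¹ * (a * y * a)) * (y⁻¹ * (a * y * a)) = 1) (h4 : (a * y) ^ 4 = 1) : y = 1 := by
  have hainv : a⁻¹ = a := inv_eq_of_mul_eq_one_left ha
  apply aux_inv hm hy hf
  · have e : y * (y⁻¹ * (a * y * a)) = a * y * a⁻¹ := by rw [hainv]; group
    rw [e, conj_pow, hy, mul_one, mul_inv_cancel]
  · have e : y * (y⁻¹ * (a * y * a)) * y * (y * (y⁻¹ * (a * y * a)) * y) = (a * y) ^ 4 := by
      simp only [pow_succ, pow_zero, one_mul, mul_assoc, mul_inv_cancel_left]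
    rw [e, h4]

/-- Key lemma on a four-group `{1, a, c, ac}` of root involutions and a further root involution `e`:
if `c e` has odd order (`c ≠ e`) and `a e` does not have odd order, then `(a c) e` has odd order. -/
theorem key_lemma {D : Set G} (hD : IsRootInvolutionSet D) {a c e : G} (ha : a ∈ D) (hc : c ∈ D) (he : e ∈ D)
    (hac : a * c = c * a) (hacD : a * c ∈ D) (hce : Odd (orderOf (c * e))) (hne : c ≠ e)
    (hae : ¬ Odd (orderOf (a * e))) : OddAdj D (a * c) e := by
  have ha2 := ri_sq hD ha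
  have hc2 := ri_sq hD hc
  have he2 := ri_sq hD he
  have hainv := ri_inv hD ha
  have hcinv := ri_inv hD hc
  have heinv := ri_inv hD he
  have hy1 : c * e ≠ 1 := by
    intro h
    apply hne
    have h' : c = e⁻¹ := eq_inv_of_mul_eq_one_left h
    rw [h', heinv]
  have hace : a * c ≠ e := by
    intro h
    have h' : c * e = a := by
      rw [← h, ← mul_assoc, ← hac, mul_assoc, hc2, mul_one]
    rw [h', hD.orderOf_eq a ha] at hce
    exact absurd hce (by decide)
  refine ⟨hacD, he, hace, ?_⟩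
  -- (a e)^4 = 1
  have hae4 : (a * e) ^ 4 = 1 := by
    rcases hD.pair a ha e he with h | h | ⟨h, -⟩
    · have : (a * e) ^ 2 = 1 := by
        rw [pow_two]
        calc a * e * (a * e) = a * (e * a) * e := by simp only [mul_assoc]
          _ = a * (a * e) * e := by rw [h]
          _ = (a * a) * (e * e) := by simp only [mul_assoc]
          _ = 1 := by rw [ha2, he2, mul_one]
      calc (a * e) ^ 4 = ((a * e) ^ 2) ^ 2 := by rw [← pow_mul]
        _ = 1 := by rw [this, one_pow]
    · exact absurd h hae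
    · rw [← h]; exact pow_orderOf_eq_one _
  by_contra hodd
  have h4 : (a * (c * e)) ^ 4 = 1 := by
    rw [← mul_assoc]
    rcases hD.pair (a * c) hacD e he with h | h | ⟨h, -⟩
    · have : (a * c * e) ^ 2 = 1 := by
        rw [pow_two]
        calc a * c * e * (a * c * e) = (a * c) * (e * (a * c)) * e := by simp only [mul_assoc]
          _ = (a * c) * ((a * c) * e) * e := by rw [h]
          _ = ((a * c) * (a * c)) * (e * e) := by simp only [mul_assoc]
          _ = 1 := by rw [ri_sq hD hacD, he2, mul_one]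
      calc (a * c * e) ^ 4 = ((a * c * e) ^ 2) ^ 2 := by rw [← pow_mul]
        _ = 1 := by rw [this, one_pow]
    · exact absurd h hodd
    · rw [← h]; exact pow_orderOf_eq_one _
  have hf : ((c * e)⁻¹ * (a * (c * e) * a)) * ((c * e)⁻¹ * (a * (c * e) * a)) = 1 := by
    have e1 : (c * e)⁻¹ * (a * (c * e) * a) = e * a * e * a := by
      calc (c * e)⁻¹ * (a * (c * e) * a) = e⁻¹ * c⁻¹ * ((a * c) * e * a) := by simp only [mul_inv_rev, mul_assoc]
        _ = e⁻¹ * c⁻¹ * ((c * a) * e * a) := by rw [hac]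
        _ = e * a * e * a := by rw [heinv]; simp only [mul_assoc, inv_mul_cancel_left]
    rw [e1]
    have e2 : e * a * e * a * (e * a * e * a) = e * (a * e) ^ 4 * e⁻¹ := by
      rw [heinv]
      simp only [pow_succ, pow_zero, one_mul, mul_assoc]
      rw [he2, mul_one]
    rw [e2, hae4, mul_one, mul_inv_cancel]
  exact hy1 (aux_inv2 hce (pow_orderOf_eq_one _) ha2 hf h4)

/-- Two commuting root involutions with product a root involution, both non-isolated in the odd graph, lie in the
same component. -/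
theorem partner_connected {D : Set G} (hD : IsRootInvolutionSet D) {a c a' e : G} (ha : a ∈ D) (hc : c ∈ D)
    (hac : a * c = c * a) (hacD : a * c ∈ D) (haa' : OddAdj D a a') (hce : OddAdj D c e) :
    Relation.ReflTransGen (OddAdj D) a c := by
  by_cases h1 : Odd (orderOf (a * e))
  · by_cases h2 : a = e
    · subst h2
      exact Relation.ReflTransGen.single (oddAdj_symm hce)
    · exact Relation.ReflTransGen.head ⟨ha, hce.2.1, h2, h1⟩ (Relation.ReflTransGen.single (oddAdj_symm hce))
  · have k1 : OddAdj D (a * c) e := key_lemma hD ha hc hce.2.1 hac hacD hce.2.2.2 hce.2.2.1 h1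
    by_cases h3 : Odd (orderOf (c * a'))
    · by_cases h4 : c = a'
      · subst h4
        exact Relation.ReflTransGen.single haa'
      · exact Relation.ReflTransGen.head haa' (Relation.ReflTransGen.single (oddAdj_symm ⟨hc, haa'.2.1, h4, h3⟩))
    · have k2 : OddAdj D (c * a) a' :=
        key_lemma hD hc ha haa'.2.1 hac.symm (hac ▸ hacD) haa'.2.2.2 haa'.2.2.1 h3
      rw [← hac] at k2
      exact Relation.ReflTransGen.head haa' (Relation.ReflTransGen.head (oddAdj_symm k2)
        (Relation.ReflTransGen.head k1 (Relation.ReflTransGen.single (oddAdj_symm hce))))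

theorem pow4_of_comm {D : Set G} (hD : IsRootInvolutionSet D) {a b : G} (ha : a ∈ D) (hb : b ∈ D)
    (h : a * b = b * a) : (a * b) ^ 4 = 1 := by
  have h2 : (a * b) ^ 2 = 1 := by
    rw [pow_two]
    calc a * b * (a * b) = a * (b * a) * b := by simp only [mul_assoc]
      _ = a * (a * b) * b := by rw [h]
      _ = (a * a) * (b * b) := by simp only [mul_assoc]
      _ = 1 := by rw [ri_sq hD ha, ri_sq hD hb, mul_one]
  calc (a * b) ^ 4 = ((a * b) ^ 2) ^ 2 := by rw [← pow_mul]
    _ = 1 := by rw [h2, one_pow]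

theorem isolated_conj {D : Set G} (hD : IsRootInvolutionSet D) {w : G}
    (hw : IsIsolatedElem (OddAdj D) D w) (g : G) : IsIsolatedElem (OddAdj D) D (g * w * g⁻¹) := by
  have e : g⁻¹ * (g * w * g⁻¹) * g⁻¹⁻¹ = w := by group
  refine ⟨hD.conj_mem w hw.1 g, fun b => ⟨fun h => ?_, fun h => ?_⟩⟩
  · have h' := oddAdj_conj hD h g⁻¹
    rw [e] at h'
    exact (hw.2 _).1 h'
  · have h' := oddAdj_conj hD h g⁻¹
    rw [e] at h'
    exact (hw.2 _).2 h'

theorem closure_normal_of_conj {W : Set G} (h : ∀ w ∈ W, ∀ g : G, g * w * g⁻¹ ∈ W) :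
    (Subgroup.closure W).Normal := by
  constructor
  intro n hn g
  refine Subgroup.closure_induction (p := fun x _ => g * x * g⁻¹ ∈ Subgroup.closure W) ?_ ?_ ?_ ?_ hn
  · intro x hx
    exact Subgroup.subset_closure (h x hx g)
  · simp
  · intro x y _ _ hx hy
    have e : g * (x * y) * g⁻¹ = (g * x * g⁻¹) * (g * y * g⁻¹) := by group
    rw [e]; exact mul_mem hx hy
  · intro x _ hx
    have e : g * x⁻¹ * g⁻¹ = (g * x * g⁻¹)⁻¹ := by group
    rw [e]; exact inv_mem hx

theorem pair_isPGroup {D : Set G} (hD : IsRootInvolutionSet D) {w w' : G} (hw : w ∈ D) (hw' : w' ∈ D)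
    (h4 : (w * w') ^ 4 = 1) : IsPGroup 2 (Subgroup.closure ({w, w'} : Set G)) := by
  have hZ : IsPGroup 2 (Subgroup.zpowers (w * w')) := by
    apply IsPGroup.of_card_dvd_pow (n := 2)
    rw [Nat.card_zpowers]; exact orderOf_dvd_of_pow_eq_one h4
  have hA : IsPGroup 2 (Subgroup.zpowers w) := by
    apply IsPGroup.of_card (n := 1)
    rw [Nat.card_zpowers, hD.orderOf_eq w hw, pow_one]
  have hN : Subgroup.zpowers w ≤ Subgroup.normalizer (Subgroup.zpowers (w * w') : Set G) := by
    rw [Subgroup.zpowers_le, Subgroup.mem_normalizer_iff_map_conj_eq, MonoidHom.map_zpowers]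
    have e : ((MulAut.conj w : G ≃* G) : G →* G) (w * w') = (w * w')⁻¹ := by
      simp only [MonoidHom.coe_coe, MulAut.conj_apply, mul_inv_rev, ri_inv hD hw, ri_inv hD hw']
      rw [← mul_assoc w w w', ri_sq hD hw, one_mul]
    rw [e, Subgroup.zpowers_inv]
  have h := hA.to_sup_of_normal_right' hZ hN
  apply h.to_le
  rw [Subgroup.closure_le]
  rintro x (rfl | rfl)
  · exact Subgroup.mem_sup_left (Subgroup.mem_zpowers _)
  · have e : x = w⁻¹ * (w * x) := by group
    have hm : w⁻¹ * (w * x) ∈ Subgroup.zpowers w ⊔ Subgroup.zpowers (w * x) :=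
      mul_mem (Subgroup.mem_sup_left (inv_mem (Subgroup.mem_zpowers _)))
        (Subgroup.mem_sup_right (Subgroup.mem_zpowers _))
    rw [← e] at hm
    exact hm

theorem isolated_pair_pow {D : Set G} (hD : IsRootInvolutionSet D) {w w' : G}
    (hw : IsIsolatedElem (OddAdj D) D w) (hw' : w' ∈ D) : (w * w') ^ 4 = 1 := by
  by_cases e : w = w'
  · subst e; rw [ri_sq hD hw.1, one_pow]
  rcases hD.pair w hw.1 w' hw' with h | h | ⟨h, -⟩
  · exact pow4_of_comm hD hw.1 hw' h
  · exact absurd ⟨hw.1, hw', e, h⟩ (hw.2 w').1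
  · rw [← h]; exact pow_orderOf_eq_one _

theorem closure_isolated_isPGroup [Finite G] {D : Set G} (hD : IsRootInvolutionSet D) :
    IsPGroup 2 (Subgroup.closure {w | IsIsolatedElem (OddAdj D) D w}) := by
  have : Fact (Nat.Prime 2) := ⟨Nat.prime_two⟩
  obtain ⟨N, -, hNp, hKN⟩ := Cfsg.Agent.Lib.Helper5.baer_suzuki_set (p := 2)
    {w | IsIsolatedElem (OddAdj D) D w}
    (fun x hx g => isolated_conj hD hx g)
    (fun x hx y hy => pair_isPGroup hD hx.1 hy.1 (isolated_pair_pow hD hx hy.1))
  exact hNp.to_le ((Subgroup.closure_le N).mpr hKN)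

/-- A root involution lying in a normal 2-subgroup is isolated in the odd graph. -/
theorem isolated_of_mem_normal_two {D : Set G} (hD : IsRootInvolutionSet D) {N : Subgroup G} (hN : N.Normal)
    (hN2 : IsPGroup 2 N) {d : G} (hd : d ∈ D) (hdN : d ∈ N) : IsIsolatedElem (OddAdj D) D d := by
  have key : ∀ b, ¬ OddAdj D d b := by
    intro b hb
    have hbinv := ri_inv hD hb.2.1
    have hmem : (d * b) ^ 2 ∈ N := by
      have e : (d * b) ^ 2 = d * (b * d * b⁻¹) := by rw [pow_two, hbinv]; simp only [mul_assoc]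
      rw [e]
      exact mul_mem hdN (hN.conj_mem d hdN b)
    obtain ⟨k, hk⟩ := hN2 ⟨(d * b) ^ 2, hmem⟩
    have hk' : ((d * b) ^ 2) ^ (2 ^ k) = 1 := by
      have := congrArg Subtype.val hk
      simpa using this
    have hdvd : orderOf (d * b) ∣ 2 ^ (k + 1) := by
      apply orderOf_dvd_of_pow_eq_one
      rw [pow_succ', pow_mul]; exact hk'
    have hcop : (orderOf (d * b)).Coprime (2 ^ (k + 1)) :=
      Nat.Coprime.pow_right _ (Nat.coprime_two_right.mpr hb.2.2.2)
    have h1 : orderOf (d * b) = 1 := Nat.Coprime.eq_one_of_dvd hcop hdvd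
    have h2 : d * b = 1 := orderOf_eq_one_iff.mp h1
    apply hb.2.2.1
    have h3 : d = b⁻¹ := eq_inv_of_mul_eq_one_left h2
    rw [h3, hbinv]
  exact ⟨hd, fun b => ⟨key b, fun h => key b (oddAdj_symm h)⟩⟩

end Cfsg.Agent.Lib.Helper12.RootInv
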