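import Mathlib
import Cfsg.Agent.Lib.Helper72.S3Defs

/-!
# S4305 piece KNZ: `R0 H R t ≠ ⊥`

Reg6 applied to the module `↥R` with acting group the image of `H` in `MulAut ↥R`, followed by a
`q`-group fixed point argument.
-/

set_option autoImplicit false

namespace Cfsg.Agent.Lib.Helper12.S3F

open Cfsg.Agent.Lib.Helper72.S3F

universe u

/-- The commutative group structure on an elementwise-commuting subgroup. -/
@[reducible] def knzCommGroup {Γ : Type u} [Group Γ] (R : Subgroup Γ)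
    (h : ∀ x ∈ R, ∀ y ∈ R, x * y = y * x) : CommGroup ↥R :=
  { (inferInstance : Group ↥R) with
    mul_comm := fun a b => Subtype.ext (h a a.2 b b.2) }

/-- Consequence of the regular-orbit decomposition when both fixed-point groups vanish. -/
theorem knz_reg6_pow (h6 : Reg6Stmt.{u}) {M : Type u} [CommGroup M] [Finite M]
    (φ τ : MulAut M) (Hb : Subgroup (MulAut M))
    (hS : S3 φ τ) (hfpf : ∀ v : M, φ v = v → τ v = v → v = 1) (hc : Comm Hb)
    (hφ : ∀ x ∈ Hb, φ * x * φ⁻¹ ∈ Hb) (hτ : ∀ x ∈ Hb, τ * x * τ⁻¹ ∈ Hb)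
    (h1 : ∀ a ∈ fix (cm Hb φ), a = 1) (h2 : ∀ w ∈ fix (cm Hb τ), w = 1) (v : M) :
    v ^ Nat.card Hb = 1 := by
  obtain ⟨a, ha, w₀, hw₀, w₁, hw₁, w₂, hw₂, e⟩ := h6 M φ τ Hb hS hfpf hc hφ hτ v
  rw [e, h1 a ha, h2 w₀ hw₀, h2 w₁ hw₁, h2 w₂ hw₂]
  simp

theorem knz_mem_normalizer {V : Type u} [CommGroup V] [Finite V] {R : Subgroup (MulAut V)}
    {g : MulAut V} (h : ∀ x ∈ R, g * x * g⁻¹ ∈ R) :
    g ∈ Subgroup.normalizer (R : Set (MulAut V)) :=
  Subgroup.mem_normalizer_fintype h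

theorem knz (hf1 : F1Stmt.{u}) (h6 : Reg6Stmt.{u}) : KnzStmt.{u} := by
  intro V _ _ H R f t hA hM hfR hR0
  have hHN : H ≤ Subgroup.normalizer (R : Set (MulAut V)) :=
    fun x hx => knz_mem_normalizer (hM.nH x hx)
  have hfN : f ∈ Subgroup.normalizer (R : Set (MulAut V)) := knz_mem_normalizer hM.fR
  have htN : t ∈ Subgroup.normalizer (R : Set (MulAut V)) := knz_mem_normalizer hM.tR
  -- the conjugation homomorphism `N(R) → Aut R`
  obtain ⟨ρ, hρ⟩ : ∃ ρ : ↥(Subgroup.normalizer (R : Set (MulAut V))) →* MulAut ↥R,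
      ∀ (g : ↥(Subgroup.normalizer (R : Set (MulAut V)))) (u : ↥R),
        ((ρ g u : ↥R) : MulAut V) = (g : MulAut V) * (u : MulAut V) * (g : MulAut V)⁻¹ :=
    ⟨R.normalizerMonoidHom, fun g u => rfl⟩
  obtain ⟨ρH, hρH⟩ : ∃ ρH : ↥H →* MulAut ↥R,
      ∀ x : ↥H, ρH x = ρ ⟨(x : MulAut V), hHN x.2⟩ :=
    ⟨ρ.comp (Subgroup.inclusion hHN), fun x => rfl⟩
  -- elements of `R` act trivially
  have hker : ∀ x : ↥H, (x : MulAut V) ∈ R → ρH x = 1 := by
    intro x hx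
    rw [hρH]
    refine MulEquiv.ext fun u => Subtype.ext ?_
    rw [hρ]
    show (x : MulAut V) * u * (x : MulAut V)⁻¹ = u
    rw [hM.comm x hx u u.2]
    group
  have hcomm : ∀ x y : ↥H, ρH x * ρH y = ρH y * ρH x := by
    intro x y
    have hc : ρH (x * y * x⁻¹ * y⁻¹) = 1 := hker _ (hM.ab x x.2 y y.2)
    have e : x * y = (x * y * x⁻¹ * y⁻¹) * (y * x) := by group
    rw [← map_mul, e, map_mul, hc, one_mul, map_mul]
  -- conjugation formula
  have hconj : ∀ (g : MulAut V) (hg : g ∈ Subgroup.normalizer (R : Set (MulAut V))) (x : ↥H)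
      (hgx : g * (x : MulAut V) * g⁻¹ ∈ H),
      ρH ⟨g * (x : MulAut V) * g⁻¹, hgx⟩ = ρ ⟨g, hg⟩ * ρH x * (ρ ⟨g, hg⟩)⁻¹ := by
    intro g hg x hgx
    rw [hρH, hρH, ← map_inv, ← map_mul, ← map_mul]
    rfl
  -- the key commutation extracted from a fixed vector
  have hgen : ∀ (g : MulAut V) (hg : g ∈ Subgroup.normalizer (R : Set (MulAut V))) (x : ↥H)
      (a : ↥R), ((ρH x)⁻¹ * (ρ ⟨g, hg⟩ * ρH x * (ρ ⟨g, hg⟩)⁻¹)) a = a →
      ((x : MulAut V)⁻¹ * (g * (x : MulAut V) * g⁻¹)) * (a : MulAut V) =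
        (a : MulAut V) * ((x : MulAut V)⁻¹ * (g * (x : MulAut V) * g⁻¹)) := by
    intro g hg x a h
    have e : (ρH x)⁻¹ * (ρ ⟨g, hg⟩ * ρH x * (ρ ⟨g, hg⟩)⁻¹) =
        ρ ((⟨(x : MulAut V), hHN x.2⟩ : ↥(Subgroup.normalizer (R : Set (MulAut V))))⁻¹ *
          (⟨g, hg⟩ * ⟨(x : MulAut V), hHN x.2⟩ * (⟨g, hg⟩)⁻¹)) := by
      rw [hρH, map_mul, map_mul, map_mul, map_inv, map_inv]
    rw [e] at h
    have h' := congrArg Subtype.val h
    rw [hρ] at h'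
    exact mul_inv_eq_iff_eq_mul.mp h'
  -- the acting group on `↥R`
  obtain ⟨Hb, hHb⟩ : ∃ Hb : Subgroup (MulAut ↥R), Hb = ρH.range := ⟨_, rfl⟩
  have hmemHb : ∀ x : ↥H, ρH x ∈ Hb := fun x => by rw [hHb]; exact ⟨x, rfl⟩
  have hexHb : ∀ y ∈ Hb, ∃ x : ↥H, ρH x = y := fun y hy => by rw [hHb] at hy; exact hy
  obtain ⟨φb, hφb⟩ : ∃ φb : MulAut ↥R, φb = ρ ⟨f, hfN⟩ := ⟨_, rfl⟩
  obtain ⟨τb, hτb⟩ : ∃ τb : MulAut ↥R, τb = ρ ⟨t, htN⟩ := ⟨_, rfl⟩
  have hφ3 : φb ^ 3 = 1 := by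
    have e : (⟨f, hfN⟩ : ↥(Subgroup.normalizer (R : Set (MulAut V)))) ^ 3 = 1 :=
      Subtype.ext hA.s3.f3
    rw [hφb, ← map_pow, e, map_one]
  have hτ2 : τb ^ 2 = 1 := by
    have e : (⟨t, htN⟩ : ↥(Subgroup.normalizer (R : Set (MulAut V)))) ^ 2 = 1 :=
      Subtype.ext hA.s3.t2
    rw [hτb, ← map_pow, e, map_one]
  have hτφ : τb * φb * τb⁻¹ = φb⁻¹ := by
    have e : (⟨t, htN⟩ : ↥(Subgroup.normalizer (R : Set (MulAut V)))) * ⟨f, hfN⟩ *
        (⟨t, htN⟩)⁻¹ = (⟨f, hfN⟩)⁻¹ := Subtype.ext hA.s3.tf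
    rw [hτb, hφb, ← map_inv, ← map_mul, ← map_mul, e, map_inv]
  have hfpf : ∀ v : ↥R, φb v = v → τb v = v → v = 1 := by
    intro v h1 h2
    have h1' := congrArg Subtype.val h1
    have h2' := congrArg Subtype.val h2
    rw [hφb, hρ] at h1'
    rw [hτb, hρ] at h2'
    exact Subtype.ext (hA.fpf v (hM.le v.2) h1' h2')
  have hcommHb : ∀ x ∈ Hb, ∀ y ∈ Hb, x * y = y * x := by
    intro x hx y hy
    obtain ⟨x, rfl⟩ := hexHb x hx
    obtain ⟨y, rfl⟩ := hexHb y hy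
    exact hcomm x y
  have hinvφ : ∀ x ∈ Hb, φb * x * φb⁻¹ ∈ Hb := by
    intro x hx
    obtain ⟨x, rfl⟩ := hexHb x hx
    rw [hφb, ← hconj f hfN x (hA.fH x x.2)]
    exact hmemHb _
  have hinvτ : ∀ x ∈ Hb, τb * x * τb⁻¹ ∈ Hb := by
    intro x hx
    obtain ⟨x, rfl⟩ := hexHb x hx
    rw [hτb, ← hconj t htN x (hA.tH x x.2)]
    exact hmemHb _
  -- fixed points of `[Hb, φb]` are central in `H`, hence trivial
  have h1' : ∀ a : ↥R,
      (∀ b ∈ Subgroup.closure {x : MulAut ↥R | ∃ u ∈ Hb, x = u⁻¹ * (φb * u * φb⁻¹)}, b a = a) →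
      a = 1 := by
    intro a ha
    have hgenf : ∀ x ∈ H, ((x : MulAut V)⁻¹ * (f * x * f⁻¹)) * (a : MulAut V) =
        (a : MulAut V) * (x⁻¹ * (f * x * f⁻¹)) := by
      intro x hx
      refine hgen f hfN ⟨x, hx⟩ a ?_
      rw [← hφb]
      exact ha _ (Subgroup.subset_closure ⟨ρH ⟨x, hx⟩, hmemHb _, rfl⟩)
    have hle1 : cm H f ≤ Subgroup.centralizer ({(a : MulAut V)} : Set (MulAut V)) := by
      refine (Subgroup.closure_le _).2 ?_
      rintro y ⟨x, hx, rfl⟩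
      exact Subgroup.mem_centralizer_singleton_iff.2 (hgenf x hx)
    have hle2 : R ≤ Subgroup.centralizer ({(a : MulAut V)} : Set (MulAut V)) := by
      intro u hu
      exact Subgroup.mem_centralizer_singleton_iff.2 (hM.comm u hu a a.2)
    have hH : H ≤ Subgroup.centralizer ({(a : MulAut V)} : Set (MulAut V)) := by
      rw [← hf1 V H R f t hA hM hfR]
      exact sup_le hle1 hle2
    have := hM.cen a (hM.le a.2)
      (fun y hy => (Subgroup.mem_centralizer_singleton_iff.1 (hH hy)).symm)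
    exact Subtype.ext this
  -- fixed points of `[Hb, τb]` lie in `R0`, hence are trivial
  have h2' : ∀ w : ↥R,
      (∀ b ∈ Subgroup.closure {x : MulAut ↥R | ∃ u ∈ Hb, x = u⁻¹ * (τb * u * τb⁻¹)}, b w = w) →
      w = 1 := by
    intro w hw
    have hgent : ∀ x ∈ H, ((x : MulAut V)⁻¹ * (t * x * t⁻¹)) * (w : MulAut V) =
        (w : MulAut V) * (x⁻¹ * (t * x * t⁻¹)) := by
      intro x hx
      refine hgen t htN ⟨x, hx⟩ w ?_
      rw [← hτb]
      exact hw _ (Subgroup.subset_closure ⟨ρH ⟨x, hx⟩, hmemHb _, rfl⟩)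
    have hle1 : cm H t ≤ Subgroup.centralizer ({(w : MulAut V)} : Set (MulAut V)) := by
      refine (Subgroup.closure_le _).2 ?_
      rintro y ⟨x, hx, rfl⟩
      exact Subgroup.mem_centralizer_singleton_iff.2 (hgent x hx)
    have hmem : (w : MulAut V) ∈ R0 H R t := by
      show (w : MulAut V) ∈ R ⊓ Subgroup.centralizer (cm H t : Set (MulAut V))
      refine Subgroup.mem_inf.2 ⟨w.2, Subgroup.mem_centralizer_iff.2 ?_⟩
      intro h hh
      exact Subgroup.mem_centralizer_singleton_iff.1 (hle1 hh)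
    rw [hR0, Subgroup.mem_bot] at hmem
    exact Subtype.ext hmem
  -- Reg6: every element of `R` is killed by `|Hb|`
  have hpow : ∀ v : ↥R, v ^ Nat.card ↥Hb = 1 := by
    intro v
    letI : CommGroup ↥R := knzCommGroup R hM.comm
    exact knz_reg6_pow h6 φb τb Hb
      ⟨hφ3, hτ2, hτφ⟩ hfpf hcommHb hinvφ hinvτ (fun a ha => h1' a ha) (fun w hw => h2' w hw) v
  -- `R ≠ ⊥`
  have hRne : Nat.card ↥R ≠ 1 := by
    intro h1
    have hbot : R = ⊥ := Subgroup.card_eq_one.mp h1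
    obtain ⟨x, hxH, hxR⟩ := hM.ne
    apply hxR
    apply hM.self x hxH
    intro u hu
    rw [hbot, Subgroup.mem_bot] at hu
    rw [hu, mul_one, one_mul]
  obtain ⟨q, hq, hqR⟩ := Nat.exists_prime_and_dvd hRne
  have : Fact q.Prime := ⟨hq⟩
  obtain ⟨u₀, hu₀⟩ := exists_prime_orderOf_dvd_card' (G := ↥R) q hqR
  have hqn : q ∣ Nat.card ↥Hb := by
    rw [← hu₀]
    exact orderOf_dvd_of_pow_eq_one (hpow u₀)
  obtain ⟨xb, hxb⟩ := exists_prime_orderOf_dvd_card' (G := ↥Hb) q hqn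
  -- the preimage of the `q`-part
  let K : Subgroup ↥H :=
    { carrier := {x | ∃ k : ℕ, ρH x ^ (q ^ k) = 1}
      one_mem' := ⟨0, by rw [map_one, one_pow]⟩
      mul_mem' := by
        rintro x y ⟨a, ha⟩ ⟨b, hb⟩
        refine ⟨a + b, ?_⟩
        have hc : Commute (ρH x) (ρH y) := hcomm x y
        rw [map_mul, hc.mul_pow, pow_add, pow_mul, ha, one_pow, one_mul, mul_comm (q ^ a),
          pow_mul, hb, one_pow]
      inv_mem' := by
        rintro x ⟨k, hk⟩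
        exact ⟨k, by rw [map_inv, inv_pow, hk, inv_one]⟩ }
  have hKmem : ∀ x : ↥H, x ∈ K ↔ ∃ k : ℕ, ρH x ^ (q ^ k) = 1 := fun x => Iff.rfl
  have hRK : R ≤ K.map H.subtype := by
    intro u hu
    refine ⟨⟨u, hM.le hu⟩, (hKmem _).2 ⟨0, ?_⟩, rfl⟩
    rw [pow_zero, pow_one]
    exact hker _ hu
  have hKH : K.map H.subtype ≤ H := by
    rintro _ ⟨x, _, rfl⟩
    exact x.2
  have hKf : ∀ y ∈ K.map H.subtype, f * y * f⁻¹ ∈ K.map H.subtype := by
    rintro _ ⟨x, hx, rfl⟩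
    obtain ⟨k, hk⟩ := (hKmem x).1 hx
    refine ⟨⟨f * x * f⁻¹, hA.fH x x.2⟩, (hKmem _).2 ⟨k, ?_⟩, rfl⟩
    rw [hconj f hfN x (hA.fH x x.2), conj_pow, hk, mul_one, mul_inv_cancel]
  have hKt : ∀ y ∈ K.map H.subtype, t * y * t⁻¹ ∈ K.map H.subtype := by
    rintro _ ⟨x, hx, rfl⟩
    obtain ⟨k, hk⟩ := (hKmem x).1 hx
    refine ⟨⟨t * x * t⁻¹, hA.tH x x.2⟩, (hKmem _).2 ⟨k, ?_⟩, rfl⟩
    rw [hconj t htN x (hA.tH x x.2), conj_pow, hk, mul_one, mul_inv_cancel]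
  rcases hM.max (K.map H.subtype) hRK hKH hKf hKt with hKR | hKHeq
  · -- `K = R` contradicts Cauchy in `Hb`
    obtain ⟨x₁, hx₁⟩ := hexHb xb xb.2
    have hxbq : (xb : MulAut ↥R) ^ q = 1 := by
      have := pow_orderOf_eq_one xb
      rw [hxb] at this
      have h' := congrArg Subtype.val this
      simpa using h'
    have hx₁K : x₁ ∈ K := (hKmem x₁).2 ⟨1, by rw [pow_one, hx₁]; exact hxbq⟩
    have hx₁R : (x₁ : MulAut V) ∈ R := by
      rw [← hKR]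
      exact ⟨x₁, hx₁K, rfl⟩
    have h1 : (xb : MulAut ↥R) = 1 := by rw [← hx₁]; exact hker x₁ hx₁R
    have h2 : xb = 1 := Subtype.ext h1
    rw [h2, orderOf_one] at hxb
    exact hq.one_lt.ne hxb
  · -- `K = H`: `Hb` is a `q`-group with a nontrivial fixed point on `R`
    have hP : IsPGroup q ↥Hb := by
      intro y
      obtain ⟨x, hx⟩ := hexHb y y.2
      have hxK : (x : MulAut V) ∈ K.map H.subtype := by rw [hKHeq]; exact x.2
      obtain ⟨x', hx'K, hx'⟩ := hxK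
      have hxx : x' = x := Subtype.ext hx'
      rw [hxx] at hx'K
      obtain ⟨k, hk⟩ := (hKmem x).1 hx'K
      refine ⟨k, Subtype.ext ?_⟩
      rw [Subgroup.coe_pow, ← hx, hk]
      rfl
    have hfix1 : (1 : ↥R) ∈ MulAction.fixedPoints ↥Hb ↥R := by
      intro g
      show (g : MulAut ↥R) 1 = 1
      exact map_one _
    obtain ⟨b, hb, hb1⟩ := hP.exists_fixed_point_of_prime_dvd_card_of_fixed_point (α := ↥R)
      hqR hfix1
    apply hb1
    have hcen : ∀ y ∈ H, (b : MulAut V) * y = y * (b : MulAut V) := by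
      intro y hy
      have h1 : ρH ⟨y, hy⟩ b = b := hb ⟨ρH ⟨y, hy⟩, hmemHb _⟩
      have h2 := congrArg Subtype.val h1
      rw [hρH, hρ] at h2
      exact (mul_inv_eq_iff_eq_mul.mp h2).symm
    exact (Subtype.ext (hM.cen b (hM.le b.2) hcen)).symm

end Cfsg.Agent.Lib.Helper12.S3F
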