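import Mathlib
import Cfsg.Agent.Lib.Helper72.S3Defs

/-!
# S4305 piece LIFT: coprime lifting of fixed points for `⟨φ, τ⟩ ≅ S₃`

Two applications of the one-automorphism lifting statement `Lift1Stmt`.
-/

set_option autoImplicit false

namespace Cfsg.Agent.Lib.Helper12.S3F

open Cfsg.Agent.Lib.Helper72.S3F

universe u

/-- The subgroup of `φ`-fixed elements of `K`. -/
def s3LiftFixSub {Γ : Type u} [Group Γ] (φ : MulAut Γ) (K : Subgroup Γ) : Subgroup Γ where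
  carrier := {k | k ∈ K ∧ φ k = k}
  mul_mem' := by
    intro a b ha hb
    refine ⟨K.mul_mem ha.1 hb.1, ?_⟩
    rw [map_mul, ha.2, hb.2]
  one_mem' := ⟨K.one_mem, map_one φ⟩
  inv_mem' := by
    intro a ha
    refine ⟨K.inv_mem ha.1, ?_⟩
    rw [map_inv, ha.2]

theorem s3Lift_mem_fixSub {Γ : Type u} [Group Γ] (φ : MulAut Γ) (K : Subgroup Γ) (k : Γ) :
    k ∈ s3LiftFixSub φ K ↔ k ∈ K ∧ φ k = k := Iff.rfl

theorem s3Lift_fixSub_le {Γ : Type u} [Group Γ] (φ : MulAut Γ) (K : Subgroup Γ) :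
    s3LiftFixSub φ K ≤ K := fun _ hk => hk.1

/-- If `τ φ τ⁻¹ = φ⁻¹` and `φ x = x` then `φ (τ x) = τ x`. -/
theorem s3Lift_fix_tau {Γ : Type u} [Group Γ] (φ τ : MulAut Γ)
    (hτφ : τ * φ * τ⁻¹ = φ⁻¹) (x : Γ) (hx : φ x = x) : φ (τ x) = τ x := by
  have h1 : τ * φ = φ⁻¹ * τ := by
    rw [← hτφ]; group
  have h2 : (τ * φ) x = (φ⁻¹ * τ) x := by rw [h1]
  have h3 : τ (φ x) = φ⁻¹ (τ x) := h2
  rw [hx] at h3
  have h4 : φ (τ x) = φ (φ⁻¹ (τ x)) := by rw [← h3]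
  rw [h4]
  show (φ * φ⁻¹) (τ x) = τ x
  rw [mul_inv_cancel]
  rfl

theorem lift (h1 : Lift1Stmt.{u}) : LiftStmt.{u} := by
  intro Γ _ φ τ K g hφ3 hτ2 hτφ hfin hcop hφK hτK hgφ hgτ
  have hcop3 : (Nat.card K).Coprime 3 :=
    Nat.Coprime.coprime_dvd_right (by norm_num : 3 ∣ 6) hcop
  have hcop2 : (Nat.card K).Coprime 2 :=
    Nat.Coprime.coprime_dvd_right (by norm_num : 2 ∣ 6) hcop
  obtain ⟨k₁, hk₁K, hk₁⟩ := h1 Γ φ 3 K g Nat.prime_three hφ3 hfin hcop3 hφK hgφ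
  -- the φ-fixed elements of K
  have hle : s3LiftFixSub φ K ≤ K := s3Lift_fixSub_le φ K
  have hfin1 : Finite (s3LiftFixSub φ K) :=
    Finite.of_injective (Subgroup.inclusion hle) (Subgroup.inclusion_injective hle)
  have hdvd : Nat.card (s3LiftFixSub φ K) ∣ Nat.card K := Subgroup.card_dvd_of_le hle
  have hcop1 : (Nat.card (s3LiftFixSub φ K)).Coprime 2 :=
    Nat.Coprime.coprime_dvd_left hdvd hcop2
  have hτK1 : ∀ k ∈ s3LiftFixSub φ K, τ k ∈ s3LiftFixSub φ K := by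
    intro k hk
    exact ⟨hτK k hk.1, s3Lift_fix_tau φ τ hτφ k hk.2⟩
  have hg1 : (g * k₁)⁻¹ * τ (g * k₁) ∈ s3LiftFixSub φ K := by
    refine ⟨?_, ?_⟩
    · have e : (g * k₁)⁻¹ * τ (g * k₁) = k₁⁻¹ * (g⁻¹ * τ g) * τ k₁ := by
        rw [map_mul]; group
      rw [e]
      exact K.mul_mem (K.mul_mem (K.inv_mem hk₁K) hgτ) (hτK k₁ hk₁K)
    · rw [map_mul, map_inv, hk₁, s3Lift_fix_tau φ τ hτφ (g * k₁) hk₁]
  obtain ⟨k₂, hk₂K, hk₂⟩ :=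
    h1 Γ τ 2 (s3LiftFixSub φ K) (g * k₁) Nat.prime_two hτ2 hfin1 hcop1 hτK1 hg1
  refine ⟨k₁ * k₂, K.mul_mem hk₁K hk₂K.1, ?_, ?_⟩
  · rw [← mul_assoc, map_mul, hk₁, hk₂K.2]
  · rw [← mul_assoc]
    exact hk₂

end Cfsg.Agent.Lib.Helper12.S3F
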