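import Mathlib
import Cfsg.Prelude.Def_GeometricClasses
import Cfsg.Agent.Lib.Helper14.SMCONJ
import Cfsg.Agent.Lib.Helper42.SMN5

/-!
# S6002 piece SM-N5R: the symplectic element `(1/4)(1+u₁u₂)(1+u₂u₃)(1+u₃u₄)(1+u₄u₅)`
-/

set_option autoImplicit false
set_option linter.unusedSimpArgs false

namespace Cfsg.Agent.Lib.Helper98.SM

open Matrix

theorem smn5r_anti {A : Type*} [Ring A] {a b : A} (h : a * b = -(b * a)) :
    b * a = -(a * b) := by rw [h, neg_neg]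

theorem smn5r_anti' {A : Type*} [Ring A] {a b : A} (h : a * b = -(b * a)) (x : A) :
    b * (a * x) = -(a * (b * x)) := by
  rw [← mul_assoc, smn5r_anti h, neg_mul, mul_assoc]

theorem smn5r_sq' {A : Type*} [Ring A] {a : A} (h : a * a = 1) (x : A) : a * (a * x) = x := by
  rw [← mul_assoc, h, one_mul]

theorem smn5r_sq_neg {A : Type*} [Ring A] {a b : A} (haa : a * a = 1) (hbb : b * b = 1)
    (hab : a * b = -(b * a)) : (a * b) * (a * b) = -1 := by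
  calc a * b * (a * b) = a * (b * a) * b := by noncomm_ring
    _ = a * (-(a * b)) * b := by rw [smn5r_anti hab]
    _ = -((a * a) * (b * b)) := by noncomm_ring
    _ = -1 := by rw [haa, hbb, mul_one]

/-- `U₅ = U₁U₂U₃U₄` squares to one and anticommutes with each `Uₖ`. -/
theorem smn5r_prod {A : Type*} [Ring A] (a b c d : A)
    (haa : a * a = 1) (hbb : b * b = 1) (hcc : c * c = 1) (hdd : d * d = 1)
    (hab : a * b = -(b * a)) (hac : a * c = -(c * a)) (had : a * d = -(d * a))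
    (hbc : b * c = -(c * b)) (hbd : b * d = -(d * b)) (hcd : c * d = -(d * c)) :
    (a * b * c * d) * (a * b * c * d) = 1 ∧ a * (a * b * c * d) = -((a * b * c * d) * a) ∧
    b * (a * b * c * d) = -((a * b * c * d) * b) ∧ c * (a * b * c * d) = -((a * b * c * d) * c) ∧
    d * (a * b * c * d) = -((a * b * c * d) * d) := by
  have hba := smn5r_anti hab
  have hca := smn5r_anti hac
  have hda := smn5r_anti had
  have hcb := smn5r_anti hbc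
  have hdb := smn5r_anti hbd
  have hdc := smn5r_anti hcd
  have hba' := smn5r_anti' hab
  have hca' := smn5r_anti' hac
  have hda' := smn5r_anti' had
  have hcb' := smn5r_anti' hbc
  have hdb' := smn5r_anti' hbd
  have hdc' := smn5r_anti' hcd
  have haa' := smn5r_sq' haa
  have hbb' := smn5r_sq' hbb
  have hcc' := smn5r_sq' hcc
  have hdd' := smn5r_sq' hdd
  refine ⟨?_, ?_, ?_, ?_, ?_⟩ <;>
    simp only [mul_assoc, hba, hca, hda, hcb, hdb, hdc, hba', hca', hda', hcb', hdb', hdc',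
      haa, hbb, hcc, hdd, haa', hbb', hcc', hdd', neg_mul, mul_neg, neg_neg, mul_one, one_mul]

theorem smn5r_factor {F : Type*} [Field F] (ρ : Matrix (Fin 2 ⊕ Fin 2) (Fin 2 ⊕ Fin 2) F)
    (hρ : ρ ∈ Matrix.symplecticGroup (Fin 2) F) (hρ2 : ρ * ρ = -1) :
    (1 + ρ)ᵀ * J (Fin 2) F * (1 + ρ) = (2 : F) • J (Fin 2) F := by
  have h1 : ρᵀ * J (Fin 2) F * ρ = J (Fin 2) F := SymplecticGroup.mem_iff'.mp hρ
  have h2 : ρᵀ * J (Fin 2) F = -(J (Fin 2) F * ρ) := by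
    have h3 : ρᵀ * J (Fin 2) F * ρ * ρ = J (Fin 2) F * ρ := by rw [h1]
    rw [mul_assoc, hρ2, mul_neg, mul_one] at h3
    rw [← h3, neg_neg]
  rw [transpose_add, transpose_one]
  calc (1 + ρᵀ) * J (Fin 2) F * (1 + ρ)
      = J (Fin 2) F + J (Fin 2) F * ρ + ρᵀ * J (Fin 2) F + ρᵀ * J (Fin 2) F * ρ := by
        noncomm_ring
    _ = J (Fin 2) F + J (Fin 2) F * ρ + -(J (Fin 2) F * ρ) + J (Fin 2) F := by rw [h1, h2]
    _ = (2 : F) • J (Fin 2) F := by rw [two_smul]; abel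

theorem smn5r_chain {F : Type*} [Field F] (P Q : Matrix (Fin 2 ⊕ Fin 2) (Fin 2 ⊕ Fin 2) F)
    (c d : F) (hP : Pᵀ * J (Fin 2) F * P = c • J (Fin 2) F)
    (hQ : Qᵀ * J (Fin 2) F * Q = d • J (Fin 2) F) :
    (P * Q)ᵀ * J (Fin 2) F * (P * Q) = (c * d) • J (Fin 2) F := by
  rw [transpose_mul]
  calc Qᵀ * Pᵀ * J (Fin 2) F * (P * Q) = Qᵀ * (Pᵀ * J (Fin 2) F * P) * Q := by
        simp only [mul_assoc]
    _ = Qᵀ * (c • J (Fin 2) F) * Q := by rw [hP]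
    _ = c • (Qᵀ * J (Fin 2) F * Q) := by rw [Matrix.mul_smul, Matrix.smul_mul]
    _ = (c * d) • J (Fin 2) F := by rw [hQ, smul_smul]

theorem smn5r_core {F : Type*} [Field F] (h2 : (2 : F) ≠ 0)
    (U1 U2 U3 U4 : Matrix (Fin 2 ⊕ Fin 2) (Fin 2 ⊕ Fin 2) F)
    (hs1 : U1 ∈ Matrix.symplecticGroup (Fin 2) F) (hs2 : U2 ∈ Matrix.symplecticGroup (Fin 2) F)
    (hs3 : U3 ∈ Matrix.symplecticGroup (Fin 2) F) (hs4 : U4 ∈ Matrix.symplecticGroup (Fin 2) F)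
    (h11 : U1 * U1 = 1) (h22 : U2 * U2 = 1) (h33 : U3 * U3 = 1) (h44 : U4 * U4 = 1)
    (h12 : U1 * U2 = -(U2 * U1)) (h13 : U1 * U3 = -(U3 * U1)) (h14 : U1 * U4 = -(U4 * U1))
    (h23 : U2 * U3 = -(U3 * U2)) (h24 : U2 * U4 = -(U4 * U2)) (h34 : U3 * U4 = -(U4 * U3)) :
    ∃ m : Matrix (Fin 2 ⊕ Fin 2) (Fin 2 ⊕ Fin 2) F, m ∈ Matrix.symplecticGroup (Fin 2) F ∧
      m * U1 = -(U2 * m) ∧ m * U2 = -(U3 * m) ∧ m * U3 = -(U4 * m) ∧
      m * U4 = -((U1 * U2 * U3 * U4) * m) ∧ m * (U1 * U2 * U3 * U4) = U1 * m := by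
  obtain ⟨h55, h15, h25, h35, h45⟩ := smn5r_prod U1 U2 U3 U4 h11 h22 h33 h44 h12 h13 h14 h23 h24 h34
  have hs5 : U1 * U2 * U3 * U4 ∈ Matrix.symplecticGroup (Fin 2) F :=
    mul_mem (mul_mem (mul_mem hs1 hs2) hs3) hs4
  obtain ⟨r1, r2, r3, r4, r5⟩ := five_cycle U1 U2 U3 U4 (U1 * U2 * U3 * U4) h11 h22 h33 h44 h55
    h12 h13 h14 h15 h23 h24 h25 h34 h35 h45
    ((1 + U1 * U2) * (1 + U2 * U3) * (1 + U3 * U4) * (1 + U4 * (U1 * U2 * U3 * U4))) rfl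
  have hP1 := smn5r_factor (U1 * U2) (mul_mem hs1 hs2) (smn5r_sq_neg h11 h22 h12)
  have hP2 := smn5r_factor (U2 * U3) (mul_mem hs2 hs3) (smn5r_sq_neg h22 h33 h23)
  have hP3 := smn5r_factor (U3 * U4) (mul_mem hs3 hs4) (smn5r_sq_neg h33 h44 h34)
  have hP4 := smn5r_factor (U4 * (U1 * U2 * U3 * U4)) (mul_mem hs4 hs5)
    (smn5r_sq_neg h44 h55 h45)
  have hN := smn5r_chain _ _ _ _ (smn5r_chain _ _ _ _ (smn5r_chain _ _ _ _ hP1 hP2) hP3) hP4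
  have ht : (2 : F)⁻¹ * 2 = 1 := inv_mul_cancel₀ h2
  have hsc : (2 : F)⁻¹ * (2 : F)⁻¹ * ((2 : F)⁻¹ * (2 : F)⁻¹) * (2 * 2 * 2 * 2) = 1 := by
    have e : (2 : F)⁻¹ * (2 : F)⁻¹ * ((2 : F)⁻¹ * (2 : F)⁻¹) * (2 * 2 * 2 * 2)
        = ((2 : F)⁻¹ * 2) ^ 4 := by ring
    rw [e, ht, one_pow]
  refine ⟨((2 : F)⁻¹ * (2 : F)⁻¹) •
    ((1 + U1 * U2) * (1 + U2 * U3) * (1 + U3 * U4) * (1 + U4 * (U1 * U2 * U3 * U4))),
    ?_, ?_, ?_, ?_, ?_, ?_⟩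
  · rw [SymplecticGroup.mem_iff', transpose_smul, Matrix.smul_mul, Matrix.smul_mul,
      Matrix.mul_smul, smul_smul, hN, smul_smul, hsc, one_smul]
  · rw [Matrix.smul_mul, r1, Matrix.mul_smul, smul_neg]
  · rw [Matrix.smul_mul, r2, Matrix.mul_smul, smul_neg]
  · rw [Matrix.smul_mul, r3, Matrix.mul_smul, smul_neg]
  · rw [Matrix.smul_mul, r4, Matrix.mul_smul, smul_neg]
  · rw [Matrix.smul_mul, r5, Matrix.mul_smul]

theorem smn5r_val_sq {F : Type*} [Field F] {u : GL (Fin 2 ⊕ Fin 2) F} (h : u * u = 1) :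
    (u : Matrix (Fin 2 ⊕ Fin 2) (Fin 2 ⊕ Fin 2) F) * u = 1 := by
  rw [← Units.val_mul, h, Units.val_one]

theorem smn5r_val_anti {F : Type*} [Field F] {u v : GL (Fin 2 ⊕ Fin 2) F}
    (h : u * v = -(v * u)) :
    (u : Matrix (Fin 2 ⊕ Fin 2) (Fin 2 ⊕ Fin 2) F) * v =
      -((v : Matrix (Fin 2 ⊕ Fin 2) (Fin 2 ⊕ Fin 2) F) * u) := by
  rw [← Units.val_mul, h, Units.val_neg, Units.val_mul]

theorem n5_rel {F : Type*} [Field F] (h2 : (2 : F) ≠ 0) (u₁ u₂ u₃ u₄ : GL (Fin 2 ⊕ Fin 2) F)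
    (hs1 : u₁ ∈ Cfsg.spGL 2 F) (hs2 : u₂ ∈ Cfsg.spGL 2 F) (hs3 : u₃ ∈ Cfsg.spGL 2 F)
    (hs4 : u₄ ∈ Cfsg.spGL 2 F)
    (h11 : u₁ * u₁ = 1) (h22 : u₂ * u₂ = 1) (h33 : u₃ * u₃ = 1) (h44 : u₄ * u₄ = 1)
    (h12 : u₁ * u₂ = -(u₂ * u₁)) (h13 : u₁ * u₃ = -(u₃ * u₁)) (h14 : u₁ * u₄ = -(u₄ * u₁))
    (h23 : u₂ * u₃ = -(u₃ * u₂)) (h24 : u₂ * u₄ = -(u₄ * u₂)) (h34 : u₃ * u₄ = -(u₄ * u₃)) :
    ∃ m : GL (Fin 2 ⊕ Fin 2) F, m ∈ Cfsg.spGL 2 F ∧ m * u₁ = -(u₂ * m) ∧ m * u₂ = -(u₃ * m) ∧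
      m * u₃ = -(u₄ * m) ∧ m * u₄ = -((u₁ * u₂ * u₃ * u₄) * m) ∧
      m * (u₁ * u₂ * u₃ * u₄) = u₁ * m := by
  obtain ⟨m, hm, r1, r2, r3, r4, r5⟩ := smn5r_core h2
    (u₁ : Matrix (Fin 2 ⊕ Fin 2) (Fin 2 ⊕ Fin 2) F) u₂ u₃ u₄
    ((mem_spGL_iff_symplectic u₁).mp hs1) ((mem_spGL_iff_symplectic u₂).mp hs2)
    ((mem_spGL_iff_symplectic u₃).mp hs3) ((mem_spGL_iff_symplectic u₄).mp hs4)
    (smn5r_val_sq h11) (smn5r_val_sq h22) (smn5r_val_sq h33) (smn5r_val_sq h44)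
    (smn5r_val_anti h12) (smn5r_val_anti h13) (smn5r_val_anti h14) (smn5r_val_anti h23)
    (smn5r_val_anti h24) (smn5r_val_anti h34)
  have hunit : IsUnit m := (Matrix.isUnit_iff_isUnit_det m).2 (SymplecticGroup.symplectic_det hm)
  obtain ⟨mu, hmu⟩ := hunit
  refine ⟨mu, ?_, ?_, ?_, ?_, ?_, ?_⟩
  · rw [mem_spGL_iff_symplectic, hmu]
    exact hm
  · refine Units.ext ?_
    simp only [Units.val_mul, Units.val_neg, hmu]
    exact r1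
  · refine Units.ext ?_
    simp only [Units.val_mul, Units.val_neg, hmu]
    exact r2
  · refine Units.ext ?_
    simp only [Units.val_mul, Units.val_neg, hmu]
    exact r3
  · refine Units.ext ?_
    simp only [Units.val_mul, Units.val_neg, hmu]
    exact r4
  · refine Units.ext ?_
    simp only [Units.val_mul, hmu]
    exact r5

end Cfsg.Agent.Lib.Helper98.SM
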