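import Mathlib

/-!
# Matrix units, transvections and congruences (tools for the S5171 pieces H1d, H1ea, H1eb)
-/

set_option autoImplicit false

namespace Cfsg.Agent.Lib.Helper12.SpSymTools

open Matrix

variable {m : ℕ} {K : Type*} [Field K]

/-- the matrix unit `E_ij` -/
def E (i j : Fin m) : Matrix (Fin m) (Fin m) K := Matrix.single i j 1

theorem smul_E (i j : Fin m) (x : K) :
    x • (E i j : Matrix (Fin m) (Fin m) K) = Matrix.single i j x := by
  rw [E, Matrix.smul_single, smul_eq_mul, mul_one]

theorem E_mul_same (i j k : Fin m) : (E i j : Matrix (Fin m) (Fin m) K) * E j k = E i k := by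
  rw [E, E, E, Matrix.single_mul_single_same, mul_one]

theorem E_mul_ne (i : Fin m) {j k : Fin m} (l : Fin m) (h : j ≠ k) :
    (E i j : Matrix (Fin m) (Fin m) K) * E k l = 0 := by
  rw [E, E, Matrix.single_mul_single_of_ne _ _ _ _ h]

theorem E_transpose (i j : Fin m) : (E i j : Matrix (Fin m) (Fin m) K)ᵀ = E j i := by
  rw [E, E, Matrix.transpose_single]

/-- the transvection `1 + s E_pq` as an element of `GL` -/
def tv (p q : Fin m) (h : p ≠ q) (s : K) : GL (Fin m) K :=
  ⟨1 + s • E p q, 1 - s • E p q, by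
    have e := E_mul_ne (K := K) p q h.symm
    simp only [mul_sub, add_mul, mul_one, one_mul, smul_mul_assoc, mul_smul_comm, e, smul_zero]
    module, by
    have e := E_mul_ne (K := K) p q h.symm
    simp only [sub_mul, mul_add, mul_one, one_mul, smul_mul_assoc, mul_smul_comm, e, smul_zero]
    module⟩

theorem tv_coe (p q : Fin m) (h : p ≠ q) (s : K) :
    ((tv p q h s : GL (Fin m) K) : Matrix (Fin m) (Fin m) K) = 1 + s • E p q := rfl

theorem cong_tv (p q : Fin m) (h : p ≠ q) (s : K) (B : Matrix (Fin m) (Fin m) K) :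
    (tv p q h s).1 * B * (tv p q h s).1ᵀ
      = B + s • (E p q * B) + s • (B * E q p) + (s * s) • (E p q * B * E q p) := by
  show (1 + s • E p q) * B * (1 + s • E p q)ᵀ = _
  rw [transpose_add, transpose_one, transpose_smul, E_transpose]
  simp only [add_mul, mul_add, one_mul, mul_one, smul_mul_assoc, mul_smul_comm]
  module

/-- the diagonal matrix with `t` at `p` and `1` elsewhere, as an element of `GL` -/
def dg (p : Fin m) (t : K) (ht : t ≠ 0) : GL (Fin m) K :=
  ⟨1 + (t - 1) • E p p, 1 + (t⁻¹ - 1) • E p p, by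
    simp only [mul_add, add_mul, mul_one, one_mul, smul_mul_assoc, mul_smul_comm, E_mul_same]
    have e : (t - 1) * (t⁻¹ - 1) = -(t - 1) - (t⁻¹ - 1) := by
      field_simp
      ring
    linear_combination (norm := module) e • E p p, by
    simp only [mul_add, add_mul, mul_one, one_mul, smul_mul_assoc, mul_smul_comm, E_mul_same]
    have e : (t⁻¹ - 1) * (t - 1) = -(t - 1) - (t⁻¹ - 1) := by
      field_simp
      ring
    linear_combination (norm := module) e • E p p⟩

theorem dg_coe (p : Fin m) (t : K) (ht : t ≠ 0) :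
    ((dg p t ht : GL (Fin m) K) : Matrix (Fin m) (Fin m) K) = 1 + (t - 1) • E p p := rfl

theorem cong_dg (p : Fin m) (t : K) (ht : t ≠ 0) (B : Matrix (Fin m) (Fin m) K) :
    (dg p t ht).1 * B * (dg p t ht).1ᵀ
      = B + (t - 1) • (E p p * B) + (t - 1) • (B * E p p)
        + ((t - 1) * (t - 1)) • (E p p * B * E p p) := by
  show (1 + (t - 1) • E p p) * B * (1 + (t - 1) • E p p)ᵀ = _
  rw [transpose_add, transpose_one, transpose_smul, E_transpose]
  simp only [add_mul, mul_add, one_mul, mul_one, smul_mul_assoc, mul_smul_comm]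
  module

end Cfsg.Agent.Lib.Helper12.SpSymTools
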