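import Mathlib
import Cfsg.Agent.Lib.Helper12.SpSymTools

set_option autoImplicit false
set_option linter.unusedSimpArgs false

namespace Cfsg.Agent.Lib.Helper12.SpH1d

open Matrix Cfsg.Agent.Lib.Helper12.SpSymTools

theorem sym_all (m : ℕ) (K : Type*) [Field K] [Finite K]
    (𝒯 : AddSubgroup (Matrix (Fin m) (Fin m) K))
    (hcong : ∀ B ∈ 𝒯, ∀ A : GL (Fin m) K, A.1 * B * A.1ᵀ ∈ 𝒯) (i₀ : Fin m) (c : K) (hc : c ≠ 0)
    (h0 : Matrix.single i₀ i₀ c ∈ 𝒯) : ∀ B : Matrix (Fin m) (Fin m) K, Bᵀ = B → B ∈ 𝒯 := by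
  rw [← smul_E] at h0
  -- (i) all `c • E_ii`
  have hi : ∀ i : Fin m, c • (E i i : Matrix (Fin m) (Fin m) K) ∈ 𝒯 := by
    intro i
    by_cases h : i = i₀
    · rw [h]
      exact h0
    · have e1 := E_mul_ne (K := K) (j := i) (k := i₀)
      have e2 := E_mul_ne (K := K) (j := i₀) (k := i)
      have h1 := hcong _ h0 (tv i i₀ h 1)
      rw [cong_tv] at h1
      have h2 := hcong _ h1 (tv i₀ i (Ne.symm h) (-1))
      rw [cong_tv] at h2
      convert h2 using 1
      simp only [mul_add, add_mul, mul_smul_comm, smul_mul_assoc, E_mul_same,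
        e1 _ _ h, e2 _ _ (Ne.symm h), smul_zero, add_zero, zero_add, zero_mul, mul_zero]
      module
  -- (ii) all `c t² • E_ii`
  have hii : ∀ (i : Fin m) (t : K), (c * t * t) • (E i i : Matrix (Fin m) (Fin m) K) ∈ 𝒯 := by
    intro i t
    by_cases ht : t = 0
    · rw [ht, mul_zero, zero_smul]
      exact 𝒯.zero_mem
    · have h1 := hcong _ (hi i) (dg i t ht)
      rw [cong_dg] at h1
      convert h1 using 1
      simp only [mul_add, add_mul, mul_smul_comm, smul_mul_assoc, E_mul_same]
      module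
  -- (iii) all `a • (E_ij + E_ji)`
  have hoff : ∀ (i j : Fin m), i ≠ j → ∀ a : K,
      a • (E i j : Matrix (Fin m) (Fin m) K) + a • E j i ∈ 𝒯 := by
    intro i j hij a
    obtain ⟨t, rfl⟩ : ∃ t, a = t * c := ⟨a / c, by field_simp⟩
    have e1 := E_mul_ne (K := K) (j := i) (k := j)
    have e2 := E_mul_ne (K := K) (j := j) (k := i)
    have h1 := hcong _ (hi i) (tv j i hij.symm t)
    rw [cong_tv] at h1
    have h := 𝒯.sub_mem (𝒯.sub_mem h1 (hi i)) (hii j t)
    convert h using 1
    simp only [mul_add, add_mul, mul_smul_comm, smul_mul_assoc, E_mul_same,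
      e1 _ _ hij, e2 _ _ hij.symm, smul_zero, add_zero, zero_add, zero_mul, mul_zero]
    module
  -- (iv) all `a • E_ii`
  have hdiag : ∀ (i : Fin m) (a : K), a • (E i i : Matrix (Fin m) (Fin m) K) ∈ 𝒯 := by
    intro i a
    by_cases h2 : (2 : K) = 0
    · have hinj : Function.Injective (fun x : K => x * x) := by
        intro x y hxy
        have hxy' : x * x = y * y := hxy
        have h : (x - y) * (x - y) = 0 := by
          linear_combination hxy' + (y * y - x * y) * h2
        have h' : x - y = 0 := by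
          rcases mul_eq_zero.mp h with h | h <;> exact h
        exact sub_eq_zero.mp h'
      obtain ⟨r, hr⟩ := (Finite.injective_iff_surjective.mp hinj) (a / c)
      have hr' : a = c * r * r := by
        have hr'' : r * r = a / c := hr
        rw [mul_assoc, hr'']
        field_simp
      rw [hr']
      exact hii i r
    · obtain ⟨s, rfl⟩ : ∃ s, a = 2 * c * s := ⟨a / (2 * c), by field_simp⟩
      have h := 𝒯.sub_mem (𝒯.sub_mem (hii i (s + 1)) (hii i s)) (hi i)
      convert h using 1
      module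
  -- (v) assembly
  intro B hB
  have hBsym : ∀ a b, B b a = B a b := by
    intro a b
    have h := congrFun (congrFun hB a) b
    rwa [Matrix.transpose_apply] at h
  obtain ⟨D, hD⟩ : ∃ D : Matrix (Fin m) (Fin m) K, ∀ i j, D i j = if i = j then B i j else 0 :=
    ⟨Matrix.of (fun i j => if i = j then B i j else 0), fun i j => rfl⟩
  obtain ⟨U, hU⟩ : ∃ U : Matrix (Fin m) (Fin m) K, ∀ i j, U i j = if i < j then B i j else 0 :=
    ⟨Matrix.of (fun i j => if i < j then B i j else 0), fun i j => rfl⟩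
  have hdecomp : B = D + (U + Uᵀ) := by
    ext a b
    rw [Matrix.add_apply, Matrix.add_apply, Matrix.transpose_apply, hD, hU, hU]
    rcases lt_trichotomy a b with h | h | h
    · rw [if_neg h.ne, if_pos h, if_neg (not_lt.mpr h.le)]
      ring
    · subst h
      rw [if_pos rfl, if_neg (lt_irrefl _)]
      ring
    · rw [if_neg h.ne', if_neg (not_lt.mpr h.le), if_pos h, hBsym]
      ring
  have hDmem : D ∈ 𝒯 := by
    rw [matrix_eq_sum_single D]
    refine 𝒯.sum_mem (fun i _ => 𝒯.sum_mem (fun j _ => ?_))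
    rw [hD]
    by_cases hij : i = j
    · subst hij
      rw [if_pos rfl, ← smul_E]
      exact hdiag i _
    · rw [if_neg hij, Matrix.single_zero]
      exact 𝒯.zero_mem
  have hUmem : U + Uᵀ ∈ 𝒯 := by
    have e : U + Uᵀ = ∑ i, ∑ j, (Matrix.single i j (U i j) + Matrix.single j i (U i j)) := by
      conv_lhs => rw [matrix_eq_sum_single U]
      simp only [transpose_sum, transpose_single, ← Finset.sum_add_distrib]
    rw [e]
    refine 𝒯.sum_mem (fun i _ => 𝒯.sum_mem (fun j _ => ?_))
    rw [hU]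
    by_cases hij : i < j
    · rw [if_pos hij, ← smul_E, ← smul_E]
      exact hoff i j hij.ne _
    · rw [if_neg hij, Matrix.single_zero, Matrix.single_zero, add_zero]
      exact 𝒯.zero_mem
  rw [hdecomp]
  exact 𝒯.add_mem hDmem hUmem

end Cfsg.Agent.Lib.Helper12.SpH1d
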