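import Mathlib
import Cfsg.Agent.Lib.Helper12.SpSymTools

set_option autoImplicit false
set_option linter.unusedSimpArgs false

namespace Cfsg.Agent.Lib.Helper12.SpH1ea

open Matrix Cfsg.Agent.Lib.Helper12.SpSymTools

theorem sym_step_a (m : ℕ) (K : Type*) [Field K] (h2 : (2 : K) = 0) (t : K) (ht0 : t ≠ 0)
    (ht1 : t ≠ 1) (𝒯 : AddSubgroup (Matrix (Fin m) (Fin m) K))
    (hcong : ∀ B ∈ 𝒯, ∀ A : GL (Fin m) K, A.1 * B * A.1ᵀ ∈ 𝒯) (i₀ i₁ : Fin m) (h01 : i₀ ≠ i₁)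
    (c d : K) (hc : c ≠ 0)
    (h0 : Matrix.single i₀ i₀ c + Matrix.single i₀ i₁ d + Matrix.single i₁ i₀ d ∈ 𝒯) :
    ∃ c' : K, c' ≠ 0 ∧ Matrix.single i₀ i₀ c' ∈ 𝒯 := by
  obtain ⟨s, rfl⟩ : ∃ s, d = s * c := ⟨d / c, by field_simp⟩
  rw [← smul_E, ← smul_E, ← smul_E] at h0
  have e01 := E_mul_ne (K := K) (j := i₀) (k := i₁)
  have e10 := E_mul_ne (K := K) (j := i₁) (k := i₀)
  -- first congruence: kill the off-diagonal part
  have h1 := hcong _ h0 (tv i₁ i₀ h01.symm s)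
  rw [cong_tv] at h1
  have hB1 : c • (E i₀ i₀ : Matrix (Fin m) (Fin m) K) + (s * s * c) • E i₁ i₁ ∈ 𝒯 := by
    convert h1 using 1
    simp only [mul_add, add_mul, mul_smul_comm, smul_mul_assoc, E_mul_same,
      e01 _ _ h01, e10 _ _ h01.symm, smul_zero, add_zero, zero_add, zero_mul, mul_zero]
    linear_combination (norm := module)
      h2 • (-(s * c) • (E i₀ i₁ : Matrix (Fin m) (Fin m) K) - (s * c) • E i₁ i₀
        - (s * s * c) • E i₁ i₁)
  -- second congruence: scale the first coordinate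
  have h3 := hcong _ hB1 (dg i₀ t ht0)
  rw [cong_dg] at h3
  have h4 := 𝒯.add_mem hB1 h3
  refine ⟨c * (1 + t) * (1 + t), ?_, ?_⟩
  · have h1t : 1 + t ≠ 0 := by
      intro h
      apply ht1
      linear_combination h - h2
    exact mul_ne_zero (mul_ne_zero hc h1t) h1t
  · rw [← smul_E]
    convert h4 using 1
    simp only [mul_add, add_mul, mul_smul_comm, smul_mul_assoc, E_mul_same,
      e01 _ _ h01, e10 _ _ h01.symm, smul_zero, add_zero, zero_add, zero_mul, mul_zero]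
    linear_combination (norm := module)
      h2 • ((c * t) • (E i₀ i₀ : Matrix (Fin m) (Fin m) K) - (s * s * c) • E i₁ i₁)

end Cfsg.Agent.Lib.Helper12.SpH1ea
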