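import Mathlib
import Cfsg.Agent.Lib.Helper12.SpSymTools

set_option autoImplicit false
set_option linter.unusedSimpArgs false

namespace Cfsg.Agent.Lib.Helper12.SpH1eb

open Matrix Cfsg.Agent.Lib.Helper12.SpSymTools

theorem sym_step_b (m : ℕ) (K : Type*) [Field K] (hm : 3 ≤ m)
    (𝒯 : AddSubgroup (Matrix (Fin m) (Fin m) K))
    (hcong : ∀ B ∈ 𝒯, ∀ A : GL (Fin m) K, A.1 * B * A.1ᵀ ∈ 𝒯) (i₀ i₁ : Fin m) (h01 : i₀ ≠ i₁)
    (c d : K)
    (h0 : Matrix.single i₀ i₀ c + Matrix.single i₀ i₁ d + Matrix.single i₁ i₀ d ∈ 𝒯) :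
    Matrix.single i₀ i₁ d + Matrix.single i₁ i₀ d ∈ 𝒯 := by
  obtain ⟨i₂, h20, h21⟩ : ∃ i₂ : Fin m, i₂ ≠ i₀ ∧ i₂ ≠ i₁ := by
    by_contra hcon
    push Not at hcon
    have hle : Fintype.card (Fin m) ≤ 2 := by
      calc Fintype.card (Fin m) = (Finset.univ : Finset (Fin m)).card := rfl
        _ ≤ ({i₀, i₁} : Finset (Fin m)).card := Finset.card_le_card (fun i _ => by
            by_cases h : i = i₀
            · simp [h]
            · simp [hcon i h])
        _ ≤ 2 := Finset.card_le_two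
    rw [Fintype.card_fin] at hle
    omega
  rw [← smul_E, ← smul_E, ← smul_E] at h0
  rw [← smul_E, ← smul_E]
  have e01 := E_mul_ne (K := K) (j := i₀) (k := i₁)
  have e10 := E_mul_ne (K := K) (j := i₁) (k := i₀)
  have e02 := E_mul_ne (K := K) (j := i₀) (k := i₂)
  have e20 := E_mul_ne (K := K) (j := i₂) (k := i₀)
  have e12 := E_mul_ne (K := K) (j := i₁) (k := i₂)
  have e21 := E_mul_ne (K := K) (j := i₂) (k := i₁)
  -- first congruence
  have h1 := hcong _ h0 (tv i₂ i₁ h21 1)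
  rw [cong_tv] at h1
  have hX : d • (E i₀ i₂ : Matrix (Fin m) (Fin m) K) + d • E i₂ i₀ ∈ 𝒯 := by
    have h := 𝒯.sub_mem h1 h0
    convert h using 1
    simp only [mul_add, add_mul, mul_smul_comm, smul_mul_assoc, E_mul_same,
      e01 _ _ h01, e10 _ _ h01.symm, e02 _ _ h20.symm, e20 _ _ h20, e12 _ _ h21.symm,
      e21 _ _ h21, smul_zero, add_zero, zero_add, zero_mul, mul_zero]
    module
  -- second congruence
  have h2 := hcong _ hX (tv i₁ i₂ h21.symm 1)
  rw [cong_tv] at h2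
  have h := 𝒯.sub_mem h2 hX
  convert h using 1
  simp only [mul_add, add_mul, mul_smul_comm, smul_mul_assoc, E_mul_same,
    e01 _ _ h01, e10 _ _ h01.symm, e02 _ _ h20.symm, e20 _ _ h20, e12 _ _ h21.symm,
    e21 _ _ h21, smul_zero, add_zero, zero_add, zero_mul, mul_zero]
  module

end Cfsg.Agent.Lib.Helper12.SpH1eb
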