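import Mathlib
import Cfsg.Agent.Lib.Helper48.StB

set_option autoImplicit false

/-! # S2401 piece BR1 (helper12 for helper48): `U = U_a * X_a` and `w_a` normalizes `U_a` into `U` -/

namespace Cfsg.Agent.Lib.Helper48.St

open Cfsg.Agent.Lib.Helper48 Matrix

variable {K : Type*} [Field K] {G : Type*} [Group G] {n : ℕ}
variable {X : Fin n → Fin n → K → G}

/-- `X a b t` normalizes `stUa X a b` -/
theorem h12_stUa_norm (hX : StRel X) (a b : Fin n) (hab : a < b) (t : K) :
    ∀ v ∈ stUa X a b, X a b t * v * (X a b t)⁻¹ ∈ stUa X a b := by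
  intro v hv
  have hab' : a ≠ b := ne_of_lt hab
  unfold stUa at hv
  induction hv using Subgroup.closure_induction with
  | mem x hx =>
    obtain ⟨k, l, v0, hkl, hor, rfl⟩ := hx
    have hkl' : k ≠ l := ne_of_lt hkl
    by_cases hkb : k = b
    · subst hkb
      have hal : a ≠ l := ne_of_lt (lt_trans hab hkl)
      rw [hX.cj a k l hab' hkl' hal t v0]
      exact mul_mem (Subgroup.subset_closure ⟨a, l, _, lt_trans hab hkl, Or.inr hkl'.symm, rfl⟩)
        (Subgroup.subset_closure ⟨k, l, _, hkl, Or.inl hab'.symm, rfl⟩)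
    · by_cases hla : l = a
      · subst hla
        have hkb' : k ≠ b := ne_of_lt (lt_trans hkl hab)
        rw [hX.cj' k l b hkl' hab' hkb' v0 t]
        exact mul_mem (Subgroup.subset_closure ⟨k, b, _, lt_trans hkl hab, Or.inl hkl', rfl⟩)
          (Subgroup.subset_closure ⟨k, l, _, hkl, Or.inl hkl', rfl⟩)
      · rw [hX.cj0 a b k l hab' hkl' (fun h => hla h.symm) (fun h => hkb h.symm) t v0]
        exact Subgroup.subset_closure ⟨k, l, _, hkl, hor, rfl⟩
  | one =>
    rw [mul_one, mul_inv_cancel]
    exact one_mem _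
  | mul x y _ _ hx hy =>
    have e : X a b t * (x * y) * (X a b t)⁻¹ =
        (X a b t * x * (X a b t)⁻¹) * (X a b t * y * (X a b t)⁻¹) := by group
    rw [e]
    exact mul_mem hx hy
  | inv x _ hx =>
    have e : X a b t * x⁻¹ * (X a b t)⁻¹ = (X a b t * x * (X a b t)⁻¹)⁻¹ := by group
    rw [e]
    exact inv_mem hx

theorem stU_decomp (hX : StRel X) (a b : Fin n) (hab : a < b) :
    ∀ u ∈ stU X, ∃ u' ∈ stUa X a b, ∃ s : K, u = u' * X a b s := by
  have hab' : a ≠ b := ne_of_lt hab
  -- left multiplication by a generator preserves the set of decomposable elements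
  have hgen : ∀ (k l : Fin n) (t : K), k < l → ∀ y : G,
      (∃ u' ∈ stUa X a b, ∃ s : K, y = u' * X a b s) →
      ∃ u' ∈ stUa X a b, ∃ s : K, X k l t * y = u' * X a b s := by
    intro k l t hkl y hy
    obtain ⟨u', hu', s, rfl⟩ := hy
    by_cases hor : k ≠ a ∨ l ≠ b
    · refine ⟨X k l t * u', mul_mem (Subgroup.subset_closure ⟨k, l, t, hkl, hor, rfl⟩) hu', s, ?_⟩
      rw [mul_assoc]
    · push Not at hor
      obtain ⟨rfl, rfl⟩ := hor
      refine ⟨X k l t * u' * (X k l t)⁻¹, h12_stUa_norm hX k l hab t u' hu', t + s, ?_⟩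
      rw [← hX.add k l hab' t s]
      group
  have key : ∀ x ∈ stU X, ∀ y : G, (∃ u' ∈ stUa X a b, ∃ s : K, y = u' * X a b s) →
      (∃ u' ∈ stUa X a b, ∃ s : K, x * y = u' * X a b s) ∧
      (∃ u' ∈ stUa X a b, ∃ s : K, x⁻¹ * y = u' * X a b s) := by
    intro x hx
    unfold stU at hx
    induction hx using Subgroup.closure_induction with
    | mem x hx =>
      obtain ⟨k, l, t, hkl, rfl⟩ := hx
      intro y hy
      refine ⟨hgen k l t hkl y hy, ?_⟩
      rw [hX.inv k l (ne_of_lt hkl)]
      exact hgen k l (-t) hkl y hy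
    | one =>
      intro y hy
      rw [inv_one, one_mul]
      exact ⟨hy, hy⟩
    | mul x y _ _ hx hy =>
      intro z hz
      constructor
      · rw [mul_assoc]
        exact (hx _ (hy z hz).1).1
      · rw [_root_.mul_inv_rev, mul_assoc]
        exact (hy _ (hx z hz).2).2
    | inv x _ hx =>
      intro z hz
      rw [inv_inv]
      exact ⟨(hx z hz).2, (hx z hz).1⟩
  intro u hu
  have h1 := (key u hu 1 ⟨1, one_mem _, 0, by rw [hX.zero a b hab', mul_one]⟩).1
  rw [mul_one] at h1
  exact h1

/-- the adjacent transposition `(a, a+1)` preserves the order of every pair other than `(a,a+1)` -/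
theorem h12_swap_lt (a b k l : Fin n) (hab : a.val + 1 = b.val) (hkl : k < l)
    (h : k ≠ a ∨ l ≠ b) : Equiv.swap a b k < Equiv.swap a b l := by
  rw [Equiv.swap_apply_def, Equiv.swap_apply_def]
  rw [Fin.lt_def] at hkl ⊢
  have h' : k.val ≠ a.val ∨ l.val ≠ b.val := by
    rcases h with h | h
    · exact Or.inl (fun e => h (Fin.ext e))
    · exact Or.inr (fun e => h (Fin.ext e))
  by_cases hka : k = a
  · have hla : l ≠ a := by
      intro e
      rw [hka, e] at hkl
      omega
    have hlb : l ≠ b := by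
      intro e
      rcases h' with h' | h'
      · exact h' (by rw [hka])
      · exact h' (by rw [e])
    rw [if_pos hka, if_neg hla, if_neg hlb]
    have : l.val ≠ b.val := fun e => hlb (Fin.ext e)
    rw [hka] at hkl
    omega
  · rw [if_neg hka]
    by_cases hkb : k = b
    · have hla : l ≠ a := by
        intro e
        rw [hkb, e] at hkl
        omega
      have hlb : l ≠ b := by
        intro e
        rw [hkb, e] at hkl
        omega
      rw [if_pos hkb, if_neg hla, if_neg hlb]
      rw [hkb] at hkl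
      omega
    · rw [if_neg hkb]
      have hka' : k.val ≠ a.val := fun e => hka (Fin.ext e)
      have hkb' : k.val ≠ b.val := fun e => hkb (Fin.ext e)
      by_cases hla : l = a
      · rw [if_pos hla]
        rw [hla] at hkl
        omega
      · rw [if_neg hla]
        by_cases hlb : l = b
        · rw [if_pos hlb]
          rw [hlb] at hkl
          omega
        · rw [if_neg hlb]
          exact hkl

theorem stUa_conj_W (hW : WMon X) (a b : Fin n) (hab : a.val + 1 = b.val) (t : K)
    (ht : t ≠ 0) : ∀ u' ∈ stUa X a b, stW X a b t * u' * (stW X a b t)⁻¹ ∈ stU X := by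
  have hab' : a ≠ b := by
    intro h
    rw [h] at hab
    omega
  intro u' hu'
  unfold stUa at hu'
  induction hu' using Subgroup.closure_induction with
  | mem x hx =>
    obtain ⟨k, l, u, hkl, hor, rfl⟩ := hx
    rw [(hW a b hab' t ht).2 k l (ne_of_lt hkl) u]
    exact Subgroup.subset_closure ⟨_, _, _, h12_swap_lt a b k l hab hkl hor, rfl⟩
  | one =>
    rw [mul_one, mul_inv_cancel]
    exact one_mem _
  | mul x y _ _ hx hy =>
    have e : stW X a b t * (x * y) * (stW X a b t)⁻¹ =
        (stW X a b t * x * (stW X a b t)⁻¹) * (stW X a b t * y * (stW X a b t)⁻¹) := by group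
    rw [e]
    exact mul_mem hx hy
  | inv x _ hx =>
    have e : stW X a b t * x⁻¹ * (stW X a b t)⁻¹ = (stW X a b t * x * (stW X a b t)⁻¹)⁻¹ := by
      group
    rw [e]
    exact inv_mem hx

end Cfsg.Agent.Lib.Helper48.St
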