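import Mathlib
import Cfsg.Agent.Lib.Helper48.StB

set_option autoImplicit false

/-! # S2401 piece NKER (helper12 for helper48): the hypotheses of `transp` for `T = stT X`,
`s i j = w_ij(1)` -/

namespace Cfsg.Agent.Lib.Helper48.St

open Cfsg.Agent.Lib.Helper48 Matrix

variable {K : Type*} [Field K] {G : Type*} [Group G] {n : ℕ}
variable {X : Fin n → Fin n → K → G}

theorem h12_stH_mem (i j : Fin n) (hij : i ≠ j) (t : K) (ht : t ≠ 0) : stH X i j t ∈ stT X :=
  Subgroup.subset_closure ⟨i, j, t, hij, ht, rfl⟩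

/-- `w(c t) w(c)⁻¹` lies in the torus -/
theorem h12_WW_mem (i j : Fin n) (hij : i ≠ j) (s t : K) (hs : s ≠ 0) (ht : t ≠ 0) :
    stW X i j s * (stW X i j t)⁻¹ ∈ stT X := by
  have e : stW X i j s * (stW X i j t)⁻¹ = stH X i j s * (stH X i j t)⁻¹ := by
    rw [stW_eq (X := X) i j s, stW_eq (X := X) i j t]
    group
  rw [e]
  exact mul_mem (h12_stH_mem i j hij s hs) (inv_mem (h12_stH_mem i j hij t ht))

theorem nker_hyps (hW : WMon X) (hS : SL2Facts X)
    (π : G →* Matrix.SpecialLinearGroup (Fin n) K)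
    (hπ : ∀ i j (hij : i ≠ j) t, π (X i j t) = Matrix.SpecialLinearGroup.transvection hij t) :
    (∀ i j : Fin n, i ≠ j → ∀ h ∈ stT X, stW X i j (1 : K) * h * (stW X i j (1 : K))⁻¹ ∈ stT X) ∧
    (∀ i j : Fin n, i ≠ j → stW X i j (1 : K) * stW X i j (1 : K) ∈ stT X) ∧
    (∀ i j : Fin n, i ≠ j → stW X j i (1 : K) * (stW X i j (1 : K))⁻¹ ∈ stT X) ∧
    (∀ i j k l : Fin n, i ≠ j → k ≠ l → stW X i j (1 : K) * stW X k l (1 : K) *
      (stW X i j (1 : K))⁻¹ * (stW X (Equiv.swap i j k) (Equiv.swap i j l) (1 : K))⁻¹ ∈ stT X) ∧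
    (∀ (ν : G) (σ σ' : Equiv.Perm (Fin n)) (m m' : Fin n → K),
      IsMon X ν σ m → IsMon X ν σ' m' → σ = σ') := by
  refine ⟨?_, ?_, ?_, ?_, ?_⟩
  · -- (1)
    intro i j hij h hh
    have hmon := hW i j hij 1 one_ne_zero
    unfold stT at hh
    induction hh using Subgroup.closure_induction with
    | mem x hx =>
      obtain ⟨k, l, t, hkl, ht, rfl⟩ := hx
      have hc : stM i j (1 : K) k * (stM i j (1 : K) l)⁻¹ ≠ 0 :=
        mul_ne_zero (hmon.1 k) (inv_ne_zero (hmon.1 l))
      have hkl' : Equiv.swap i j k ≠ Equiv.swap i j l :=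
        fun e => hkl ((Equiv.swap i j).injective e)
      have e : stW X i j (1 : K) * stH X k l t * (stW X i j (1 : K))⁻¹ =
          (stW X i j (1 : K) * stW X k l t * (stW X i j (1 : K))⁻¹) *
            (stW X i j (1 : K) * stW X k l 1 * (stW X i j (1 : K))⁻¹)⁻¹ := by
        unfold stH
        group
      rw [e, isMon_conj_W hmon k l hkl t, isMon_conj_W hmon k l hkl 1]
      exact h12_WW_mem _ _ hkl' _ _ (mul_ne_zero hc ht) (mul_ne_zero hc one_ne_zero)
    | one =>
      rw [mul_one, mul_inv_cancel]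
      exact one_mem _
    | mul x y _ _ hx hy =>
      have e : stW X i j (1 : K) * (x * y) * (stW X i j (1 : K))⁻¹ =
          (stW X i j (1 : K) * x * (stW X i j (1 : K))⁻¹) *
            (stW X i j (1 : K) * y * (stW X i j (1 : K))⁻¹) := by group
      rw [e]
      exact mul_mem hx hy
    | inv x _ hx =>
      have e : stW X i j (1 : K) * x⁻¹ * (stW X i j (1 : K))⁻¹ =
          (stW X i j (1 : K) * x * (stW X i j (1 : K))⁻¹)⁻¹ := by group
      rw [e]
      exact inv_mem hx
  · -- (2)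
    intro i j hij
    rw [hS.W_sq i j hij]
    exact h12_stH_mem i j hij (-1) (neg_ne_zero.mpr one_ne_zero)
  · -- (3)
    intro i j hij
    rw [hS.W_swap i j hij 1 one_ne_zero]
    exact h12_WW_mem i j hij _ _ (neg_ne_zero.mpr (inv_ne_zero one_ne_zero)) one_ne_zero
  · -- (4)
    intro i j k l hij hkl
    have hmon := hW i j hij 1 one_ne_zero
    have hc : stM i j (1 : K) k * (stM i j (1 : K) l)⁻¹ ≠ 0 :=
      mul_ne_zero (hmon.1 k) (inv_ne_zero (hmon.1 l))
    have hkl' : Equiv.swap i j k ≠ Equiv.swap i j l :=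
      fun e => hkl ((Equiv.swap i j).injective e)
    rw [isMon_conj_W hmon k l hkl 1]
    exact h12_WW_mem _ _ hkl' _ _ (mul_ne_zero hc one_ne_zero) one_ne_zero
  · -- (5)
    intro ν σ σ' m m' h h'
    apply Equiv.ext
    intro k
    by_cases hex : ∃ l : Fin n, l ≠ k
    · obtain ⟨l, hlk⟩ := hex
      have hkl : k ≠ l := fun e => hlk e.symm
      have e1 := h.2 k l hkl 1
      have e2 := h'.2 k l hkl 1
      rw [e1] at e2
      have hσ : σ k ≠ σ l := fun e => hkl (σ.injective e)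
      have hσ' : σ' k ≠ σ' l := fun e => hkl (σ'.injective e)
      have e3 := congrArg π e2
      rw [hπ _ _ hσ, hπ _ _ hσ'] at e3
      have e4 := congrArg (fun A : Matrix.SpecialLinearGroup (Fin n) K =>
        (A : Matrix (Fin n) (Fin n) K) (σ k) (σ l)) e3
      simp only [Matrix.SpecialLinearGroup.transvection_coe, Matrix.add_apply,
        Matrix.one_apply_ne hσ, zero_add, Matrix.single_apply] at e4
      have hc : m k * (m l)⁻¹ * 1 ≠ 0 :=
        mul_ne_zero (mul_ne_zero (h.1 k) (inv_ne_zero (h.1 l))) one_ne_zero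
      by_contra hne
      rw [if_pos ⟨trivial, trivial⟩, if_neg (fun hh => hne hh.1.symm)] at e4
      exact hc e4
    · push Not at hex
      rw [hex (σ k), hex (σ' k)]

end Cfsg.Agent.Lib.Helper48.St
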