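import Mathlib
import Cfsg.Agent.Lib.Helper91.SuU
import Cfsg.Agent.Lib.Helper53.SUBasic

/-!
# S5172 piece ZSU (helper12 for helper91): the centre of `SU` has no nontrivial `p`-elements
-/

set_option autoImplicit false

namespace Cfsg.Agent.Lib.Helper12.SuZSU

open Matrix Cfsg.Agent.Lib.Helper91.SuU

theorem center_su_p_free {K : Type*} [Field K] [Fintype K] (p q : ℕ) [Fact p.Prime] [CharP K p]
    (hK : Fintype.card K = q ^ 2) (n : ℕ) (z : ↥(Cfsg.SU n K q))
    (hz : z ∈ Subgroup.center ↥(Cfsg.SU n K q)) (k : ℕ) (hk : z ^ p ^ k = 1) : z = 1 := by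
  rcases Nat.eq_zero_or_pos n with rfl | hn
  · apply Subtype.ext
    apply Subtype.ext
    ext i j
    exact i.elim0
  · obtain ⟨c, hc⟩ := Cfsg.Agent.Lib.Helper53.AutPSU.su_scalar hK hn z hz
    have h1 : Cfsg.Agent.Lib.Helper87.suM (z ^ p ^ k) =
        Cfsg.Agent.Lib.Helper87.suM z ^ p ^ k :=
      Cfsg.Agent.Lib.Helper53.AutPSU.suM_pow z _
    rw [hk, hc] at h1
    have h2 : (1 : Matrix (Fin n) (Fin n) K) =
        (c • (1 : Matrix (Fin n) (Fin n) K)) ^ (p ^ k) := h1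
    rw [smul_pow, one_pow] at h2
    have h3 := congrFun (congrFun h2 ⟨0, hn⟩) ⟨0, hn⟩
    simp only [Matrix.smul_apply, Matrix.one_apply_eq, smul_eq_mul, mul_one] at h3
    have h4 : (c - 1) ^ p ^ k = 0 := by
      rw [sub_pow_char_pow, ← h3, one_pow, sub_self]
    have h5 : c = 1 := sub_eq_zero.mp (pow_eq_zero_iff (pow_ne_zero k (Fact.out : p.Prime).ne_zero) |>.mp h4)
    apply Subtype.ext
    apply Subtype.ext
    show Cfsg.Agent.Lib.Helper87.suM z = 1
    rw [hc, h5, one_smul]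

end Cfsg.Agent.Lib.Helper12.SuZSU
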