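import Mathlib
import Cfsg.Agent.Lib.Helper12.Subnormal

set_option autoImplicit false

namespace Cfsg.Agent.Lib.Helper12

open Subgroup
open scoped Pointwise

universe u

variable {G : Type*} [Group G]

/-- Let `S` be a conjugation-closed family of subnormal subgroups of a finite group and `S₀` a
proper subfamily. Then some member of `S` outside `S₀` normalizes the join of `S₀`. -/
theorem exists_normalizing_of_ssubset [Finite G] (S S₀ : Set (Subgroup G))
    (hS : ∀ U ∈ S, U.IsSubnormal) (hconj : ∀ U ∈ S, ∀ g : G, MulAut.conj g • U ∈ S)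
    (h₀ : S₀ ⊂ S) :
    ∃ X ∈ S, X ∉ S₀ ∧ X ≤ normalizer ((sSup S₀ : Subgroup G) : Set G) := by
  by_contra hno
  push Not at hno
  have hJ : (sSup S₀).IsSubnormal := isSubnormal_sSup S₀ (fun U hU => hS U (h₀.subset hU))
  have key : ∀ T : Subgroup G, T.IsSubnormal → sSup S₀ ≤ T → ∃ Y ∈ S, Y ∉ S₀ ∧ Y ≤ T := by
    intro T hT
    induction hT with
    | top =>
      intro _
      obtain ⟨Y, hY, hY₀⟩ := Set.exists_of_ssubset h₀
      exact ⟨Y, hY, hY₀, le_top⟩
    | step H K hHK hK hN ih =>
      intro hJH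
      obtain ⟨Y, hY, hY₀, hYK⟩ := ih (hJH.trans hHK)
      by_contra hnoH
      push Not at hnoH
      apply hno Y hY hY₀
      have hKN : K ≤ normalizer (H : Set G) := (normal_subgroupOf_iff_le_normalizer hHK).mp hN
      have key2 : ∀ y ∈ Y, ∀ x ∈ sSup S₀, y * x * y⁻¹ ∈ sSup S₀ := by
        intro y hy x hx
        have hle : sSup S₀ ≤ (sSup S₀).comap (MulAut.conj y).toMonoidHom := by
          apply sSup_le
          intro U hU u hu
          rw [mem_comap]
          have hU' : MulAut.conj y • U ∈ S₀ := by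
            by_contra hnot
            apply hnoH (MulAut.conj y • U) (hconj U (h₀.subset hU) y) hnot
            rintro _ ⟨u', hu', rfl⟩
            have huH : u' ∈ H := hJH (le_sSup hU hu')
            exact (mem_normalizer_iff.mp (hKN (hYK hy)) u').mp huH
          exact le_sSup hU' (smul_mem_pointwise_smul u (MulAut.conj y) U hu)
        exact hle hx
      intro y hy
      rw [mem_normalizer_iff]
      intro x
      constructor
      · exact key2 y hy x
      · intro hx
        have h1 := key2 y⁻¹ (inv_mem hy) _ hx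
        simpa [mul_assoc] using h1
  obtain ⟨Y, hY, hY₀, hYJ⟩ := key _ hJ le_rfl
  exact hno Y hY hY₀ (hYJ.trans le_normalizer)

theorem sSup_image_subgroupOf (T : Subgroup G) (S : Set (Subgroup G)) (hle : ∀ U ∈ S, U ≤ T) :
    sSup ((fun U : Subgroup G => U.subgroupOf T) '' S) = (sSup S).subgroupOf T := by
  apply le_antisymm
  · apply sSup_le
    rintro _ ⟨U, hU, rfl⟩
    exact comap_mono (le_sSup hU)
  · rw [← map_subtype_le_map_subtype, subgroupOf_map_subtype, inf_of_le_left (sSup_le hle)]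
    apply sSup_le
    intro U hU
    have h1 : U.subgroupOf T ≤ sSup ((fun U : Subgroup G => U.subgroupOf T) '' S) :=
      le_sSup ⟨U, hU, rfl⟩
    have h2 := map_mono (f := T.subtype) h1
    rwa [subgroupOf_map_subtype, inf_of_le_left (hle U hU)] at h2

/-- Relative version of `exists_normalizing_of_ssubset`, inside a subgroup `T`. -/
theorem exists_normalizing_of_ssubset_rel [Finite G] (T : Subgroup G) (S S₀ : Set (Subgroup G))
    (hle : ∀ U ∈ S, U ≤ T) (hS : ∀ U ∈ S, (U.subgroupOf T).IsSubnormal)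
    (hconj : ∀ U ∈ S, ∀ g ∈ T, MulAut.conj g • U ∈ S) (h₀ : S₀ ⊂ S) :
    ∃ X ∈ S, X ∉ S₀ ∧ X ≤ normalizer ((sSup S₀ : Subgroup G) : Set G) := by
  have hinj : ∀ U ∈ S, ∀ V ∈ S, U.subgroupOf T = V.subgroupOf T → U = V := by
    intro U hU V hV h
    have h1 := congrArg (Subgroup.map T.subtype) h
    rwa [subgroupOf_map_subtype, subgroupOf_map_subtype, inf_of_le_left (hle U hU),
      inf_of_le_left (hle V hV)] at h1
  have h₀' : (fun U : Subgroup G => U.subgroupOf T) '' S₀ ⊂
      (fun U : Subgroup G => U.subgroupOf T) '' S := by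
    refine ⟨Set.image_mono h₀.subset, ?_⟩
    intro hsub
    obtain ⟨Y, hY, hY₀⟩ := Set.exists_of_ssubset h₀
    obtain ⟨V, hV, hVY⟩ := hsub ⟨Y, hY, rfl⟩
    exact hY₀ (hinj V (h₀.subset hV) Y hY hVY ▸ hV)
  obtain ⟨X', hX', hX'₀, hX'N⟩ := exists_normalizing_of_ssubset
    ((fun U : Subgroup G => U.subgroupOf T) '' S) ((fun U : Subgroup G => U.subgroupOf T) '' S₀)
    (by
      rintro _ ⟨U, hU, rfl⟩
      exact hS U hU)
    (by
      rintro _ ⟨U, hU, rfl⟩ g
      exact ⟨MulAut.conj (g : G) • U, hconj U hU g g.2, (conj_smul_subgroupOf (hle U hU) g).symm⟩)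
    h₀'
  obtain ⟨X, hX, rfl⟩ := hX'
  refine ⟨X, hX, fun h => hX'₀ ⟨X, h, rfl⟩, ?_⟩
  rw [sSup_image_subgroupOf T S₀ (fun U hU => hle U (h₀.subset hU))] at hX'N
  intro x hx
  have hxT : x ∈ T := hle X hX hx
  have h1 : (⟨x, hxT⟩ : T) ∈ normalizer (((sSup S₀).subgroupOf T : Subgroup T) : Set T) :=
    hX'N (by rw [mem_subgroupOf]; exact hx)
  exact mem_normalizer_of_subgroupOf (sSup_le (fun U hU => hle U (h₀.subset hU))) h1

theorem isSubnormal_of_normalizerCondition [Finite G] (h : NormalizerCondition G)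
    (H : Subgroup G) : H.IsSubnormal := by
  induction H using WellFoundedGT.induction with
  | ind H ih =>
    by_cases hH : H = ⊤
    · rw [hH]
      exact IsSubnormal.top
    · have hlt : H < normalizer (H : Set G) := h H (lt_top_iff_ne_top.mpr hH)
      exact IsSubnormal.step H _ hlt.le (ih _ hlt) normal_in_normalizer

theorem isSubnormal_of_isPGroup [Finite G] {p : ℕ} [Fact p.Prime] (hG : IsPGroup p G)
    (H : Subgroup G) : H.IsSubnormal :=
  have := hG.isNilpotent
  isSubnormal_of_normalizerCondition Group.normalizerCondition_of_isNilpotent H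

end Cfsg.Agent.Lib.Helper12
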