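import Mathlib
import Cfsg.Agent.Lib.Helper98.T73Defs

/-! Piece T73-ARITHBWD of the S5973 project (helper98): the arithmetic condition implies the
arithmetic model, for even `i`. -/

set_option autoImplicit false

namespace Cfsg.Agent.Lib.Helper98.T73

theorem arithbwd_par_one (n : ℕ) : par (1 : ℤ) n ↔ n % 2 = 0 := by
  unfold par
  rw [if_pos rfl]
  exact Nat.even_iff

theorem arithbwd_par_neg (n : ℕ) : par (-1 : ℤ) n ↔ n % 2 = 1 := by
  unfold par
  rw [if_neg (by norm_num)]
  exact Nat.odd_iff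

theorem arithbwd_par_sgn (ε : ℤ) (hε : ε = 1 ∨ ε = -1) (i A : ℕ) (heven : Even i) :
    (ε * sgn i A = 1 ↔ par ε A) ∧ (sgn i A = ε ↔ par ε A) := by
  have hs : sgn i A = (-1) ^ A := by
    unfold sgn
    rw [if_pos heven]
  rw [hs]
  rcases hε with rfl | rfl
  · have hp : par (1 : ℤ) A ↔ Even A := by
      unfold par
      rw [if_pos rfl]
    rw [hp, one_mul]
    rcases Nat.even_or_odd A with hA | hA
    · rw [Even.neg_one_pow hA]
      simp [hA]
    · rw [Odd.neg_one_pow hA]
      have hA' : ¬ Even A := Nat.not_even_iff_odd.2 hA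
      norm_num [hA']
  · have hp : par (-1 : ℤ) A ↔ Odd A := by
      unfold par
      rw [if_neg (by norm_num)]
    rw [hp]
    rcases Nat.even_or_odd A with hA | hA
    · rw [Even.neg_one_pow hA]
      have hA' : ¬ Odd A := Nat.not_odd_iff_even.2 hA
      norm_num [hA']
    · rw [Odd.neg_one_pow hA]
      norm_num [hA]

theorem arithbwd_om (ε : ℤ) (i d A e : ℕ) (hpar : ε * sgn i A = 1 ↔ A % 2 = e) :
    om ε i d A = if 2 * d = i * A then 0 else if A % 2 = e then (2 * d - i * A) / 2
      else (2 * d - i * A) / 2 - 1 := by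
  unfold om
  by_cases h1 : 2 * d = i * A
  · rw [if_pos h1, if_pos h1]
  · rw [if_neg h1, if_neg h1]
    by_cases h2 : A % 2 = e
    · rw [if_pos h2, if_pos (hpar.2 h2)]
    · rw [if_neg h2, if_neg (fun h => h2 (hpar.1 h))]

theorem arithbwd_core (e h i d n' k ρ A δ c : ℕ) (he : e < 2) (hh : 1 ≤ h) (hi : i = 2 * h)
    (h2d : 2 * d = i * n' + k) (hk : k < i) (hρ : ρ < i) (hn : n' = A + 2 * δ + c)
    (hval : 2 * d = i * A → A % 2 = e)
    (hcond : (2 * ρ ≤ i ∧ k = 0 ∧ n' % 2 ≠ e ∧ 1 ≤ c) ∨ (2 * ρ ≤ k ∧ n' % 2 = e) ∨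
      (2 * ρ < k ∧ n' % 2 ≠ e)) :
    i * δ + ρ ≤ (if 2 * d = i * A then 0 else if A % 2 = e then (2 * d - i * A) / 2
      else (2 * d - i * A) / 2 - 1) := by
  have iA : i * A = 2 * (h * A) := by rw [hi, mul_assoc]
  have in' : i * n' = 2 * (h * n') := by rw [hi, mul_assoc]
  have iδ : i * δ = 2 * (h * δ) := by rw [hi, mul_assoc]
  have e1 : h * n' = h * A + 2 * (h * δ) + h * c := by
    rw [hn]
    ring
  have e2 : c = 0 → h * c = 0 := fun hc => by rw [hc, mul_zero]
  have e3 : c = 1 → h * c = h := fun hc => by rw [hc, mul_one]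
  have e4 : 2 ≤ c → 2 * h ≤ h * c := fun hc => by
    have h5 := Nat.mul_le_mul_left h hc
    omega
  split_ifs with h1 h2
  · omega
  · omega
  · omega

/-- ARITHBWD -/
theorem arith_even_bwd (ε : ℤ) (hε : ε = 1 ∨ ε = -1) (i t d m : ℕ) (hi : 1 ≤ i)
    (heven : Even i) (ht : 1 ≤ t) (hd : 2 ≤ d) (hm : 1 ≤ m) (hmd : m + 1 ≤ d)
    (hC : Cond ε i t d m) : Model ε i t d m := by
  obtain ⟨h, hh⟩ := id heven
  have hi2 : i = 2 * h := by omega
  have hh1 : 1 ≤ h := by omega
  obtain ⟨e, he, hpar⟩ : ∃ e : ℕ, e < 2 ∧ ∀ n : ℕ, par ε n ↔ n % 2 = e := by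
    rcases hε with rfl | rfl
    · exact ⟨0, by norm_num, arithbwd_par_one⟩
    · exact ⟨1, by norm_num, arithbwd_par_neg⟩
  unfold Cond at hC
  rw [if_pos heven] at hC
  obtain ⟨him, hle, hdis⟩ := hC
  intro A hA
  obtain ⟨hA1, hA2, -, hA4⟩ := hA
  have hsg := arithbwd_par_sgn ε hε i A heven
  have h2d := (Nat.div_add_mod (2 * d) i).symm
  have hmm := (Nat.div_add_mod m i).symm
  have hk : 2 * d % i < i := Nat.mod_lt _ (by omega)
  have hρ : m % i < i := Nat.mod_lt _ (by omega)
  have hj₀ : 1 ≤ m / i := Nat.div_pos him (by omega)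
  simp only [hpar] at hdis
  generalize 2 * d / i = n' at *
  generalize 2 * d % i = k at *
  generalize m / i = j₀ at *
  generalize m % i = ρ at *
  have hAn : A ≤ n' := by
    by_contra hcon
    push Not at hcon
    have h5 : i * (n' + 1) ≤ i * A := Nat.mul_le_mul_left i hcon
    rw [mul_add, mul_one] at h5
    omega
  rw [arithbwd_om ε i d A e (hsg.1.trans (hpar A))]
  have hval : 2 * d = i * A → A % 2 = e := fun h => (hpar A).1 (hsg.2.1 (hA4 h))
  by_cases hJ : t + 2 * j₀ ≤ A + 1
  · refine ⟨j₀, ρ, ?_, ?_, hmm⟩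
    · unfold JC
      rw [if_pos heven]
      right
      exact hJ
    · have hcore := arithbwd_core e h i d n' k ρ A 0 (n' - A) he hh1 hi2 h2d hk hρ
        (by omega) hval ?_
      · simpa using hcore
      · rcases hdis with ⟨h1, h2, h3, h4⟩ | h' | h'
        · left
          refine ⟨h1, h2, h3, ?_⟩
          by_contra hc
          have hAe : A = n' := by omega
          apply h3
          rw [← hAe]
          apply hval
          rw [h2d, h2, hAe, add_zero]
        · right; left; exact h'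
        · right; right; exact h'
  · push Not at hJ
    have key : ∀ J : ℕ, J < j₀ → (J = 0 ∨ t + 2 * J ≤ A + 1) → A + 2 * (j₀ - J) ≤ n' →
        (t + 2 * j₀ < n' → A + 2 * (j₀ - J) + 1 ≤ n') →
        ∃ j w, JC i t A j ∧ w ≤ (if 2 * d = i * A then 0 else if A % 2 = e then
          (2 * d - i * A) / 2 else (2 * d - i * A) / 2 - 1) ∧ m = i * j + w := by
      intro J hJ1 hJC hF1 hF2
      refine ⟨J, i * (j₀ - J) + ρ, ?_, ?_, ?_⟩
      · unfold JC
        rw [if_pos heven]
        exact hJC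
      · apply arithbwd_core e h i d n' k ρ A (j₀ - J) (n' - A - 2 * (j₀ - J)) he hh1 hi2 h2d
          hk hρ (by omega) hval
        rcases hdis with ⟨h1, h2, h3, h4⟩ | h' | h'
        · left
          exact ⟨h1, h2, h3, by have h6 := hF2 h4; omega⟩
        · right; left; exact h'
        · right; right; exact h'
      · have h7 : i * j₀ = i * J + i * (j₀ - J) := by
          rw [← mul_add]
          congr 1
          omega
        omega
    by_cases hAt : t + 1 ≤ A
    · exact key ((A + 1 - t) / 2) (by omega) (by omega) (by omega) (by omega)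
    · exact key 0 (by omega) (by omega) (by omega) (by omega)

end Cfsg.Agent.Lib.Helper98.T73
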