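import Mathlib
import Cfsg.Prelude.Def_GeometricClasses
import Cfsg.Agent.Lib.Helper98.TDBase

/-! S5979 piece TD-R (helper12 for helper98): a Kronecker product that is a scalar up to small
rank is a scalar. -/

set_option autoImplicit false

namespace Cfsg.Agent.Lib.Helper98.TD

open Matrix Polynomial
open scoped Kronecker

universe u

/-- the pure tensor `u ⊗ w` -/
def tdr_pt {F : Type*} [Field F] {a b : ℕ} (u : Fin a → F) (w : Fin b → F) :
    Fin a × Fin b → F := fun p => u p.1 * w p.2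

theorem tdr_kron_mulVec_pt {F : Type*} [Field F] {a b : ℕ} (A : Matrix (Fin a) (Fin a) F)
    (B : Matrix (Fin b) (Fin b) F) (u : Fin a → F) (w : Fin b → F) :
    (A ⊗ₖ B) *ᵥ tdr_pt u w = tdr_pt (A *ᵥ u) (B *ᵥ w) := by
  ext ⟨i, j⟩
  simp only [Matrix.mulVec, dotProduct, Matrix.kroneckerMap_apply, tdr_pt,
    Fintype.sum_prod_type, Finset.sum_mul, Finset.mul_sum]
  rw [Finset.sum_comm]
  apply Finset.sum_congr rfl
  intro i' _
  apply Finset.sum_congr rfl
  intro j' _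
  ring

/-- `w ↦ u ⊗ w` -/
def tdr_ptR {F : Type*} [Field F] {a b : ℕ} (u : Fin a → F) :
    (Fin b → F) →ₗ[F] (Fin a × Fin b → F) where
  toFun w := tdr_pt u w
  map_add' w w' := by
    ext p
    simp [tdr_pt, mul_add]
  map_smul' c w := by
    ext p
    simp [tdr_pt, mul_left_comm]

/-- `u ↦ u ⊗ w` -/
def tdr_ptL {F : Type*} [Field F] {a b : ℕ} (w : Fin b → F) :
    (Fin a → F) →ₗ[F] (Fin a × Fin b → F) where
  toFun u := tdr_pt u w
  map_add' u u' := by
    ext p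
    simp [tdr_pt, add_mul]
  map_smul' c u := by
    ext p
    simp [tdr_pt, mul_assoc]

/-- a matrix of rank `< d` kills a nonzero vector of the image of any linear map from `F ^ d` -/
theorem tdr_exists_ker {F : Type*} [Field F] {ι : Type*} [Fintype ι] [DecidableEq ι] {d : ℕ}
    (M : Matrix ι ι F) (hM : M.rank < d) (g : (Fin d → F) →ₗ[F] (ι → F)) :
    ∃ w : Fin d → F, w ≠ 0 ∧ M *ᵥ g w = 0 := by
  have h1 : Module.finrank F ↥(LinearMap.range (M.mulVecLin ∘ₗ g)) ≤ M.rank := by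
    apply Submodule.finrank_mono
    rintro _ ⟨w, rfl⟩
    exact ⟨g w, rfl⟩
  have h2 := LinearMap.finrank_range_add_finrank_ker (M.mulVecLin ∘ₗ g)
  rw [Module.finrank_fin_fun] at h2
  have h3 : LinearMap.ker (M.mulVecLin ∘ₗ g) ≠ ⊥ := by
    intro h
    rw [h, finrank_bot] at h2
    omega
  obtain ⟨w, hw, hw0⟩ := Submodule.exists_mem_ne_zero_of_ne_bot h3
  exact ⟨w, hw0, hw⟩

/-- the eigenvector consequence of `(A ⊗ B) (u ⊗ w) = c (u ⊗ w)` -/
theorem tdr_key {F : Type*} [Field F] {a b : ℕ} (A : Matrix (Fin a) (Fin a) F)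
    (B : Matrix (Fin b) (Fin b) F) (c : F) (hc : c ≠ 0) (u : Fin a → F) (w : Fin b → F)
    (hu : u ≠ 0) (hw : w ≠ 0)
    (h : (A ⊗ₖ B - c • (1 : Matrix (Fin a × Fin b) (Fin a × Fin b) F)) *ᵥ tdr_pt u w = 0) :
    (∃ l : F, A *ᵥ u = l • u) ∧ (∃ m : F, B *ᵥ w = m • w) := by
  rw [Matrix.sub_mulVec, tdr_kron_mulVec_pt, Matrix.smul_mulVec, Matrix.one_mulVec,
    sub_eq_zero] at h
  obtain ⟨i₀, hi₀⟩ := Function.ne_iff.mp hu
  obtain ⟨j₀, hj₀⟩ := Function.ne_iff.mp hw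
  have hi₀' : u i₀ ≠ 0 := hi₀
  have hj₀' : w j₀ ≠ 0 := hj₀
  have hval : ∀ i j, (A *ᵥ u) i * (B *ᵥ w) j = c * (u i * w j) := by
    intro i j
    have := congrFun h (i, j)
    simpa [tdr_pt] using this
  have h00 := hval i₀ j₀
  have hne : (A *ᵥ u) i₀ * (B *ᵥ w) j₀ ≠ 0 := by
    rw [h00]
    exact mul_ne_zero hc (mul_ne_zero hi₀' hj₀')
  have hA0 : (A *ᵥ u) i₀ ≠ 0 := left_ne_zero_of_mul hne
  have hB0 : (B *ᵥ w) j₀ ≠ 0 := right_ne_zero_of_mul hne
  constructor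
  · refine ⟨c * w j₀ / (B *ᵥ w) j₀, ?_⟩
    ext i
    have := hval i j₀
    simp only [Pi.smul_apply, smul_eq_mul]
    field_simp
    linear_combination this
  · refine ⟨c * u i₀ / (A *ᵥ u) i₀, ?_⟩
    ext j
    have := hval i₀ j
    simp only [Pi.smul_apply, smul_eq_mul]
    field_simp
    linear_combination this

/-- a matrix all of whose nonzero vectors are eigenvectors is a scalar -/
theorem tdr_scalar_of_eig {F : Type*} [Field F] {n : ℕ} (A : Matrix (Fin n) (Fin n) F)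
    (h : ∀ u : Fin n → F, u ≠ 0 → ∃ l : F, A *ᵥ u = l • u) :
    ∃ α : F, A = α • (1 : Matrix (Fin n) (Fin n) F) := by
  have h1 : ∀ v : Fin n → F, ¬ LinearIndependent F ![v, Matrix.toLin' A v] := by
    intro v hli
    by_cases hv : v = 0
    · have := hli.ne_zero 0
      simp [hv] at this
    · obtain ⟨l, hl⟩ := h v hv
      rw [LinearIndependent.pair_iff] at hli
      have h2 := hli l (-1) (by
        rw [Matrix.toLin'_apply, hl]
        simp)
      have : (-1 : F) ≠ 0 := by simp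
      exact this h2.2
  obtain ⟨α, hα⟩ := LinearMap.exists_eq_smul_id_of_forall_notLinearIndependent h1
  refine ⟨α, ?_⟩
  apply Matrix.toLin'.injective
  rw [hα, map_smul, Matrix.toLin'_one]
  rfl

theorem kron_scalar_of_rank_lt {F : Type*} [Field F] {a b : ℕ} (hab : a ≤ b)
    (A : Matrix (Fin a) (Fin a) F) (B : Matrix (Fin b) (Fin b) F) (c : F) (hc : c ≠ 0)
    (hr : (A ⊗ₖ B - c • (1 : Matrix (Fin a × Fin b) (Fin a × Fin b) F)).rank < a) :
    ∃ s : F, A ⊗ₖ B = s • (1 : Matrix (Fin a × Fin b) (Fin a × Fin b) F) := by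
  have hA : ∀ u : Fin a → F, u ≠ 0 → ∃ l : F, A *ᵥ u = l • u := by
    intro u hu
    obtain ⟨w, hw, hker⟩ := tdr_exists_ker _ (lt_of_lt_of_le hr hab) (tdr_ptR (b := b) u)
    exact (tdr_key A B c hc u w hu hw hker).1
  have hB : ∀ w : Fin b → F, w ≠ 0 → ∃ m : F, B *ᵥ w = m • w := by
    intro w hw
    obtain ⟨u, hu, hker⟩ := tdr_exists_ker _ hr (tdr_ptL (a := a) w)
    exact (tdr_key A B c hc u w hu hw hker).2
  obtain ⟨α, hα⟩ := tdr_scalar_of_eig A hA
  obtain ⟨β, hβ⟩ := tdr_scalar_of_eig B hB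
  refine ⟨α * β, ?_⟩
  rw [hα, hβ, Matrix.smul_kronecker, Matrix.kronecker_smul, Matrix.one_kronecker_one, smul_smul]

end Cfsg.Agent.Lib.Helper98.TD
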