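import Mathlib
import Cfsg.Prelude.Def_GeometricClasses
import Cfsg.Prelude.Def_LieClassical
import Cfsg.Agent.Lib.Helper71.SUP0
import Cfsg.Agent.Lib.Helper59.U52Defs

/-! Project U52 (helper59, S5796), piece TR: the concrete claim `CC` does not depend on the
choice of the field with four elements. -/

set_option autoImplicit false

namespace Cfsg.Agent.Lib.Helper59.U52

open Matrix Cfsg.Geo

/-- the isomorphism of general linear groups induced by a field isomorphism -/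
noncomputable def TR_Phi {F F' : Type*} [Field F] [Field F'] (e : F' ≃+* F) :
    GL (Fin 5) F' ≃* GL (Fin 5) F :=
  Units.mapEquiv (RingEquiv.mapMatrix e).toMulEquiv

theorem TR_Phi_val {F F' : Type*} [Field F] [Field F'] (e : F' ≃+* F) (g : GL (Fin 5) F') :
    (TR_Phi e g).1 = RingEquiv.mapMatrix e g.1 := rfl

theorem TR_mem {F F' : Type*} [Field F] [Fintype F] [Field F'] [Fintype F']
    (hF : Fintype.card F = 2 ^ 2) (hF' : Fintype.card F' = 2 ^ 2) (e : F' ≃+* F)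
    (g : GL (Fin 5) F') :
    TR_Phi e g ∈ Cfsg.GU 5 F 2 ⊓ specialLinear (Fin 5) F ↔
      g ∈ Cfsg.GU 5 F' 2 ⊓ specialLinear (Fin 5) F' := by
  rw [Subgroup.mem_inf, Subgroup.mem_inf, Cfsg.Agent.Lib.Helper71.SUP.mem_GU_iff_adj hF,
    Cfsg.Agent.Lib.Helper71.SUP.mem_GU_iff_adj hF', Cfsg.Agent.Lib.Helper93.mem_sl_iff,
    Cfsg.Agent.Lib.Helper93.mem_sl_iff, TR_Phi_val]
  have h0 : Cfsg.Agent.Lib.Helper71.SUP.adj 2 (RingEquiv.mapMatrix e g.1) =
      RingEquiv.mapMatrix e (Cfsg.Agent.Lib.Helper71.SUP.adj 2 g.1) := by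
    ext i j
    simp [Cfsg.Agent.Lib.Helper71.SUP.adj_apply, RingEquiv.mapMatrix_apply]
  have h1 : Cfsg.Agent.Lib.Helper71.SUP.adj 2 (RingEquiv.mapMatrix e g.1) *
      RingEquiv.mapMatrix e g.1 =
      RingEquiv.mapMatrix e (Cfsg.Agent.Lib.Helper71.SUP.adj 2 g.1 * g.1) := by
    rw [h0, map_mul]
  have h2 : (RingEquiv.mapMatrix e g.1).det = e g.1.det := (RingEquiv.map_det e g.1).symm
  rw [h1, h2]
  constructor
  · rintro ⟨ha, hd⟩
    refine ⟨?_, ?_⟩
    · apply (RingEquiv.mapMatrix e).injective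
      rw [ha, map_one]
    · apply e.injective
      rw [hd, map_one]
  · rintro ⟨ha, hd⟩
    exact ⟨by rw [ha, map_one], by rw [hd, map_one]⟩

theorem TR_zp {G H : Type*} [Group G] [Group H] (Φ : G ≃* H) (x c : G) :
    Φ x ∈ Subgroup.zpowers (Φ c) ↔ x ∈ Subgroup.zpowers c := by
  simp only [Subgroup.mem_zpowers_iff]
  constructor
  · rintro ⟨k, hk⟩
    exact ⟨k, Φ.injective (by rw [map_zpow, hk])⟩
  · rintro ⟨k, hk⟩
    exact ⟨k, by rw [← map_zpow, hk]⟩

theorem TR_of_equiv {F : Type*} [Field F] [Fintype F] {F' : Type*} [Field F'] [Fintype F']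
    (hF2 : Fintype.card F = 2 ^ 2) (hF2' : Fintype.card F' = 2 ^ 2) (e : F' ≃+* F)
    (h : CC F') : CC F := by
  obtain ⟨c₀, M₀, hc, hord, hM, hne, hN, t, htM, ht⟩ := h
  have hmem := TR_mem hF2 hF2' e
  refine ⟨TR_Phi e c₀, M₀.map (TR_Phi e).toMonoidHom, (hmem c₀).mpr hc, ?_, ?_, ?_, ?_, ?_⟩
  · rw [MulEquiv.orderOf_eq]; exact hord
  · rintro x ⟨m, hm, rfl⟩
    exact (hmem m).mpr (hM hm)
  · intro heq
    apply hne
    refine le_antisymm hM ?_
    intro s hs
    have h1 : TR_Phi e s ∈ M₀.map (TR_Phi e).toMonoidHom := by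
      rw [heq]; exact (hmem s).mpr hs
    obtain ⟨m, hm, hms⟩ := h1
    have : m = s := (TR_Phi e).injective hms
    rw [← this]; exact hm
  · intro g hg hgz
    obtain ⟨g', rfl⟩ := (TR_Phi e).surjective g
    have hg' := (hmem g').mp hg
    rw [← map_inv, ← map_mul, ← map_mul, TR_zp] at hgz
    exact ⟨g', hN g' hg' hgz, rfl⟩
  · refine ⟨TR_Phi e t, ⟨t, htM, rfl⟩, ?_⟩
    rw [← map_inv, ← map_mul, ← map_mul, TR_zp]
    exact ht

-- piece TR
theorem CC_transfer {F : Type*} [Field F] [Fintype F] {F' : Type*} [Field F'] [Fintype F']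
    (hF : Fintype.card F = 4) (hF' : Fintype.card F' = 4) (h : CC F') : CC F := by
  have hF2 : Fintype.card F = 2 ^ 2 := by rw [hF]; norm_num
  have hF2' : Fintype.card F' = 2 ^ 2 := by rw [hF']; norm_num
  exact TR_of_equiv hF2 hF2' (FiniteField.ringEquivOfCardEq (hF'.trans hF.symm)) h

end Cfsg.Agent.Lib.Helper59.U52
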