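import Mathlib
import Cfsg.Prelude.Def_GeometricClasses
import Cfsg.Prelude.Def_ClassicalGeometry
import Cfsg.Prelude.Def_LieClassical
import Cfsg.Agent.Lib.Helper98.U84Defs
import Cfsg.Agent.Lib.Helper98.TDDX

/-! S5984 piece U84-DIAGU (helper12 for helper98): the diagonal matrix `diag(-μ, μ, …, μ)`. -/

set_option autoImplicit false

namespace Cfsg.Agent.Lib.Helper98.U84

open Matrix Polynomial

theorem exists_diag_neg_mu {F : Type*} [Field F] [Fintype F] {q n : ℕ}
    (hF : Fintype.card F = q ^ 2) (h2 : (2 : F) ≠ 0) (hq : Odd q) (hn : 2 ≤ n) (μ : F)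
    (hμ : μ ^ (q + 1) = 1) (hμn : μ ^ n = -1) :
    ∃ M : Matrix (Fin n) (Fin n) F,
      (∀ u w, Cfsg.hermForm n F q (M *ᵥ u) (M *ᵥ w) = Cfsg.hermForm n F q u w) ∧
      M.det = 1 ∧ M ^ 2 = (μ ^ 2) • (1 : Matrix (Fin n) (Fin n) F) ∧
      (M - μ • (1 : Matrix (Fin n) (Fin n) F)).rank = 1 ∧
      ∀ z : F, M ≠ z • (1 : Matrix (Fin n) (Fin n) F) := by
  classical
  let i₀ : Fin n := ⟨0, by omega⟩
  let i₁ : Fin n := ⟨1, by omega⟩
  have h01 : i₁ ≠ i₀ := fun h => absurd (Fin.mk.inj h) (by norm_num)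
  have hμ0 : μ ≠ 0 := by
    rintro rfl
    rw [zero_pow (by omega)] at hμn
    exact one_ne_zero (neg_eq_zero.mp hμn.symm)
  have hμ2 : -μ ≠ μ := by
    intro h
    apply h2
    have h3 : (2 : F) * μ = 0 := by linear_combination -h
    rcases mul_eq_zero.mp h3 with h4 | h4
    · exact h4
    · exact absurd h4 hμ0
  let d : Fin n → F := fun j => μ * (if j = i₀ then -1 else 1)
  have hd0 : d i₀ = -μ := by simp [d]
  have hd1 : d i₁ = μ := by simp [d, h01]
  have hdq : ∀ j, d j ^ (q + 1) = 1 := by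
    intro j
    have heven : Even (q + 1) := by
      obtain ⟨t, ht⟩ := hq
      exact ⟨t + 1, by omega⟩
    by_cases hj : j = i₀
    · simp only [d, hj, if_true, mul_neg, mul_one]
      rw [heven.neg_pow, hμ]
    · simp only [d, hj, if_false, mul_one]
      exact hμ
  refine ⟨Matrix.diagonal d, ?_, ?_, ?_, ?_, ?_⟩
  · intro u w
    unfold Cfsg.hermForm
    refine Finset.sum_congr rfl (fun i _ => ?_)
    rw [Matrix.mulVec_diagonal, Matrix.mulVec_diagonal, mul_pow]
    have h3 : d i * u i * (d i ^ q * w i ^ q) = d i ^ (q + 1) * (u i * w i ^ q) := by ring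
    rw [h3, hdq i, one_mul]
  · rw [Matrix.det_diagonal, Finset.prod_mul_distrib, Finset.prod_const, Finset.card_univ,
      Fintype.card_fin, hμn, Finset.prod_ite_eq' Finset.univ i₀ (fun _ => (-1 : F))]
    simp
  · rw [Matrix.diagonal_pow, ← Matrix.diagonal_one, ← Matrix.diagonal_smul]
    congr 1
    funext j
    by_cases h0 : j = i₀
    · simp [d, h0]
    · simp [d, h0]
  · rw [Cfsg.Agent.Lib.Helper98.TD.tddx_rank_diag_sub d μ]
    have hset : Finset.univ.filter (fun j : Fin n => d j ≠ μ) = {i₀} := by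
      ext j
      simp only [Finset.mem_filter, Finset.mem_univ, true_and, Finset.mem_singleton]
      constructor
      · intro h
        by_contra hne
        apply h
        simp [d, hne]
      · rintro rfl
        rw [hd0]
        exact hμ2
    rw [hset, Finset.card_singleton]
  · intro z hz
    have e0 := congrFun (congrFun hz i₀) i₀
    have e1 := congrFun (congrFun hz i₁) i₁
    rw [Matrix.diagonal_apply_eq, Matrix.smul_apply, Matrix.one_apply_eq, smul_eq_mul, mul_one]
      at e0 e1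
    rw [hd0] at e0
    rw [hd1] at e1
    exact hμ2 (e0.trans e1.symm)

end Cfsg.Agent.Lib.Helper98.U84
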