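import Mathlib
import Cfsg.Agent.Lib.Helper12.Ward3
import Cfsg.Agent.S0058

set_option autoImplicit false
set_option maxHeartbeats 800000
set_option linter.style.haveILetI false

namespace Cfsg.Agent.Lib.Helper12.Ward

open Subgroup Pointwise
open scoped commutatorElement

variable {Γ : Type*} [Group Γ]

theorem mem_cent_singleton {a g : Γ} : g ∈ centralizer ({a} : Set Γ) ↔ a * g = g * a := by
  rw [mem_centralizer_iff]
  constructor
  · intro h; exact h a rfl
  · intro h z hz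
    rw [Set.mem_singleton_iff] at hz
    rw [hz]; exact h

/-- the largest `R`-invariant subgroup of `Q` inside `K` -/
def conjCore (Q R K : Subgroup Γ) : Subgroup Γ where
  carrier := {y | y ∈ Q ∧ ∀ x ∈ R, x * y * x⁻¹ ∈ K}
  one_mem' := ⟨Q.one_mem, fun x _ => by simp⟩
  mul_mem' := by
    rintro y y' ⟨hy, h⟩ ⟨hy', h'⟩
    refine ⟨Q.mul_mem hy hy', fun x hx => ?_⟩
    have e : x * (y * y') * x⁻¹ = (x * y * x⁻¹) * (x * y' * x⁻¹) := by group
    rw [e]; exact K.mul_mem (h x hx) (h' x hx)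
  inv_mem' := by
    rintro y ⟨hy, h⟩
    refine ⟨Q.inv_mem hy, fun x hx => ?_⟩
    have e : x * y⁻¹ * x⁻¹ = (x * y * x⁻¹)⁻¹ := by group
    rw [e]; exact K.inv_mem (h x hx)

theorem mem_conjCore {Q R K : Subgroup Γ} {y : Γ} :
    y ∈ conjCore Q R K ↔ y ∈ Q ∧ ∀ x ∈ R, x * y * x⁻¹ ∈ K := Iff.rfl

variable [Finite Γ]

theorem langSub_fpf_pow {p : ℕ} [hp : Fact p.Prime] {A : Subgroup Γ} (hAp : ∀ a ∈ A, a ^ p = 1)
    (X : Subgroup Γ) (hXc : ∀ v ∈ X, ∀ w ∈ X, v * w = w * v) {a : Γ} (ha : a ∈ A) (ha1 : a ≠ 1)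
    (haX : a ∈ normalizer (X : Set Γ)) (hcop : p.Coprime (Nat.card X)) :
    ∀ j, 0 < j → j < p → ∀ t ∈ langSub X a hXc haX, a ^ j * t = t * a ^ j → t = 1 := by
  intro j hj0 hjp t ht hcomm
  have haj1 : a ^ j ≠ 1 := by
    intro h
    have h1 := orderOf_dvd_of_pow_eq_one h
    rw [orderOf_eq_prime (hAp a ha) ha1] at h1
    exact absurd (Nat.le_of_dvd hj0 h1) (by omega)
  have h1 : a ∈ zpowers (a ^ j) := same_gen hAp ha ha1 (Subgroup.npow_mem_zpowers a j) haj1
  have h2 : a * t = t * a := comm_of_mem_zpowers h1 hcomm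
  obtain ⟨u, hu, rfl⟩ := mem_langSub.mp ht
  exact lang_fpf X a hXc haX (hAp a ha) hcop u hu h2

theorem endgame {p : ℕ} (hp : p.Prime) (A G V Q R : Subgroup Γ) {r q s : ℕ}
    (hr : r.Prime) (hq : q.Prime) (hs : s.Prime)
    (hA : Cfsg.IsElementaryAbelian p A) (hcard : Nat.card A = p ^ 2)
    (hfix : ∀ g ∈ G, (∀ x ∈ A, x * g = g * x) → g = 1)
    (hnil : ∀ a ∈ A, a ≠ 1 → ∀ u ∈ G, ∀ w ∈ G, a * u = u * a → a * w = w * a →
      (orderOf u).Coprime (orderOf w) → u * w = w * u)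
    (hVG : V ≤ G) (hQG : Q ≤ G) (hRG : R ≤ G)
    (hAV : A ≤ normalizer (V : Set Γ)) (hAQ : A ≤ normalizer (Q : Set Γ))
    (hAR : A ≤ normalizer (R : Set Γ))
    (hQV : Q ≤ normalizer (V : Set Γ)) (hRV : R ≤ normalizer (V : Set Γ))
    (hRQ : R ≤ normalizer (Q : Set Γ))
    (hVc : ∀ v ∈ V, ∀ w ∈ V, v * w = w * v)
    (hVr : IsPGroup r V) (hQq : IsPGroup q Q) (hRs : IsPGroup s R)
    (hqr : q ≠ r) (hqs : q ≠ s) (hpq : p ≠ q) (hps : p ≠ s)
    (hQ1 : Q ≠ ⊥)
    (hE1 : ∀ v ∈ V, (∀ y ∈ Q, y * v = v * y) → v = 1) (hV1 : V ≠ ⊥)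
    (hE2 : ∀ V₁ : Subgroup Γ, V₁ ≤ V → A ≤ normalizer (V₁ : Set Γ) →
      Q ≤ normalizer (V₁ : Set Γ) → R ≤ normalizer (V₁ : Set Γ) → V₁ = ⊥ ∨ V₁ = V)
    (hE2' : ∀ y ∈ Q, (∀ v ∈ V, y * v = v * y) → y = 1)
    (hE3 : ∀ Q₁ : Subgroup Γ, Q₁ ≤ Q → Q₁ ≠ Q → A ≤ normalizer (Q₁ : Set Γ) →
      R ≤ normalizer (Q₁ : Set Γ) → ∀ y ∈ Q₁, ∀ x ∈ R, x * y = y * x)
    (hE4 : ∀ R₁ : Subgroup Γ, R₁ ≤ R → R₁ ≠ R → A ≤ normalizer (R₁ : Set Γ) →
      ∀ x ∈ R₁, ∀ y ∈ Q, x * y = y * x)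
    (hE5 : ⁅Q, R⁆ = Q) : False := by
  haveI := Fact.mk hp
  haveI : IsMulCommutative ↥A := hA.1
  have hAp := hA.2
  have hAc : ∀ x ∈ A, ∀ y ∈ A, x * y = y * x := fun x hx y hy =>
    congrArg Subtype.val (hA.1.is_comm.comm (⟨x, hx⟩ : ↥A) ⟨y, hy⟩)
  have hncyc : ¬ IsCyclic A :=
    Cfsg.Agent.Lib.Helper30.not_isCyclic_of_elemAb hA (le_of_eq hcard.symm)
  have hcopA : ∀ (K : Subgroup Γ) (t : ℕ), t.Prime → p ≠ t → IsPGroup t K →
      (Nat.card A).Coprime (Nat.card K) := by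
    intro K t ht hpt hK
    haveI := Fact.mk ht
    obtain ⟨l, hl⟩ := IsPGroup.iff_card.mp hK
    rw [hcard, hl]
    exact Nat.Coprime.pow _ _ ((Nat.coprime_primes hp ht).mpr hpt)
  have hgen : ∀ (K : Subgroup Γ) (t : ℕ), t.Prime → p ≠ t → IsPGroup t K →
      A ≤ normalizer (K : Set Γ) →
      ∀ Y : Subgroup Γ, (∀ a ∈ A, a ≠ 1 → K ⊓ centralizer {a} ≤ Y) → K ≤ Y := by
    intro K t ht hpt hK hAK Y hY
    have h := Cfsg.Agent.S0058.result A K hncyc hAK (hcopA K t ht hpt hK)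
    rw [← h]
    exact iSup₂_le (fun a ha => hY a ha.1 ha.2)
  have hcopQ : p.Coprime (Nat.card Q) := by
    haveI := Fact.mk hq
    obtain ⟨l, hl⟩ := IsPGroup.iff_card.mp hQq
    rw [hl]
    exact Nat.Coprime.pow_right _ ((Nat.coprime_primes hp hq).mpr hpq)
  have hnc : ¬ (∀ y ∈ Q, ∀ x ∈ R, x * y = y * x) := by
    intro h
    apply hQ1
    rw [← hE5, Subgroup.commutator_eq_bot_iff_le_centralizer]
    intro y hy
    rw [mem_centralizer_iff]
    intro x hx
    exact h y hy x hx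
  -- Step A
  obtain ⟨a₀, ha₀, ha₀1, hRa₀⟩ : ∃ a₀ ∈ A, a₀ ≠ 1 ∧ ∀ x ∈ R, a₀ * x = x * a₀ := by
    by_contra hcon
    push Not at hcon
    apply hnc
    have h1 : R ≤ centralizer (Q : Set Γ) := by
      apply hgen R s hs hps hRs hAR
      intro a ha ha1
      obtain ⟨x₀, hx₀, hx₀a⟩ := hcon a ha ha1
      have hne : R ⊓ centralizer {a} ≠ R := by
        intro h
        have h2 : x₀ ∈ R ⊓ centralizer ({a} : Set Γ) := by rw [h]; exact hx₀
        exact hx₀a (mem_cent_singleton.mp h2.2)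
      have hAn : A ≤ normalizer ((R ⊓ centralizer {a} : Subgroup Γ) : Set Γ) := by
        intro a' ha'
        apply nz_inf (hAR ha')
        exact Subgroup.le_normalizer (mem_cent_singleton.mpr (hAc a ha a' ha'))
      intro x hx
      rw [mem_centralizer_iff]
      intro y hy
      exact (hE4 _ inf_le_left hne hAn x hx y hy).symm
    intro y hy x hx
    have h2 := h1 hx
    rw [mem_centralizer_iff] at h2
    exact (h2 y hy).symm
  have hQ0R : ∀ y ∈ Q, a₀ * y = y * a₀ → ∀ x ∈ R, x * y = y * x := by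
    intro y hy hya x hx
    exact hnil a₀ ha₀ ha₀1 x (hRG hx) y (hQG hy) (hRa₀ x hx) hya
      (coprime_orderOf hs hq (Ne.symm hqs) hRs hQq hx hy)
  have hfix2 : ∀ x ∈ A, x ≠ 1 → ∀ x' ∈ A, x' ∉ zpowers x → ∀ g ∈ G, x * g = g * x →
      x' * g = g * x' → g = 1 := by
    intro x hx hx1 x' hx' hnot g hg h1 h2
    apply hfix g hg
    intro z hz
    exact comm_of_mem_sup_zpowers (indep_gen hAp hcard hx hx1 hx' hnot hz) h1 h2
  have hRfpf : ∀ a ∈ A, a ∉ zpowers a₀ → ∀ x ∈ R, a * x = x * a → x = 1 := by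
    intro a ha hnot x hx hax
    exact hfix2 a₀ ha₀ ha₀1 a ha hnot x (hRG hx) (hRa₀ x hx) hax
  have hF : ∀ a ∈ A, a ≠ 1 → (∀ y ∈ Q, a * y = y * a) → False := by
    intro a ha ha1 hcent
    by_cases hmem : a ∈ zpowers a₀
    · have h1 : a₀ ∈ zpowers a := same_gen hAp ha₀ ha₀1 hmem ha1
      apply hnc
      intro y hy x hx
      exact hQ0R y hy (comm_of_mem_zpowers h1 (hcent y hy)) x hx
    · apply hnc
      intro y hy t ht
      obtain ⟨x, hx, rfl⟩ := lang_surj R a (hAR ha) (hRfpf a ha hmem) t ht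
      have c1 : a⁻¹ * y * a = y := by
        have h2 := hcent y hy
        calc a⁻¹ * y * a = a⁻¹ * (y * a) := by group
          _ = a⁻¹ * (a * y) := by rw [h2]
          _ = y := by group
      have c2 : a * (x * y * x⁻¹) * a⁻¹ = x * y * x⁻¹ :=
        conj_eq_of_comm (hcent _ (conj_mem_of_nz (hRQ hx) hy))
      apply comm_of_conj_eq
      calc (x⁻¹ * (a * x * a⁻¹)) * y * (x⁻¹ * (a * x * a⁻¹))⁻¹
          = x⁻¹ * (a * (x * (a⁻¹ * y * a) * x⁻¹) * a⁻¹) * x := by group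
        _ = x⁻¹ * (x * y * x⁻¹) * x := by rw [c1, c2]
        _ = y := by group
  by_cases hQc : ∀ v ∈ Q, ∀ w ∈ Q, v * w = w * v
  swap
  · -- nonabelian case
    obtain ⟨Z, hZdef⟩ : ∃ Z : Subgroup Γ, Z = Q ⊓ centralizer (Q : Set Γ) := ⟨_, rfl⟩
    have hZQ : Z ≤ Q := hZdef ▸ inf_le_left
    have hZcent : ∀ z ∈ Z, ∀ y ∈ Q, y * z = z * y := by
      intro z hz y hy
      rw [hZdef] at hz
      exact (mem_centralizer_iff.mp hz.2) y hy
    have hZne : Z ≠ Q := by
      intro h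
      apply hQc
      intro v hv w hw
      have hv' : v ∈ Z := h ▸ hv
      exact (hZcent v hv' w hw).symm
    have hZ1 : Z ≠ ⊥ := by
      haveI : Nontrivial ↥Q := (Subgroup.nontrivial_iff_ne_bot Q).mpr hQ1
      haveI := Fact.mk hq
      haveI := hQq.center_nontrivial
      obtain ⟨z, hz1⟩ := exists_ne (1 : Subgroup.center ↥Q)
      intro hbot
      apply hz1
      have hzZ : ((z : ↥Q) : Γ) ∈ Z := by
        rw [hZdef]
        refine Subgroup.mem_inf.mpr ⟨(z : ↥Q).2, ?_⟩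
        rw [mem_centralizer_iff]
        intro h hh
        have h3 := Subgroup.mem_center_iff.mp z.2 ⟨h, hh⟩
        exact congrArg Subtype.val h3
      rw [hbot, Subgroup.mem_bot] at hzZ
      exact Subtype.ext (Subtype.ext hzZ)
    have hAZ : A ≤ normalizer (Z : Set Γ) := fun a ha => by
      rw [hZdef]; exact nz_inf (hAQ ha) (nz_centralizer (hAQ ha))
    have hRZn : R ≤ normalizer (Z : Set Γ) := fun x hx => by
      rw [hZdef]; exact nz_inf (hRQ hx) (nz_centralizer (hRQ hx))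
    have hRZ : ∀ z ∈ Z, ∀ x ∈ R, x * z = z * x := hE3 Z hZQ hZne hAZ hRZn
    have hZc : ∀ v ∈ Z, ∀ w ∈ Z, v * w = w * v := fun v hv w hw => hZcent w hw v (hZQ hv)
    have hcopZ : p.Coprime (Nat.card Z) :=
      Nat.Coprime.coprime_dvd_right (Subgroup.card_dvd_of_le hZQ) hcopQ
    have hdich : ∀ a (ha : a ∈ A), a ≠ 1 →
        (∀ z ∈ Z, a * z = z * a) ∨ (∀ y ∈ Q, a * y = y * a → y = 1) := by
      intro a ha ha1
      have hBZ : langSub Z a hZc (hAZ ha) ≤ Z := langSub_le Z a hZc (hAZ ha)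
      have hBQ : langSub Z a hZc (hAZ ha) ≤ Q := hBZ.trans hZQ
      have hWA : A ≤ normalizer ((V ⊓ centralizer ((langSub Z a hZc (hAZ ha) : Subgroup Γ) : Set Γ)
          : Subgroup Γ) : Set Γ) := by
        intro a' ha'
        exact nz_inf (hAV ha') (nz_centralizer
          (nz_langSub Z a hZc (hAZ ha) (hAZ ha') (hAc a' ha' a ha)))
      have hWQ : Q ≤ normalizer ((V ⊓ centralizer ((langSub Z a hZc (hAZ ha) : Subgroup Γ) : Set Γ)
          : Subgroup Γ) : Set Γ) := by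
        intro y hy
        apply nz_inf (hQV hy)
        apply nz_centralizer
        apply Subgroup.centralizer_le_normalizer
        rw [mem_centralizer_iff]
        intro x hx
        exact (hZcent x (hBZ hx) y hy).symm
      have hWR : R ≤ normalizer ((V ⊓ centralizer ((langSub Z a hZc (hAZ ha) : Subgroup Γ) : Set Γ)
          : Subgroup Γ) : Set Γ) := by
        intro x hx
        apply nz_inf (hRV hx)
        apply nz_centralizer
        apply Subgroup.centralizer_le_normalizer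
        rw [mem_centralizer_iff]
        intro z hz
        exact (hRZ z (hBZ hz) x hx).symm
      rcases hE2 _ inf_le_left hWA hWQ hWR with hW | hW
      · right
        intro y hy hya
        apply hE2' y hy
        refine c2_bridge hp.pos V (langSub Z a hZc (hAZ ha)) V a y hVc (hAV ha) (hBQ.trans hQV)
          (hQV hy) (nz_langSub Z a hZc (hAZ ha) (hAZ ha) rfl) (hAp a ha)
          (langSub_fpf_pow hAp Z hZc ha ha1 (hAZ ha) hcopZ) hya.symm
          (fun x hx => hZcent x (hBZ hx) y hy)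
          (fun v hv hav => hnil a ha ha1 y (hQG hy) v (hVG hv) hya hav
            (coprime_orderOf hq hr hqr hQq hVr hy hv))
          (coprime_card hq hr hqr (hQq.to_le hBQ) hVr) le_rfl (hBQ.trans hQV) ?_
        intro w hw hb
        have h2 : w ∈ V ⊓ centralizer ((langSub Z a hZc (hAZ ha) : Subgroup Γ) : Set Γ) :=
          Subgroup.mem_inf.mpr ⟨hw, mem_centralizer_iff.mpr hb⟩
        rw [hW, Subgroup.mem_bot] at h2
        exact h2
      · left
        intro z hz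
        have hmem : z⁻¹ * (a * z * a⁻¹) ∈ langSub Z a hZc (hAZ ha) := mem_langSub.mpr ⟨z, hz, rfl⟩
        have hcv : ∀ v ∈ V, (z⁻¹ * (a * z * a⁻¹)) * v = v * (z⁻¹ * (a * z * a⁻¹)) := by
          intro v hv
          have h2 : v ∈ V ⊓ centralizer ((langSub Z a hZc (hAZ ha) : Subgroup Γ) : Set Γ) := by
            rw [hW]; exact hv
          exact (mem_centralizer_iff.mp h2.2) _ hmem
        have h1 := hE2' _ (hBQ hmem) hcv
        have h2 : a * z * a⁻¹ = z := by
          calc a * z * a⁻¹ = z * (z⁻¹ * (a * z * a⁻¹)) := by group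
            _ = z := by rw [h1, mul_one]
        exact comm_of_conj_eq h2
    have hex : ∃ a ∈ A, a ≠ 1 ∧ ∀ z ∈ Z, a * z = z * a := by
      by_contra hcon
      push Not at hcon
      apply hQ1
      rw [eq_bot_iff]
      apply hgen Q q hq hpq hQq hAQ
      intro a ha ha1 y hy
      rcases hdich a ha ha1 with h | h
      · obtain ⟨z, hz, hne⟩ := hcon a ha ha1
        exact absurd (h z hz) hne
      · rw [Subgroup.mem_bot]
        exact h y hy.1 (mem_cent_singleton.mp hy.2)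
    obtain ⟨a₁, ha₁, ha₁1, hZa₁⟩ := hex
    apply hF a₁ ha₁ ha₁1
    have hQle : Q ≤ centralizer ({a₁} : Set Γ) := by
      apply hgen Q q hq hpq hQq hAQ
      intro a ha ha1 y hy
      by_cases hmem : a ∈ zpowers a₁
      · have h1 : a₁ ∈ zpowers a := same_gen hAp ha₁ ha₁1 hmem ha1
        exact mem_cent_singleton.mpr (comm_of_mem_zpowers h1 (mem_cent_singleton.mp hy.2))
      · rcases hdich a ha ha1 with h | h
        · exfalso
          apply hZ1
          rw [eq_bot_iff]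
          intro z hz
          rw [Subgroup.mem_bot]
          exact hfix2 a₁ ha₁ ha₁1 a ha hmem z (hQG (hZQ hz)) (hZa₁ z hz) (h z hz)
        · have h2 := h y hy.1 (mem_cent_singleton.mp hy.2)
          rw [h2]; exact Subgroup.one_mem _
    intro y hy
    exact mem_cent_singleton.mp (hQle hy)
  · -- abelian case
    have hcopRQ : (Nat.card R).Coprime (Nat.card Q) := coprime_card hs hq (Ne.symm hqs) hRs hQq
    have hQ0 : ∀ y ∈ Q, a₀ * y = y * a₀ → y = 1 := fun y hy hya =>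
      comm_fix_trivial Q R hQc hRQ hcopRQ (le_of_eq hE5.symm) y hy (hQ0R y hy hya)
    have hBle : ∀ a (ha : a ∈ A), langSub Q a hQc (hAQ ha) ≤ Q :=
      fun a ha => langSub_le Q a hQc (hAQ ha)
    haveI : Nonempty {K : Subgroup Γ // K ≤ Q ∧ V ⊓ centralizer (K : Set Γ) ≠ ⊥} :=
      ⟨⟨⊥, bot_le, by
        intro h
        apply hV1
        rw [eq_bot_iff, ← h]
        intro v hv
        refine Subgroup.mem_inf.mpr ⟨hv, ?_⟩
        rw [mem_centralizer_iff]
        intro x hx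
        have hx' : x = 1 := Subgroup.mem_bot.mp hx
        rw [hx']; simp⟩⟩
    obtain ⟨⟨K, hKQ, hKV⟩, hmax⟩ := Finite.exists_max
      (fun K : {K : Subgroup Γ // K ≤ Q ∧ V ⊓ centralizer (K : Set Γ) ≠ ⊥} => Nat.card K.1)
    have hmax' : ∀ K' : Subgroup Γ, K' ≤ Q → V ⊓ centralizer (K' : Set Γ) ≠ ⊥ →
        Nat.card K' ≤ Nat.card K := fun K' h1 h2 => hmax ⟨K', h1, h2⟩
    have hneQ : ∀ K' : Subgroup Γ, V ⊓ centralizer (K' : Set Γ) ≠ ⊥ → K' ≠ Q := by
      intro K' h hK'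
      apply h
      rw [eq_bot_iff]
      intro v hv
      rw [Subgroup.mem_bot]
      apply hE1 v hv.1
      intro y hy
      have hy' : y ∈ K' := hK' ▸ hy
      exact (mem_centralizer_iff.mp hv.2) y hy'
    have hexB : ∀ K' : Subgroup Γ, K' ≤ Q → V ⊓ centralizer (K' : Set Γ) ≠ ⊥ →
        Nat.card K ≤ Nat.card K' →
        ∃ a, ∃ ha : a ∈ A, a ≠ 1 ∧ langSub Q a hQc (hAQ ha) ≤ K' := by
      intro K' hK'Q hK'V hK'card
      by_contra hcon
      push Not at hcon
      apply hK'V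
      rw [eq_bot_iff]
      intro v hv
      rw [Subgroup.mem_bot]
      apply hE1 v hv.1
      have hQU : Q ≤ centralizer ((V ⊓ centralizer (K' : Set Γ) : Subgroup Γ) : Set Γ) := by
        apply hgen Q q hq hpq hQq hAQ
        intro a ha ha1 y hy
        have hya : a * y = y * a := mem_cent_singleton.mp hy.2
        have hBQ : langSub Q a hQc (hAQ ha) ≤ Q := hBle a ha
        have hBK : ¬ langSub Q a hQc (hAQ ha) ≤ K' := hcon a ha ha1
        rw [mem_centralizer_iff]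
        intro v' hv'
        have key := c2_bridge hp.pos V (langSub Q a hQc (hAQ ha)) (V ⊓ centralizer (K' : Set Γ))
          a y hVc (hAV ha) (hBQ.trans hQV) (hQV hy.1)
          (nz_langSub Q a hQc (hAQ ha) (hAQ ha) rfl) (hAp a ha)
          (langSub_fpf_pow hAp Q hQc ha ha1 (hAQ ha) hcopQ)
          hya.symm (fun x hx => hQc y hy.1 x (hBQ hx))
          (fun v hv hav => hnil a ha ha1 y (hQG hy.1) v (hVG hv) hya hav
            (coprime_orderOf hq hr hqr hQq hVr hy.1 hv))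
          (coprime_card hq hr hqr (hQq.to_le hBQ) hVr) inf_le_left ?_ ?_
        · exact (key v' hv').symm
        · intro t ht
          apply nz_inf (hQV (hBQ ht))
          apply nz_centralizer
          apply Subgroup.centralizer_le_normalizer
          rw [mem_centralizer_iff]
          intro k hk
          exact hQc k (hK'Q hk) t (hBQ ht)
        · intro w hw hb
          by_contra hw1
          have hsup : V ⊓ centralizer ((K' ⊔ langSub Q a hQc (hAQ ha) : Subgroup Γ) : Set Γ)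
              ≠ ⊥ := by
            intro h
            apply hw1
            have h3 : w ∈ V ⊓ centralizer ((K' ⊔ langSub Q a hQc (hAQ ha) : Subgroup Γ)
                : Set Γ) := by
              refine Subgroup.mem_inf.mpr ⟨hw.1, ?_⟩
              rw [mem_centralizer_iff]
              intro z hz
              have hle : K' ⊔ langSub Q a hQc (hAQ ha) ≤ centralizer ({w} : Set Γ) := by
                apply sup_le
                · intro k hk
                  exact mem_cent_singleton.mpr ((mem_centralizer_iff.mp hw.2) k hk).symm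
                · intro b hb'
                  exact mem_cent_singleton.mpr (hb b hb').symm
              exact (mem_cent_singleton.mp (hle hz)).symm
            rw [h, Subgroup.mem_bot] at h3
            exact h3
          have hcard' := hmax' _ (sup_le hK'Q hBQ) hsup
          have heq : K' = K' ⊔ langSub Q a hQc (hAQ ha) :=
            Subgroup.eq_of_le_of_card_ge le_sup_left (hcard'.trans hK'card)
          exact hBK (heq ▸ le_sup_right)
      intro y hy
      exact ((mem_centralizer_iff.mp (hQU hy)) v hv).symm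
    have hB0 : ∀ a (ha : a ∈ A), a ≠ 1 → a ∈ zpowers a₀ → Q ≤ langSub Q a hQc (hAQ ha) := by
      intro a ha ha1 hmem t ht
      have h1 : a₀ ∈ zpowers a := same_gen hAp ha₀ ha₀1 hmem ha1
      have hfpf : ∀ y ∈ Q, a * y = y * a → y = 1 :=
        fun y hy hay => hQ0 y hy (comm_of_mem_zpowers h1 hay)
      obtain ⟨u, hu, rfl⟩ := lang_surj Q a (hAQ ha) hfpf t ht
      exact mem_langSub.mpr ⟨u, hu, rfl⟩
    obtain ⟨a₁, ha₁, ha₁1, hB₁K⟩ := hexB K hKQ hKV le_rfl
    have ha₁0 : a₁ ∉ zpowers a₀ := fun hmem =>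
      hneQ K hKV (le_antisymm hKQ ((hB0 a₁ ha₁ ha₁1 hmem).trans hB₁K))
    have hconjK : ∀ x ∈ R, (MulAut.conj x • K ≤ Q) ∧
        V ⊓ centralizer ((MulAut.conj x • K : Subgroup Γ) : Set Γ) ≠ ⊥ ∧
        Nat.card K ≤ Nat.card (MulAut.conj x • K : Subgroup Γ) := by
      intro x hx
      refine ⟨?_, ?_, ?_⟩
      · intro z hz
        rw [Cfsg.Agent.Lib.Helper1.mem_conj_smul_iff] at hz
        have h1 := conj_mem_of_nz (hRQ hx) (hKQ hz)
        have e : x * (x⁻¹ * z * x) * x⁻¹ = z := by group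
        rwa [e] at h1
      · intro h
        apply hKV
        rw [eq_bot_iff]
        intro v hv
        rw [Subgroup.mem_bot]
        have h2 : x * v * x⁻¹ ∈ V ⊓ centralizer ((MulAut.conj x • K : Subgroup Γ) : Set Γ) := by
          refine Subgroup.mem_inf.mpr ⟨conj_mem_of_nz (hRV hx) hv.1, ?_⟩
          rw [mem_centralizer_iff]
          intro z hz
          rw [SetLike.mem_coe, Cfsg.Agent.Lib.Helper1.mem_conj_smul_iff] at hz
          have h1 := (mem_centralizer_iff.mp hv.2) _ hz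
          calc z * (x * v * x⁻¹) = x * ((x⁻¹ * z * x) * v) * x⁻¹ := by group
            _ = x * (v * (x⁻¹ * z * x)) * x⁻¹ := by rw [h1]
            _ = x * v * x⁻¹ * z := by group
        rw [h, Subgroup.mem_bot] at h2
        have e : v = x⁻¹ * (x * v * x⁻¹) * x := by group
        rw [e, h2]; group
      · rw [Cfsg.Agent.Lib.Helper1.card_conj_smul]
    have hall : ∀ x ∈ R, langSub Q a₁ hQc (hAQ ha₁) ≤ MulAut.conj x • K := by
      intro x hx
      obtain ⟨h1, h2, h3⟩ := hconjK x hx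
      obtain ⟨a₂, ha₂, ha₂1, hB₂⟩ := hexB _ h1 h2 h3
      have ha₂D : a₂ ∈ dSub Q (MulAut.conj x • K) :=
        mem_dSub.mpr ⟨hAQ ha₂, fun y hy => hB₂ (mem_langSub.mpr ⟨y, hy, rfl⟩)⟩
      by_cases hmem : a₁ ∈ zpowers a₂
      · have h4 : a₁ ∈ dSub Q (MulAut.conj x • K) := (zpowers_le.mpr ha₂D) hmem
        intro t ht
        obtain ⟨u, hu, rfl⟩ := mem_langSub.mp ht
        exact (mem_dSub.mp h4).2 u hu
      · exfalso
        have hA12 : A ≤ zpowers a₂ ⊔ zpowers a₁ := indep_gen hAp hcard ha₂ ha₂1 ha₁ hmem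
        have ha₁D : a₁ ∈ dSub Q K ⊓ normalizer (R : Set Γ) :=
          Subgroup.mem_inf.mpr ⟨mem_dSub.mpr ⟨hAQ ha₁,
            fun y hy => hB₁K (mem_langSub.mpr ⟨y, hy, rfl⟩)⟩, hAR ha₁⟩
        have hδD : x⁻¹ * a₂ * x ∈ dSub Q K ⊓ normalizer (R : Set Γ) := by
          refine Subgroup.mem_inf.mpr ⟨mem_dSub.mpr ⟨?_, ?_⟩, ?_⟩
          · exact Subgroup.mul_mem _ (Subgroup.mul_mem _ (Subgroup.inv_mem _ (hRQ hx)) (hAQ ha₂))
              (hRQ hx)
          · intro y hy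
            have h4 := hB₂ (mem_langSub.mpr ⟨x * y * x⁻¹, conj_mem_of_nz (hRQ hx) hy, rfl⟩)
            rw [Cfsg.Agent.Lib.Helper1.mem_conj_smul_iff] at h4
            have e : y⁻¹ * (x⁻¹ * a₂ * x * y * (x⁻¹ * a₂ * x)⁻¹)
                = x⁻¹ * ((x * y * x⁻¹)⁻¹ * (a₂ * (x * y * x⁻¹) * a₂⁻¹)) * x := by group
            rw [e]; exact h4
          · exact Subgroup.mul_mem _ (Subgroup.mul_mem _
              (Subgroup.inv_mem _ (Subgroup.le_normalizer hx)) (hAR ha₂))
              (Subgroup.le_normalizer hx)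
        have ha₂mem : a₂ ∈ (dSub Q K ⊓ normalizer (R : Set Γ)) ⊔ R := by
          have e : a₂ = (x⁻¹ * a₂ * x) * ((x⁻¹ * a₂ * x)⁻¹ * x * (x⁻¹ * a₂ * x) * x⁻¹) := by
            group
          rw [e]
          apply Subgroup.mul_mem _ (Subgroup.mem_sup_left hδD) (Subgroup.mem_sup_right _)
          exact R.mul_mem (conj_mem_of_nz' (Subgroup.mem_inf.mp hδD).2 hx) (R.inv_mem hx)
        have ha₀mem : a₀ ∈ (dSub Q K ⊓ normalizer (R : Set Γ)) ⊔ R := by
          have h5 : zpowers a₂ ⊔ zpowers a₁ ≤ (dSub Q K ⊓ normalizer (R : Set Γ)) ⊔ R :=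
            sup_le (zpowers_le.mpr ha₂mem) (zpowers_le.mpr (Subgroup.mem_sup_left ha₁D))
          exact h5 (hA12 ha₀)
        have hset := Subgroup.coe_mul_of_left_le_normalizer_right
          (dSub Q K ⊓ normalizer (R : Set Γ)) R inf_le_right
        have h6 : a₀ ∈ ((dSub Q K ⊓ normalizer (R : Set Γ) : Subgroup Γ) : Set Γ) * (R : Set Γ) := by
          rw [← hset]; exact ha₀mem
        obtain ⟨e, he, t, ht, het⟩ := Set.mem_mul.mp h6
        have hcomm : a₀ * t = t * a₀ := hRa₀ t ht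
        have he' : e = a₀ * t⁻¹ := by rw [← het]; group
        have hpow : e ^ Nat.card R = a₀ ^ Nat.card R := by
          have hc : Commute a₀ t⁻¹ := Commute.inv_right (show Commute a₀ t from hcomm)
          rw [he', hc.mul_pow]
          have h7 : t ^ Nat.card R = 1 := by
            have h8 := pow_card_eq_one' (G := ↥R) (x := ⟨t, ht⟩)
            exact congrArg Subtype.val h8
          rw [inv_pow, h7, inv_one, mul_one]
        have h9 : a₀ ^ Nat.card R ∈ dSub Q K :=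
          hpow ▸ (Subgroup.pow_mem _ (Subgroup.mem_inf.mp he).1 _)
        have hcop : (Nat.card R).Coprime (orderOf a₀) := by
          rw [orderOf_eq_prime (hAp a₀ ha₀) ha₀1]
          haveI := Fact.mk hs
          obtain ⟨l, hl⟩ := IsPGroup.iff_card.mp hRs
          rw [hl]
          exact Nat.Coprime.pow_left _ ((Nat.coprime_primes hs hp).mpr (Ne.symm hps))
        obtain ⟨m, hm⟩ := exists_pow_eq_self_of_coprime hcop
        have h10 : a₀ ∈ dSub Q K := hm ▸ Subgroup.pow_mem _ h9 m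
        apply hneQ K hKV
        apply le_antisymm hKQ
        intro t' ht'
        obtain ⟨u, hu, rfl⟩ := mem_langSub.mp (hB0 a₀ ha₀ ha₀1 (mem_zpowers a₀) ht')
        exact (mem_dSub.mp h10).2 u hu
    have hK₁K : conjCore Q R K ≤ K := by
      intro y hy
      have h1 := (mem_conjCore.mp hy).2 1 R.one_mem
      simpa using h1
    have hBK₁ : langSub Q a₁ hQc (hAQ ha₁) ≤ conjCore Q R K := by
      intro t ht
      refine mem_conjCore.mpr ⟨hBle a₁ ha₁ ht, fun x hx => ?_⟩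
      have h1 := hall x⁻¹ (R.inv_mem hx) ht
      rw [Cfsg.Agent.Lib.Helper1.mem_conj_smul_iff] at h1
      simpa using h1
    have hK₁R : ∀ y ∈ conjCore Q R K, ∀ x ∈ R, x⁻¹ * y * x ∈ conjCore Q R K := by
      intro y hy x hx
      obtain ⟨hyQ, h⟩ := mem_conjCore.mp hy
      refine mem_conjCore.mpr ⟨conj_mem_of_nz' (hRQ hx) hyQ, fun x' hx' => ?_⟩
      have e : x' * (x⁻¹ * y * x) * x'⁻¹ = (x' * x⁻¹) * y * (x' * x⁻¹)⁻¹ := by group
      rw [e]; exact h _ (R.mul_mem hx' (R.inv_mem hx))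
    have hclaim : ∀ e ∈ R, ∀ y ∈ Q, y⁻¹ * (e * y * e⁻¹) ∈ conjCore Q R K := by
      intro e he y hy
      obtain ⟨x, hx, rfl⟩ := lang_surj R a₁ (hAR ha₁) (hRfpf a₁ ha₁ ha₁0) e he
      have hu₁ : a₁⁻¹ * y * a₁ ∈ Q := conj_mem_of_nz' (hAQ ha₁) hy
      have h1 : (a₁⁻¹ * y * a₁)⁻¹ * (a₁ * (a₁⁻¹ * y * a₁) * a₁⁻¹) ∈ conjCore Q R K :=
        hBK₁ (mem_langSub.mpr ⟨_, hu₁, rfl⟩)
      have hxu : x * (a₁⁻¹ * y * a₁) * x⁻¹ ∈ Q := conj_mem_of_nz (hRQ hx) hu₁
      have h2 : (x * (a₁⁻¹ * y * a₁) * x⁻¹)⁻¹ * (a₁ * (x * (a₁⁻¹ * y * a₁) * x⁻¹) * a₁⁻¹)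
          ∈ conjCore Q R K := hBK₁ (mem_langSub.mpr ⟨_, hxu, rfl⟩)
      have h3 := hK₁R _ h2 x hx
      have key : y⁻¹ * (x⁻¹ * (a₁ * x * a₁⁻¹) * y * (x⁻¹ * (a₁ * x * a₁⁻¹))⁻¹)
          = ((a₁⁻¹ * y * a₁)⁻¹ * (a₁ * (a₁⁻¹ * y * a₁) * a₁⁻¹))⁻¹ *
            (x⁻¹ * ((x * (a₁⁻¹ * y * a₁) * x⁻¹)⁻¹ *
              (a₁ * (x * (a₁⁻¹ * y * a₁) * x⁻¹) * a₁⁻¹)) * x) := by group
      rw [key]
      exact Subgroup.mul_mem _ (Subgroup.inv_mem _ h1) h3
    apply hneQ K hKV
    apply le_antisymm hKQ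
    refine le_trans ?_ hK₁K
    calc Q = ⁅Q, R⁆ := hE5.symm
      _ ≤ conjCore Q R K := by
        rw [Subgroup.commutator_le]
        intro g₁ hg₁ g₂ hg₂
        have h1 := hclaim g₂ hg₂ g₁⁻¹ (Q.inv_mem hg₁)
        have e : ⁅g₁, g₂⁆ = (g₁⁻¹)⁻¹ * (g₂ * g₁⁻¹ * g₂⁻¹) := by
          rw [commutatorElement_def]; group
        rw [e]; exact h1

end Cfsg.Agent.Lib.Helper12.Ward
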