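import Mathlib
import Cfsg.Agent.Lib.Helper12.Ward6
import Cfsg.Agent.Lib.Helper12.Ward4

set_option autoImplicit false
set_option linter.style.haveILetI false
set_option maxHeartbeats 800000

namespace Cfsg.Agent.Lib.Helper12.Ward

open Subgroup Pointwise
open scoped commutatorElement
open Cfsg.Agent.Lib.Helper55 (SylIn cj cj_eq_self_of_mem_normalizer mem_normalizer_of_cj_eq cj_mul
  cj_one sylIn_map_sylow)

universe u

variable {Γ : Type u} [Group Γ]

/-- metanilpotent, in terms of ambient lower central series -/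
def MN (G : Subgroup Γ) : Prop :=
  ∃ k m : ℕ, (G.lowerCentralSeries k).lowerCentralSeries m = ⊥

theorem nz_of_comm {D : Subgroup Γ} {v : Γ} (h : ∀ d ∈ D, v * d = d * v) :
    v ∈ normalizer (D : Set Γ) := by
  apply nz_of_conj_mem
  · intro d hd; rw [conj_eq_of_comm (h d hd)]; exact hd
  · intro d hd
    have e : v⁻¹ * d * v = d := by
      calc v⁻¹ * d * v = v⁻¹ * (d * v) := by group
        _ = v⁻¹ * (v * d) := by rw [h d hd]
        _ = d := by group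
    rw [e]; exact hd

theorem abelian_le_nz {V V₁ : Subgroup Γ} (hVc : ∀ v ∈ V, ∀ w ∈ V, v * w = w * v)
    (h : V₁ ≤ V) : V ≤ normalizer (V₁ : Set Γ) :=
  fun v hv => nz_of_comm (fun n hn => hVc v hv n (h hn))

/-- elements of order dividing `r` in an abelian subgroup -/
def omegaSub (V : Subgroup Γ) (hVc : ∀ v ∈ V, ∀ w ∈ V, v * w = w * v) (r : ℕ) : Subgroup Γ where
  carrier := {v | v ∈ V ∧ v ^ r = 1}
  one_mem' := ⟨V.one_mem, one_pow r⟩
  mul_mem' := by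
    rintro a b ⟨ha, ha'⟩ ⟨hb, hb'⟩
    refine ⟨V.mul_mem ha hb, ?_⟩
    rw [(show Commute a b from hVc a ha b hb).mul_pow, ha', hb', one_mul]
  inv_mem' := by
    rintro a ⟨ha, ha'⟩
    exact ⟨V.inv_mem ha, by rw [inv_pow, ha', inv_one]⟩

theorem mem_omegaSub {V : Subgroup Γ} {hVc : ∀ v ∈ V, ∀ w ∈ V, v * w = w * v} {r : ℕ} {v : Γ} :
    v ∈ omegaSub V hVc r ↔ v ∈ V ∧ v ^ r = 1 := Iff.rfl

theorem nz_omegaSub {V : Subgroup Γ} (hVc : ∀ v ∈ V, ∀ w ∈ V, v * w = w * v) (r : ℕ) {g : Γ}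
    (hg : g ∈ normalizer (V : Set Γ)) : g ∈ normalizer ((omegaSub V hVc r : Subgroup Γ) : Set Γ) := by
  apply nz_of_conj_mem
  · intro v hv
    rw [mem_omegaSub] at hv ⊢
    exact ⟨conj_mem_of_nz hg hv.1, by rw [conj_pow, hv.2]; group⟩
  · intro v hv
    rw [mem_omegaSub] at hv ⊢
    refine ⟨conj_mem_of_nz' hg hv.1, ?_⟩
    have e : g⁻¹ * v * g = g⁻¹ * v * g⁻¹⁻¹ := by group
    rw [e, conj_pow, hv.2]; group

variable [Finite Γ]

/-- minimal counterexample package -/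
structure MC (p : ℕ) (A G : Subgroup Γ) : Prop where
  hp : p.Prime
  hA : Cfsg.IsElementaryAbelian p A
  hcard : Nat.card A = p ^ 2
  hAG : A ≤ normalizer (G : Set Γ)
  hfix : ∀ g ∈ G, (∀ x ∈ A, x * g = g * x) → g = 1
  hndvd : ¬ p ∣ Nat.card G
  hsub : ∀ H : Subgroup Γ, H ≤ G → H ≠ G → A ≤ normalizer (H : Set Γ) → MN H
  hquot : ∀ N : Subgroup Γ, N ≤ G → N ≠ ⊥ → G ≤ normalizer (N : Set Γ) →
    A ≤ normalizer (N : Set Γ) → ∃ k m : ℕ, (G.lowerCentralSeries k).lowerCentralSeries m ≤ N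
  hnot : ¬ MN G
  hsolv : Group.IsSolvable G

theorem MC.cop {p : ℕ} {A G : Subgroup Γ} (h : MC p A G) {H : Subgroup Γ} (hH : H ≤ G) :
    (Nat.card A).Coprime (Nat.card H) := by
  rw [h.hcard]
  apply Nat.Coprime.pow_left
  rw [Nat.Prime.coprime_iff_not_dvd h.hp]
  exact fun hd => h.hndvd (hd.trans (Subgroup.card_dvd_of_le hH))

theorem MC.solvA {p : ℕ} {A G : Subgroup Γ} (h : MC p A G) : Group.IsSolvable A :=
  Group.isSolvable_of_comm (fun a b => h.hA.1.is_comm.comm a b)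

theorem MC.exists_V {p : ℕ} {A G : Subgroup Γ} (h : MC p A G) :
    ∃ (V : Subgroup Γ) (r : ℕ), r.Prime ∧ V ≤ G ∧ V ≠ ⊥ ∧ G ≤ normalizer (V : Set Γ) ∧
      A ≤ normalizer (V : Set Γ) ∧
      (∀ N : Subgroup Γ, N ≤ V → N ≠ ⊥ → G ≤ normalizer (N : Set Γ) →
        A ≤ normalizer (N : Set Γ) → N = V) ∧
      (∀ v ∈ V, ∀ w ∈ V, v * w = w * v) ∧ IsPGroup r V := by
  have hG1 : G ≠ ⊥ := by
    intro hG
    apply h.hnot
    exact ⟨0, 0, hG⟩
  obtain ⟨V, ⟨hVG, hV1, hGV, hAV⟩, hmin⟩ := exists_min_subgroup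
    (fun N : Subgroup Γ => N ≤ G ∧ N ≠ ⊥ ∧ G ≤ normalizer (N : Set Γ) ∧
      A ≤ normalizer (N : Set Γ))
    ⟨G, le_rfl, hG1, Subgroup.le_normalizer, h.hAG⟩
  have hVmin : ∀ N : Subgroup Γ, N ≤ V → N ≠ ⊥ → G ≤ normalizer (N : Set Γ) →
        A ≤ normalizer (N : Set Γ) → N = V :=
    fun N hNV hN1 hGN hAN => hmin N hNV ⟨hNV.trans hVG, hN1, hGN, hAN⟩
  have hVV : ⁅V, V⁆ = ⊥ := by
    by_contra hne
    have h1 : ⁅V, V⁆ ≤ V :=
      Cfsg.Agent.Lib.Helper55.commutator_le_of_le_normalizer Subgroup.le_normalizer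
    have h2 := hVmin ⁅V, V⁆ h1 hne (fun g hg => nz_comm (hGV hg) (hGV hg))
      (fun g hg => nz_comm (hAV hg) (hAV hg))
    exact comm_ne_of_solvable (Cfsg.Agent.Lib.Helper1.isSolvable_of_le' hVG h.hsolv) hV1 h2
  have hVc := comm_of_commutator_eq_bot hVV
  have hcard1 : Nat.card V ≠ 1 := fun hc => hV1 (Subgroup.card_eq_one.mp hc)
  obtain ⟨r, hr, hrd⟩ := Nat.exists_prime_and_dvd hcard1
  haveI := Fact.mk hr
  obtain ⟨x, hx⟩ := exists_prime_orderOf_dvd_card' (G := ↥V) r hrd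
  have hVr1 : omegaSub V hVc r ≠ ⊥ := by
    intro hb
    have hxm : (x : Γ) ∈ omegaSub V hVc r := by
      rw [mem_omegaSub]
      refine ⟨x.2, ?_⟩
      have h3 := pow_orderOf_eq_one x
      rw [hx] at h3
      have h4 := congrArg Subtype.val h3
      simpa using h4
    rw [hb, Subgroup.mem_bot] at hxm
    have h5 : x = 1 := Subtype.ext hxm
    rw [h5, orderOf_one] at hx
    exact hr.one_lt.ne hx
  have hVrV' := hVmin (omegaSub V hVc r) (fun v hv => hv.1) hVr1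
    (fun g hg => nz_omegaSub hVc r (hGV hg)) (fun g hg => nz_omegaSub hVc r (hAV hg))
  have hVr : IsPGroup r V := by
    intro v
    refine ⟨1, ?_⟩
    have hv : (v : Γ) ∈ omegaSub V hVc r := by rw [hVrV']; exact v.2
    apply Subtype.ext
    rw [pow_one]
    simpa using hv.2
  exact ⟨V, r, hr, hVG, hV1, hGV, hAV, hVmin, hVc, hVr⟩

theorem MC.exists_M {p : ℕ} {A G : Subgroup Γ} (h : MC p A G) {V : Subgroup Γ} {r : ℕ}
    (hr : r.Prime) (hVG : V ≤ G) (hV1 : V ≠ ⊥) (hGV : G ≤ normalizer (V : Set Γ))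
    (hAV : A ≤ normalizer (V : Set Γ))
    (hVmin : ∀ N : Subgroup Γ, N ≤ V → N ≠ ⊥ → G ≤ normalizer (N : Set Γ) →
        A ≤ normalizer (N : Set Γ) → N = V)
    (hVc : ∀ v ∈ V, ∀ w ∈ V, v * w = w * v) (hVr : IsPGroup r V) :
    ∃ M : Subgroup Γ, M ≤ G ∧ A ≤ normalizer (M : Set Γ) ∧ G ≤ V ⊔ M ∧
      (∀ x ∈ M, x ∈ V → x = 1) ∧ (∀ x ∈ M, (∀ v ∈ V, x * v = v * x) → x = 1) := by
  haveI := Fact.mk hr
  haveI := Fact.mk h.hp
  obtain ⟨k, m, hkm⟩ := h.hquot V hVG hV1 hGV hAV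
  have hdisj : ∀ N : Subgroup Γ, N ≤ G → G ≤ normalizer (N : Set Γ) →
      A ≤ normalizer (N : Set Γ) → (∀ x ∈ N, x ∈ V → x = 1) → N = ⊥ := by
    intro N hNG hGN hAN hNV
    by_contra hN1
    obtain ⟨k', m', hkm'⟩ := h.hquot N hNG hN1 hGN hAN
    apply h.hnot
    refine ⟨max k k', max m m', ?_⟩
    rw [eq_bot_iff]
    intro x hx
    have h1 : x ∈ V := hkm (lcs_lcs_le G (le_max_left k k') (le_max_left m m') hx)
    have h2 : x ∈ N := hkm' (lcs_lcs_le G (le_max_right k k') (le_max_right m m') hx)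
    rw [Subgroup.mem_bot]
    exact hNV x h2 h1
  have hLG : G.lowerCentralSeries k ≤ G := Subgroup.lowerCentralSeries_le_self G k
  have hGL : G ≤ normalizer ((G.lowerCentralSeries k : Subgroup Γ) : Set Γ) :=
    G.self_le_normalizer_lowerCentralSeries k
  have hAL : A ≤ normalizer ((G.lowerCentralSeries k : Subgroup Γ) : Set Γ) :=
    fun a ha => nz_lcs (h.hAG ha) k
  have hLnn : ∀ j, (G.lowerCentralSeries k).lowerCentralSeries j ≠ ⊥ :=
    fun j hj => h.hnot ⟨k, j, hj⟩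
  have hVL : V ≤ G.lowerCentralSeries k := by
    by_contra hnle
    have h1 : V ⊓ G.lowerCentralSeries k = ⊥ := by
      by_contra hne
      have h2 := hVmin (V ⊓ G.lowerCentralSeries k) inf_le_left hne
        (fun g hg => nz_inf (hGV hg) (hGL hg)) (fun g hg => nz_inf (hAV hg) (hAL hg))
      exact hnle (inf_eq_left.mp h2)
    apply hLnn m
    rw [eq_bot_iff, ← h1]
    exact le_inf hkm (Subgroup.lowerCentralSeries_le_self _ m)
  have hq₁ : ∃ q₁ : ℕ, q₁.Prime ∧ q₁ ≠ r ∧ q₁ ∣ Nat.card (G.lowerCentralSeries k) := by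
    by_contra hcon
    push Not at hcon
    have h1 : Nat.card (G.lowerCentralSeries k) =
        r ^ (Nat.card (G.lowerCentralSeries k)).primeFactorsList.length := by
      apply Nat.eq_prime_pow_of_unique_prime_dvd Nat.card_pos.ne'
      intro d hd hdvd
      by_contra hne
      exact hcon d hd hne hdvd
    have h2 : IsPGroup r (G.lowerCentralSeries k) := IsPGroup.of_card h1
    have h3 : Group.IsNilpotent ↥(G.lowerCentralSeries k) := h2.isNilpotent
    obtain ⟨j, hj⟩ := (Subgroup.isNilpotent_iff_lowerCentralSeries _).mp h3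
    exact hLnn j hj
  obtain ⟨q₁, hq₁p, hq₁r, hq₁d⟩ := hq₁
  haveI := Fact.mk hq₁p
  obtain ⟨Q₁, hQ₁, hAQ₁⟩ := exists_inv_sylIn hAL (h.cop hLG) h.solvA q₁
  have hQ₁1 : Q₁ ≠ ⊥ := by
    intro hb
    apply hQ₁.2.2
    rw [hb, Subgroup.relIndex_bot_left]
    exact hq₁d
  have hVQ₁ : ∀ x ∈ V, x ∈ Q₁ → x = 1 := by
    intro x hxV hxQ
    exact Subgroup.disjoint_def.mp
      (IsPGroup.disjoint_of_ne r q₁ (Ne.symm hq₁r) V Q₁ hVr hQ₁.isPGroup) hxV hxQ
  have hMG : G ⊓ normalizer (Q₁ : Set Γ) ≤ G := inf_le_left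
  have hMQ₁ : G ⊓ normalizer (Q₁ : Set Γ) ≤ normalizer (Q₁ : Set Γ) := inf_le_right
  have hAM : A ≤ normalizer ((G ⊓ normalizer (Q₁ : Set Γ) : Subgroup Γ) : Set Γ) :=
    fun a ha => nz_inf (h.hAG ha) (Subgroup.le_normalizer (hAQ₁ ha))
  have hGVM : G ≤ V ⊔ (G ⊓ normalizer (Q₁ : Set Γ)) := by
    intro g hg
    obtain ⟨a, ha, n, hn, rfl⟩ := hQ₁.frattini hLG hGL g hg
    have h1 : G.lowerCentralSeries k ≤ V ⊔ (G.lowerCentralSeries k ⊓ normalizer (Q₁ : Set Γ)) :=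
      frat_nil hQ₁ hVL hkm
    have h2 : G.lowerCentralSeries k ⊓ normalizer (Q₁ : Set Γ) ≤ G ⊓ normalizer (Q₁ : Set Γ) :=
      inf_le_inf_right _ hLG
    have h3 : n ∈ V ⊔ (G ⊓ normalizer (Q₁ : Set Γ)) := (h1.trans (sup_le_sup_left h2 V)) hn
    exact Subgroup.mul_mem _ (Subgroup.mem_sup_right ha) h3
  have hCV : ∀ v ∈ V, (∀ y ∈ Q₁, y * v = v * y) → v = 1 := by
    have hGN : G ≤ normalizer ((V ⊓ centralizer (Q₁ : Set Γ) : Subgroup Γ) : Set Γ) :=
      hGVM.trans (sup_le (abelian_le_nz hVc inf_le_left)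
        (fun x hx => nz_inf (hGV (hMG hx)) (nz_centralizer (hMQ₁ hx))))
    have hAN : A ≤ normalizer ((V ⊓ centralizer (Q₁ : Set Γ) : Subgroup Γ) : Set Γ) :=
      fun a ha => nz_inf (hAV ha) (nz_centralizer (hAQ₁ ha))
    have hN1 : V ⊓ centralizer (Q₁ : Set Γ) = ⊥ := by
      by_contra hne
      have h1 := hVmin _ inf_le_left hne hGN hAN
      have h2 : V ≤ centralizer (Q₁ : Set Γ) := inf_eq_left.mp h1
      have h3 : G ≤ normalizer (Q₁ : Set Γ) :=
        hGVM.trans (sup_le (h2.trans (Subgroup.centralizer_le_normalizer _)) hMQ₁)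
      have h4 := hdisj Q₁ (hQ₁.le.trans hLG) h3 hAQ₁ (fun x hxQ hxV => hVQ₁ x hxV hxQ)
      exact hQ₁1 h4
    intro v hv hc
    have h5 : v ∈ V ⊓ centralizer (Q₁ : Set Γ) :=
      Subgroup.mem_inf.mpr ⟨hv, Subgroup.mem_centralizer_iff.mpr (fun y hy => hc y hy)⟩
    rw [hN1, Subgroup.mem_bot] at h5
    exact h5
  have hVM : ∀ x ∈ G ⊓ normalizer (Q₁ : Set Γ), x ∈ V → x = 1 := by
    intro x hxM hxV
    apply hCV x hxV
    intro y hy
    have h1 : ⁅x, y⁆ ∈ V := by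
      have e : ⁅x, y⁆ = x * (y * x⁻¹ * y⁻¹) := by rw [commutatorElement_def]; group
      rw [e]
      exact V.mul_mem hxV (conj_mem_of_nz (hGV (hLG (hQ₁.le hy))) (V.inv_mem hxV))
    have h2 : ⁅x, y⁆ ∈ Q₁ := by
      have e : ⁅x, y⁆ = (x * y * x⁻¹) * y⁻¹ := by rw [commutatorElement_def]
      rw [e]; exact Q₁.mul_mem (conj_mem_of_nz (hMQ₁ hxM) hy) (Q₁.inv_mem hy)
    have h3 := hVQ₁ _ h1 h2
    exact (commutatorElement_eq_one_iff_mul_comm.mp h3).symm
  have hCM : ∀ x ∈ G ⊓ normalizer (Q₁ : Set Γ), (∀ v ∈ V, x * v = v * x) → x = 1 := by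
    have hD : (G ⊓ normalizer (Q₁ : Set Γ)) ⊓ centralizer (V : Set Γ) = ⊥ := by
      apply hdisj _ (inf_le_left.trans hMG)
      · refine hGVM.trans (sup_le ?_ ?_)
        · intro v hv
          apply nz_of_comm
          intro d hd
          exact (Subgroup.mem_centralizer_iff.mp hd.2 v hv)
        · intro x hx
          exact nz_inf (Subgroup.le_normalizer hx) (nz_centralizer (hGV (hMG hx)))
      · intro a ha
        exact nz_inf (hAM ha) (nz_centralizer (hAV ha))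
      · intro x hx hxV
        exact hVM x hx.1 hxV
    intro x hx hc
    have h5 : x ∈ (G ⊓ normalizer (Q₁ : Set Γ)) ⊓ centralizer (V : Set Γ) :=
      Subgroup.mem_inf.mpr ⟨hx, Subgroup.mem_centralizer_iff.mpr (fun v hv => (hc v hv).symm)⟩
    rw [hD, Subgroup.mem_bot] at h5
    exact h5
  exact ⟨_, hMG, hAM, hGVM, hVM, hCM⟩

theorem exists_QS {A M : Subgroup Γ} (hAM : A ≤ normalizer (M : Set Γ))
    (hcop : (Nat.card A).Coprime (Nat.card M)) (hsolvA : Group.IsSolvable A)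
    (hMN : MN M) (hMnn : ∀ j, M.lowerCentralSeries j ≠ ⊥) :
    ∃ (q s : ℕ) (Q' S : Subgroup Γ), q.Prime ∧ s.Prime ∧ q ≠ s ∧ Q' ≤ M ∧ S ≤ M ∧
      M ≤ normalizer (Q' : Set Γ) ∧ A ≤ normalizer (Q' : Set Γ) ∧ A ≤ normalizer (S : Set Γ) ∧
      IsPGroup q Q' ∧ IsPGroup s S ∧ ¬ (∀ y ∈ Q', ∀ x ∈ S, x * y = y * x) := by
  obtain ⟨k', m', hkm⟩ := hMN
  have h1 : ∃ (s : ℕ) (S : Subgroup Γ), s.Prime ∧ SylIn s S M ∧ A ≤ normalizer (S : Set Γ) ∧
      ¬ M ≤ normalizer (S : Set Γ) := by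
    by_contra hcon
    push Not at hcon
    have hnil : Group.IsNilpotent ↥M := by
      apply ((Group.isNilpotent_of_finite_tfae (G := ↥M)).out 3 0).mp
      intro s hs P
      obtain ⟨S₀, hS₀, hAS₀⟩ := exists_inv_sylIn hAM hcop hsolvA s
      have hMS₀ := hcon s S₀ hs.out hS₀ hAS₀
      have hP' : SylIn s ((P : Subgroup ↥M).map M.subtype) M := sylIn_map_sylow P
      have h2 : S₀ ≤ (P : Subgroup ↥M).map M.subtype :=
        hP'.le_of_normalized hS₀.le (hP'.le.trans hMS₀) hS₀.isPGroup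
      have h3 : (P : Subgroup ↥M).map M.subtype ≤ S₀ := hS₀.le_of_le h2 hP'.le hP'.isPGroup
      have h4 : (P : Subgroup ↥M).map M.subtype = S₀ := le_antisymm h3 h2
      have h5 : (P : Subgroup ↥M) = S₀.subgroupOf M := by
        rw [← h4]
        exact (Subgroup.comap_map_eq_self_of_injective M.subtype_injective _).symm
      rw [h5]
      exact (Subgroup.normal_subgroupOf_iff_le_normalizer hS₀.le).mpr hMS₀
    obtain ⟨j, hj⟩ := (Subgroup.isNilpotent_iff_lowerCentralSeries M).mp hnil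
    exact hMnn j hj
  obtain ⟨s, S, hs, hS, hAS, hMS⟩ := h1
  haveI := Fact.mk hs
  have hL'M : M.lowerCentralSeries k' ≤ M := Subgroup.lowerCentralSeries_le_self M k'
  have hML' : M ≤ normalizer ((M.lowerCentralSeries k' : Subgroup Γ) : Set Γ) :=
    M.self_le_normalizer_lowerCentralSeries k'
  have hAL' : A ≤ normalizer ((M.lowerCentralSeries k' : Subgroup Γ) : Set Γ) :=
    fun a ha => nz_lcs (hAM ha) k'
  haveI hnilL : Group.IsNilpotent ↥(M.lowerCentralSeries k') :=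
    (Subgroup.isNilpotent_iff_lowerCentralSeries _).mpr ⟨m', hkm⟩
  have h2 : ¬ M.lowerCentralSeries k' ≤ normalizer (S : Set Γ) := by
    intro hle
    apply hMS
    exact (frat_nil hS hL'M le_rfl).trans (sup_le hle inf_le_right)
  have h3 : ∃ (q : ℕ) (_ : q.Prime) (P : Sylow q ↥(M.lowerCentralSeries k')),
      ¬ (P : Subgroup ↥(M.lowerCentralSeries k')).map (M.lowerCentralSeries k').subtype ≤
        normalizer (S : Set Γ) := by
    by_contra hcon
    push Not at hcon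
    apply h2
    have e : M.lowerCentralSeries k' =
        (⊤ : Subgroup ↥(M.lowerCentralSeries k')).map (M.lowerCentralSeries k').subtype := by
      rw [← MonoidHom.range_eq_map, Subgroup.range_subtype]
    rw [e, ← Cfsg.Agent.Lib.Helper66.iSup_sylow_eq_top ↥(M.lowerCentralSeries k'),
      Subgroup.map_iSup]
    apply iSup_le; intro q
    rw [Subgroup.map_iSup]
    apply iSup_le; intro hq
    rw [Subgroup.map_iSup]
    apply iSup_le; intro P
    exact hcon q hq P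
  obtain ⟨q, hq, P, hP⟩ := h3
  haveI := Fact.mk hq
  have hQ' : SylIn q ((P : Subgroup ↥(M.lowerCentralSeries k')).map
      (M.lowerCentralSeries k').subtype) (M.lowerCentralSeries k') := sylIn_map_sylow P
  have hL'Q : M.lowerCentralSeries k' ≤ normalizer
      (((P : Subgroup ↥(M.lowerCentralSeries k')).map
        (M.lowerCentralSeries k').subtype : Subgroup Γ) : Set Γ) := by
    haveI hPn : (P : Subgroup ↥(M.lowerCentralSeries k')).Normal := inferInstance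
    have e : M.lowerCentralSeries k' =
        (normalizer ((P : Subgroup ↥(M.lowerCentralSeries k')) :
          Set ↥(M.lowerCentralSeries k'))).map (M.lowerCentralSeries k').subtype := by
      rw [Subgroup.normalizer_eq_top_iff.mpr hPn, ← MonoidHom.range_eq_map,
        Subgroup.range_subtype]
    calc M.lowerCentralSeries k' = (normalizer ((P : Subgroup ↥(M.lowerCentralSeries k')) :
          Set ↥(M.lowerCentralSeries k'))).map (M.lowerCentralSeries k').subtype := e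
      _ ≤ _ := Subgroup.le_normalizer_map _
  have hMQ' : M ≤ normalizer (((P : Subgroup ↥(M.lowerCentralSeries k')).map
        (M.lowerCentralSeries k').subtype : Subgroup Γ) : Set Γ) :=
    fun g hg => nz_of_normal_sylIn hQ' hL'Q (hML' hg)
  have hAQ' : A ≤ normalizer (((P : Subgroup ↥(M.lowerCentralSeries k')).map
        (M.lowerCentralSeries k').subtype : Subgroup Γ) : Set Γ) :=
    fun a ha => nz_of_normal_sylIn hQ' hL'Q (hAL' ha)
  have hqs : q ≠ s := by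
    intro hqs
    subst hqs
    apply hP
    have h4 := hS.le_of_normalized (hQ'.le.trans hL'M) (hS.le.trans hMQ') hQ'.isPGroup
    exact h4.trans Subgroup.le_normalizer
  have hnc : ¬ (∀ y ∈ (P : Subgroup ↥(M.lowerCentralSeries k')).map
      (M.lowerCentralSeries k').subtype, ∀ x ∈ S, x * y = y * x) := by
    intro hc
    apply hP
    intro y hy
    apply nz_of_comm
    intro x hx
    exact (hc y hy x hx).symm
  exact ⟨q, s, _, S, hq, hs, hqs, hQ'.le.trans hL'M, hS.le, hMQ', hAQ', hAS, hQ'.isPGroup,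
    hS.isPGroup, hnc⟩

theorem exists_QR {A M Q' S : Subgroup Γ} {q s : ℕ} (hq : q.Prime) (hs : s.Prime) (hqs : q ≠ s)
    (hQ'M : Q' ≤ M) (hSM : S ≤ M) (hMQ' : M ≤ normalizer (Q' : Set Γ))
    (hAQ' : A ≤ normalizer (Q' : Set Γ))
    (hAS : A ≤ normalizer (S : Set Γ)) (hQ'q : IsPGroup q Q') (hSs : IsPGroup s S)
    (hnc : ¬ (∀ y ∈ Q', ∀ x ∈ S, x * y = y * x)) :
    ∃ Q R : Subgroup Γ, Q ≤ Q' ∧ R ≤ S ∧ A ≤ normalizer (Q : Set Γ) ∧
      A ≤ normalizer (R : Set Γ) ∧ R ≤ normalizer (Q : Set Γ) ∧ Q ≠ ⊥ ∧ ⁅Q, R⁆ = Q ∧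
      (∀ R₁ : Subgroup Γ, R₁ ≤ R → R₁ ≠ R → A ≤ normalizer (R₁ : Set Γ) →
        ∀ x ∈ R₁, ∀ y ∈ Q, x * y = y * x) := by
  haveI := Fact.mk hq
  haveI := Fact.mk hs
  obtain ⟨R, ⟨hRS, hAR, hRnc⟩, hmin⟩ := exists_min_subgroup
    (fun R : Subgroup Γ => R ≤ S ∧ A ≤ normalizer (R : Set Γ) ∧
      ¬ (∀ y ∈ Q', ∀ x ∈ R, x * y = y * x))
    ⟨S, le_rfl, hAS, hnc⟩
  have hRQ' : R ≤ normalizer (Q' : Set Γ) := (hRS.trans hSM).trans hMQ'
  have hRs : IsPGroup s R := hSs.to_le hRS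
  have hnd : ¬ s ∣ Nat.card Q' := by
    obtain ⟨n, hn⟩ := IsPGroup.iff_card.mp hQ'q
    rw [hn]
    intro hd
    exact hqs ((Nat.prime_dvd_prime_iff_eq hs hq).mp (hs.dvd_of_dvd_pow hd)).symm
  have h1 := Cfsg.Agent.Lib.Helper55.coprime_le_commutator_sup_centralizer hnd hRs hRQ'
  have h2 := Cfsg.Agent.Lib.Helper55.commutator_eq_commutator_commutator hRQ' h1
  refine ⟨⁅Q', R⁆, R, Cfsg.Agent.Lib.Helper55.commutator_le_of_le_normalizer hRQ', hRS,
    fun a ha => nz_comm (hAQ' ha) (hAR ha), hAR,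
    fun x hx => nz_comm (hRQ' hx) (Subgroup.le_normalizer hx), ?_, h2.symm, ?_⟩
  · intro hb
    apply hRnc
    intro y hy x hx
    exact (comm_of_commutator_eq_bot hb y hy x hx).symm
  · intro R₁ hR₁ hne hAR₁
    have hall : ∀ y ∈ Q', ∀ x ∈ R₁, x * y = y * x := by
      by_contra hcon
      exact hne (hmin R₁ hR₁ ⟨hR₁.trans hRS, hAR₁, hcon⟩)
    intro x hx y hy
    exact hall y (Cfsg.Agent.Lib.Helper55.commutator_le_of_le_normalizer hRQ' hy) x hx

end Cfsg.Agent.Lib.Helper12.Ward
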