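import Mathlib
import Cfsg.Agent.Lib.Helper12.Ward7
import Cfsg.Agent.Lib.Helper26.FpfConj

set_option autoImplicit false
set_option linter.style.haveILetI false
set_option maxHeartbeats 800000

namespace Cfsg.Agent.Lib.Helper12.Ward

open Subgroup Pointwise
open scoped commutatorElement

universe u

section Final
variable {Γ : Type u} [Group Γ] [Finite Γ]

theorem MC.false {p : ℕ} {A G : Subgroup Γ} (h : MC p A G)
    (hnil : ∀ a ∈ A, a ≠ 1 → ∀ u ∈ G, ∀ w ∈ G, a * u = u * a → a * w = w * a →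
      (orderOf u).Coprime (orderOf w) → u * w = w * u) : False := by
  obtain ⟨V, r, hr, hVG, hV1, hGV, hAV, hVmin, hVc, hVr⟩ := h.exists_V
  obtain ⟨M, hMG, hAM, hGVM, hVM, hCM⟩ := h.exists_M hr hVG hV1 hGV hAV hVmin hVc hVr
  haveI := Fact.mk hr
  haveI := Fact.mk h.hp
  have hMne : M ≠ G := by
    intro hMG'
    apply hV1
    rw [eq_bot_iff]
    intro v hv
    rw [Subgroup.mem_bot]
    exact hVM v (by rw [hMG']; exact hVG hv) hv
  have hMMN : MN M := h.hsub M hMG hMne hAM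
  have hMnn : ∀ j, M.lowerCentralSeries j ≠ ⊥ := by
    intro j hj
    apply h.hnot
    refine ⟨j, 1, ?_⟩
    have h1 : G.lowerCentralSeries j ≤ V := by
      calc G.lowerCentralSeries j ≤ (V ⊔ M).lowerCentralSeries j :=
            Subgroup.lowerCentralSeries_mono j hGVM
        _ ≤ V ⊔ M.lowerCentralSeries j := lcs_sup_le (hMG.trans hGV) j
        _ = V := by rw [hj, sup_bot_eq]
    rw [Subgroup.lowerCentralSeries_succ, Subgroup.lowerCentralSeries_zero]
    apply commutator_eq_bot_of_comm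
    intro x hx y hy
    exact hVc x (h1 hx) y (h1 hy)
  obtain ⟨q, s, Q', S, hq, hs, hqs, hQ'M, hSM, hMQ', hAQ', hAS, hQ'q, hSs, hnc⟩ :=
    exists_QS hAM (h.cop hMG) h.solvA hMMN hMnn
  obtain ⟨Q, R, hQQ', hRS, hAQ, hAR, hRQ, hQ1, hQR, hE4⟩ :=
    exists_QR hq hs hqs hQ'M hSM hMQ' hAQ' hAS hQ'q hSs hnc
  haveI := Fact.mk hq
  haveI := Fact.mk hs
  have hQM : Q ≤ M := hQQ'.trans hQ'M
  have hRM : R ≤ M := hRS.trans hSM
  have hQG : Q ≤ G := hQM.trans hMG
  have hRG : R ≤ G := hRM.trans hMG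
  have hQq : IsPGroup q Q := hQ'q.to_le hQQ'
  have hRs : IsPGroup s R := hSs.to_le hRS
  have hQV : Q ≤ normalizer (V : Set Γ) := hQG.trans hGV
  have hRV : R ≤ normalizer (V : Set Γ) := hRG.trans hGV
  have hpne : ∀ (t : ℕ) (T : Subgroup Γ), t.Prime → IsPGroup t T → T ≤ G → T ≠ ⊥ → p ≠ t := by
    intro t T ht hT hTG hT1 hpt
    subst hpt
    apply h.hndvd
    have h1 : p ∣ Nat.card T := by
      rcases hT.card_eq_or_dvd with h2 | h2
      · exact absurd (Subgroup.card_eq_one.mp h2) hT1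
      · exact h2
    exact h1.trans (Subgroup.card_dvd_of_le hTG)
  have hpq : p ≠ q := hpne q Q hq hQq hQG hQ1
  have hR1 : R ≠ ⊥ := by
    intro hb
    apply hQ1
    rw [← hQR, hb]
    exact Subgroup.commutator_bot_right Q
  have hps : p ≠ s := hpne s R hs hRs hRG hR1
  have hQ'1 : Q' ≠ ⊥ := fun hb => hQ1 (le_bot_iff.mp (hb ▸ hQQ'))
  have hqr : q ≠ r := by
    intro hqr
    subst hqr
    have hd : q ∣ Nat.card V := by
      rcases hVr.card_eq_or_dvd with h2 | h2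
      · exact absurd (Subgroup.card_eq_one.mp h2) hV1
      · exact h2
    obtain ⟨t, htV, ht1, htfix⟩ := exists_fixed_of_dvd hQ'q ((hQ'M.trans hMG).trans hGV) hd
    have hN1 : V ⊓ centralizer (Q' : Set Γ) ≠ ⊥ := by
      intro hb
      have h5 : t ∈ V ⊓ centralizer (Q' : Set Γ) :=
        Subgroup.mem_inf.mpr ⟨htV, Subgroup.mem_centralizer_iff.mpr (fun y hy => htfix y hy)⟩
      rw [hb, Subgroup.mem_bot] at h5
      exact ht1 h5
    have hGN : G ≤ normalizer ((V ⊓ centralizer (Q' : Set Γ) : Subgroup Γ) : Set Γ) := by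
      refine hGVM.trans (sup_le (abelian_le_nz hVc inf_le_left) ?_)
      intro x hx
      exact nz_inf (hGV (hMG hx)) (nz_centralizer (hMQ' hx))
    have hAN : A ≤ normalizer ((V ⊓ centralizer (Q' : Set Γ) : Subgroup Γ) : Set Γ) :=
      fun a ha => nz_inf (hAV ha) (nz_centralizer (hAQ' ha))
    have h3 := hVmin _ inf_le_left hN1 hGN hAN
    have h4 : V ≤ centralizer (Q' : Set Γ) := inf_eq_left.mp h3
    apply hQ'1
    rw [eq_bot_iff]
    intro y hy
    rw [Subgroup.mem_bot]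
    apply hCM y (hQ'M hy)
    intro v hv
    exact Subgroup.mem_centralizer_iff.mp (h4 hv) y hy
  have hQnc : ¬ (∀ y ∈ Q, ∀ v ∈ V, y * v = v * y) := by
    intro hc
    apply hQ1
    rw [eq_bot_iff]
    intro y hy
    rw [Subgroup.mem_bot]
    exact hCM y (hQM hy) (hc y hy)
  have hH : V ⊔ Q ⊔ R = G := by
    by_contra hne
    have hle : V ⊔ Q ⊔ R ≤ G := sup_le (sup_le hVG hQG) hRG
    have hAH : A ≤ normalizer ((V ⊔ Q ⊔ R : Subgroup Γ) : Set Γ) :=
      fun a ha => nz_sup (nz_sup (hAV ha) (hAQ ha)) (hAR ha)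
    obtain ⟨k, m, hkm⟩ := h.hsub _ hle hne hAH
    exact hQnc (lmn hr hq hqr hkm (le_sup_left.trans le_sup_left) (hle.trans hGV)
      (le_sup_right.trans le_sup_left) le_sup_right hVr hQq hQR)
  have hGle : G ≤ V ⊔ Q ⊔ R := hH.ge
  have hE2 : ∀ V₁ : Subgroup Γ, V₁ ≤ V → A ≤ normalizer (V₁ : Set Γ) →
      Q ≤ normalizer (V₁ : Set Γ) → R ≤ normalizer (V₁ : Set Γ) → V₁ = ⊥ ∨ V₁ = V := by
    intro V₁ hV₁ hAV₁ hQV₁ hRV₁
    by_cases hb : V₁ = ⊥
    · exact Or.inl hb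
    · right
      exact hVmin V₁ hV₁ hb
        (hGle.trans (sup_le (sup_le (abelian_le_nz hVc hV₁) hQV₁) hRV₁)) hAV₁
  have hE2' : ∀ y ∈ Q, (∀ v ∈ V, y * v = v * y) → y = 1 := fun y hy hc => hCM y (hQM hy) hc
  have hE1 : ∀ v ∈ V, (∀ y ∈ Q, y * v = v * y) → v = 1 := by
    have hN : V ⊓ centralizer (Q : Set Γ) = ⊥ := by
      by_contra hne
      have h3 := hVmin _ inf_le_left hne
        (hGle.trans (sup_le (sup_le (abelian_le_nz hVc inf_le_left)
          (fun x hx => nz_inf (hQV hx) (nz_centralizer (Subgroup.le_normalizer hx))))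
          (fun x hx => nz_inf (hRV hx) (nz_centralizer (hRQ hx)))))
        (fun a ha => nz_inf (hAV ha) (nz_centralizer (hAQ ha)))
      have h4 : V ≤ centralizer (Q : Set Γ) := inf_eq_left.mp h3
      apply hQnc
      intro y hy v hv
      exact Subgroup.mem_centralizer_iff.mp (h4 hv) y hy
    intro v hv hc
    have h5 : v ∈ V ⊓ centralizer (Q : Set Γ) :=
      Subgroup.mem_inf.mpr ⟨hv, Subgroup.mem_centralizer_iff.mpr hc⟩
    rw [hN, Subgroup.mem_bot] at h5
    exact h5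
  have hQRt : ∀ x ∈ Q, x ∈ R → x = 1 := by
    intro x hxQ hxR
    exact Subgroup.disjoint_def.mp (IsPGroup.disjoint_of_ne q s hqs Q R hQq hRs) hxQ hxR
  have hE3 : ∀ Q₁ : Subgroup Γ, Q₁ ≤ Q → Q₁ ≠ Q → A ≤ normalizer (Q₁ : Set Γ) →
      R ≤ normalizer (Q₁ : Set Γ) → ∀ y ∈ Q₁, ∀ x ∈ R, x * y = y * x := by
    intro Q₁ hQ₁ hne hAQ₁ hRQ₁
    have hQ₁M : Q₁ ≤ M := hQ₁.trans hQM
    have hle : V ⊔ Q₁ ⊔ R ≤ G := sup_le (sup_le hVG (hQ₁.trans hQG)) hRG
    have hneG : V ⊔ Q₁ ⊔ R ≠ G := by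
      intro heq
      apply hne
      apply le_antisymm hQ₁
      intro y hy
      have hy' : y ∈ V ⊔ (Q₁ ⊔ R) := by rw [← sup_assoc, heq]; exact hQG hy
      have hQ₁RV : Q₁ ⊔ R ≤ normalizer (V : Set Γ) := sup_le ((hQ₁.trans hQG).trans hGV) hRV
      obtain ⟨v, hv, z, hz, e⟩ := exists_mul_of_mem_sup hQ₁RV hy'
      have hzM : z ∈ M := (sup_le hQ₁M hRM) hz
      have hv1 : v = 1 := by
        apply hVM v _ hv
        have e3 : v = y * z⁻¹ := by rw [e]; group
        rw [e3]; exact M.mul_mem (hQM hy) (M.inv_mem hzM)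
      rw [hv1, one_mul] at e
      obtain ⟨y₁, hy₁, x, hx, e'⟩ := exists_mul_of_mem_sup hRQ₁ hz
      have hx1 : x = 1 := by
        apply hQRt x _ hx
        have e3 : x = y₁⁻¹ * y := by rw [e, e']; group
        rw [e3]; exact Q.mul_mem (Q.inv_mem (hQ₁ hy₁)) hy
      rw [e, e', hx1, mul_one]; exact hy₁
    have hAH : A ≤ normalizer ((V ⊔ Q₁ ⊔ R : Subgroup Γ) : Set Γ) :=
      fun a ha => nz_sup (nz_sup (hAV ha) (hAQ₁ ha)) (hAR ha)
    obtain ⟨k, m, hkm⟩ := h.hsub _ hle hneG hAH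
    have hQ₁q : IsPGroup q Q₁ := hQq.to_le hQ₁
    have hnd : ¬ s ∣ Nat.card Q₁ := by
      obtain ⟨n, hn⟩ := IsPGroup.iff_card.mp hQ₁q
      rw [hn]
      intro hd
      exact hqs ((Nat.prime_dvd_prime_iff_eq hs hq).mp (hs.dvd_of_dvd_pow hd)).symm
    have h1 := Cfsg.Agent.Lib.Helper55.coprime_le_commutator_sup_centralizer hnd hRs hRQ₁
    have h2 := Cfsg.Agent.Lib.Helper55.commutator_eq_commutator_commutator hRQ₁ h1
    have hXle : ⁅Q₁, R⁆ ≤ Q₁ := Cfsg.Agent.Lib.Helper55.commutator_le_of_le_normalizer hRQ₁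
    have h3 := lmn hr hq hqr hkm (le_sup_left.trans le_sup_left) (hle.trans hGV)
      (hXle.trans (le_sup_right.trans le_sup_left)) le_sup_right hVr (hQ₁q.to_le hXle) h2.symm
    have h4 : ⁅Q₁, R⁆ = ⊥ := by
      rw [eq_bot_iff]
      intro y hy
      rw [Subgroup.mem_bot]
      exact hCM y (hQ₁M (hXle hy)) (h3 y hy)
    intro y hy x hx
    exact (comm_of_commutator_eq_bot h4 y hy x hx).symm
  exact endgame h.hp A G V Q R hr hq hs h.hA h.hcard h.hfix hnil hVG hQG hRG hAV hAQ hAR hQV hRV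
    hRQ hVc hVr hQq hRs hqr hqs hpq hps hQ1 hE1 hV1 hE2 hE2' hE3 hE4 hQR

end Final

theorem qm_mem_qmap {Γ : Type u} [Group Γ] {N H : Subgroup Γ} {x : Γ}
    (hx : x ∈ normalizer (N : Set Γ)) (hxH : x ∈ H) : qm N ⟨x, hx⟩ ∈ qmap N H :=
  Subgroup.mem_map_of_mem _ (Subgroup.mem_subgroupOf.mpr hxH)

/-- Ward's theorem, internal form. -/
theorem ward_internal (p : ℕ) (hp : p.Prime) :
    ∀ (n : ℕ) (Γ : Type u) [Group Γ] [Finite Γ] (A G : Subgroup Γ), Nat.card G = n →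
      Group.IsSolvable G → Cfsg.IsElementaryAbelian p A → Nat.card A = p ^ 2 →
      A ≤ normalizer (G : Set Γ) → (∀ g ∈ G, (∀ x ∈ A, x * g = g * x) → g = 1) → MN G := by
  intro n
  induction n using Nat.strong_induction_on with
  | _ n ih =>
    intro Γ _ _ A G hn hsolv hA hcard hAG hfix
    by_contra hnot
    haveI := Fact.mk hp
    have hAp : IsPGroup p A := IsPGroup.of_card hcard
    have hAc : ∀ x ∈ A, ∀ y ∈ A, x * y = y * x := fun x hx y hy =>
      congrArg Subtype.val (hA.1.is_comm.comm (⟨x, hx⟩ : ↥A) ⟨y, hy⟩)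
    have hndvd : ¬ p ∣ Nat.card G := by
      intro hd
      obtain ⟨t, ht, ht1, htfix⟩ := exists_fixed_of_dvd hAp hAG hd
      exact ht1 (hfix t ht htfix)
    have hAG1 : ∀ x ∈ A, x ∈ G → x = 1 :=
      fun x hxA hxG => hfix x hxG (fun y hy => hAc y hy x hxA)
    have hsub : ∀ H : Subgroup Γ, H ≤ G → H ≠ G → A ≤ normalizer (H : Set Γ) → MN H := by
      intro H hHG hne hAH
      have hlt : Nat.card H < n := by
        rw [← hn]
        by_contra hge
        exact hne (Subgroup.eq_of_le_of_card_ge hHG (not_lt.mp hge))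
      exact ih (Nat.card H) hlt Γ A H rfl (Cfsg.Agent.Lib.Helper1.isSolvable_of_le' hHG hsolv)
        hA hcard hAH (fun g hg hc => hfix g (hHG hg) hc)
    have hquot : ∀ N : Subgroup Γ, N ≤ G → N ≠ ⊥ → G ≤ normalizer (N : Set Γ) →
        A ≤ normalizer (N : Set Γ) →
        ∃ k m : ℕ, (G.lowerCentralSeries k).lowerCentralSeries m ≤ N := by
      intro N hNG hN1 hGN hAN
      have hlt : Nat.card (qmap N G) < n := by rw [← hn]; exact card_qmap_lt hNG hGN hN1
      have hNcop : (Nat.card N).Coprime p := by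
        rw [Nat.coprime_comm, Nat.Prime.coprime_iff_not_dvd hp]
        exact fun hd => hndvd (hd.trans (Subgroup.card_dvd_of_le hNG))
      have hfix' : ∀ g ∈ qmap N G, (∀ x ∈ qmap N A, x * g = g * x) → g = 1 := by
        intro g' hg' hc
        obtain ⟨g, hgN, hgG, rfl⟩ := exists_of_mem_qmap hg'
        have hg : ∀ a ∈ A, g⁻¹ * (a * g * a⁻¹) ∈ N := by
          intro a ha
          have haN : a ∈ normalizer (N : Set Γ) := hAN ha
          have h1 := hc (qm N ⟨a, haN⟩) (qm_mem_qmap haN ha)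
          have h2 : qm N ((⟨g, hgN⟩ : ↥(normalizer (N : Set Γ)))⁻¹ *
              (⟨a, haN⟩ * ⟨g, hgN⟩ * (⟨a, haN⟩ : ↥(normalizer (N : Set Γ)))⁻¹)) = 1 := by
            rw [map_mul, map_mul, map_mul, map_inv, map_inv, h1]; group
          exact (qm_eq_one_iff N _).mp h2
        obtain ⟨n', hn', hfixn⟩ := Cfsg.Agent.Lib.Helper32.coset_fixed_elt p hAp hAN hNcop g hg
        have h3 : g * n' = 1 := hfix (g * n') (G.mul_mem hgG (hNG hn'))
          (fun a ha => comm_of_conj_eq (hfixn a ha))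
        have h4 : g ∈ N := by
          have e : g = n'⁻¹ := eq_inv_of_mul_eq_one_left h3
          rw [e]; exact N.inv_mem hn'
        exact (qm_eq_one_iff N _).mpr h4
      obtain ⟨k, m, hkm⟩ := ih (Nat.card (qmap N G)) hlt (QG N) (qmap N A) (qmap N G) rfl
        (qmap_solvable hsolv) (qmap_elemAb hA)
        ((card_qmap_eq hAN (fun x hxA hxN => hAG1 x hxA (hNG hxN))).trans hcard)
        (qmap_le_normalizer hAG) hfix'
      exact ⟨k, m, lcs_le_of_quot hGN hkm⟩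
    have hmc : MC p A G :=
      { hp := hp, hA := hA, hcard := hcard, hAG := hAG, hfix := hfix, hndvd := hndvd,
        hsub := hsub, hquot := hquot, hnot := hnot, hsolv := hsolv }
    apply hmc.false
    intro a ha ha1 u hu w hw hau haw hcop
    obtain ⟨a', ha', hnot'⟩ := exists_indep hA.2 hcard ha ha1
    have hgen := indep_gen hA.2 hcard ha ha1 ha' hnot'
    have hmemC : ∀ x, x ∈ G ⊓ centralizer ({a} : Set Γ) ↔ x ∈ G ∧ a * x = x * a := fun x => by
      rw [Subgroup.mem_inf, mem_cent_singleton]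
    have hcaa' : Commute a a' := hAc a ha a' ha'
    have h1 : ∀ x ∈ G ⊓ centralizer ({a} : Set Γ), a' * x * a'⁻¹ ∈ G ⊓ centralizer ({a} : Set Γ) := by
      intro x hx
      rw [hmemC] at hx ⊢
      exact ⟨conj_mem_of_nz (hAG ha') hx.1,
        ((hcaa'.mul_right (show Commute a x from hx.2)).mul_right hcaa'.inv_right).eq⟩
    have h2 : ∀ x ∈ G ⊓ centralizer ({a} : Set Γ), a'⁻¹ * x * a' ∈ G ⊓ centralizer ({a} : Set Γ) := by
      intro x hx
      rw [hmemC] at hx ⊢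
      exact ⟨conj_mem_of_nz' (hAG ha') hx.1,
        ((hcaa'.inv_right.mul_right (show Commute a x from hx.2)).mul_right hcaa').eq⟩
    have hfpf : ∀ x ∈ G ⊓ centralizer ({a} : Set Γ), a' * x = x * a' → x = 1 := by
      intro x hx hcomm
      rw [hmemC] at hx
      exact hfix x hx.1 (fun y hy => comm_of_mem_sup_zpowers (hgen hy) hx.2 hcomm)
    haveI hnilC : Group.IsNilpotent ↥(G ⊓ centralizer ({a} : Set Γ)) :=
      Cfsg.Agent.Lib.Helper26.nilpotent_of_conj_fpf _ a' p hp (hA.2 a' ha') h1 h2 hfpf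
    have h3 := Cfsg.Agent.Lib.Helper4.commute_of_coprime_of_isNilpotent
      ↥(G ⊓ centralizer ({a} : Set Γ)) ⟨u, (hmemC u).mpr ⟨hu, hau⟩⟩ ⟨w, (hmemC w).mpr ⟨hw, haw⟩⟩
      (by rw [Subgroup.orderOf_mk, Subgroup.orderOf_mk]; exact hcop)
    exact congrArg Subtype.val h3

end Cfsg.Agent.Lib.Helper12.Ward
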